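import Mathlib
import Cfsg.Agent.Helper10.Thompson
import Cfsg.Agent.Helper50.CD

set_option autoImplicit false

/-!
# Timmesfeld replacement: the counting core

For `A` acting (by conjugation) on an abelian subgroup `V` with abelian image, write
`cfix V B = |B| * |C_V(B)|`.  If `A` maximises `cfix V` among its subgroups, then for every `U ≤ V`
the subgroup `C_A([U, A])` has the same value and `C_V(C_A([U,A])) = [U,A] C_V(A)`.
-/

namespace Cfsg.Agent.Helper10

open scoped commutatorElement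

variable {G : Type*} [Group G]

/-- `|B| * |C_V(B)|`. -/
noncomputable def cfix (V B : Subgroup G) : ℕ :=
  Nat.card B * Nat.card ↥(V ⊓ Subgroup.centralizer (B : Set G))

theorem cfix_pos [Finite G] (V B : Subgroup G) : 0 < cfix V B :=
  Nat.mul_pos Nat.card_pos Nat.card_pos

/-- The fibre-counting lemma: if the fibres of `φ` lie in cosets of `B` then `|α| ≤ |X| |B|`. -/
theorem card_le_of_fiber {α X : Type*} [Group α] [Finite α] [Finite X] (B : Subgroup α)
    (φ : α → X) (h : ∀ b b' : α, φ b = φ b' → b⁻¹ * b' ∈ B) :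
    Nat.card α ≤ Nat.card X * Nat.card B := by
  classical
  have hr : ∀ b, φ (Function.invFun φ (φ b)) = φ b := fun b => Function.invFun_eq ⟨b, rfl⟩
  let ψ : α → X × B := fun b => (φ b, ⟨(Function.invFun φ (φ b))⁻¹ * b, h _ _ (hr b)⟩)
  have hψ : Function.Injective ψ := by
    intro b b' e
    have e1 : φ b = φ b' := congrArg Prod.fst e
    have e2 : (Function.invFun φ (φ b))⁻¹ * b = (Function.invFun φ (φ b'))⁻¹ * b' :=
      congrArg (fun z => (z.2 : α)) e
    rw [e1] at e2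
    exact mul_left_cancel e2
  have := Nat.card_le_card_of_injective ψ hψ
  rwa [Nat.card_prod] at this

/-- The product inequality for `cfix`, in its equality case. -/
theorem cfix_inf_of_max [Finite G] (V B1 B2 : Subgroup G) (M : ℕ) (h1 : cfix V B1 = M)
    (h2 : cfix V B2 = M) (hsup : cfix V (B1 ⊔ B2) ≤ M) (hinf : cfix V (B1 ⊓ B2) ≤ M) :
    cfix V (B1 ⊓ B2) = M ∧
      V ⊓ Subgroup.centralizer ((B1 ⊓ B2 : Subgroup G) : Set G) =
        (V ⊓ Subgroup.centralizer (B1 : Set G)) ⊔ (V ⊓ Subgroup.centralizer (B2 : Set G)) := by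
  have hC12 : (V ⊓ Subgroup.centralizer (B1 : Set G)) ⊔ (V ⊓ Subgroup.centralizer (B2 : Set G)) ≤
      V ⊓ Subgroup.centralizer ((B1 ⊓ B2 : Subgroup G) : Set G) :=
    sup_le (inf_le_inf_left _ (Subgroup.centralizer_le inf_le_left))
      (inf_le_inf_left _ (Subgroup.centralizer_le inf_le_right))
  have hCi : (V ⊓ Subgroup.centralizer (B1 : Set G)) ⊓ (V ⊓ Subgroup.centralizer (B2 : Set G)) =
      V ⊓ Subgroup.centralizer ((B1 ⊔ B2 : Subgroup G) : Set G) := by
    rw [Helper50.centralizer_sup]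
    exact (inf_inf_distrib_left _ _ _).symm
  have e1 : Nat.card B1 * Nat.card B2 ≤
      Nat.card (B1 ⊔ B2 : Subgroup G) * Nat.card (B1 ⊓ B2 : Subgroup G) :=
    card_mul_card_le le_sup_left le_sup_right
  have e2 := card_mul_card_le
    (le_sup_left : V ⊓ Subgroup.centralizer (B1 : Set G) ≤ (V ⊓ Subgroup.centralizer (B1 : Set G)) ⊔
      (V ⊓ Subgroup.centralizer (B2 : Set G)))
    (le_sup_right : V ⊓ Subgroup.centralizer (B2 : Set G) ≤ (V ⊓ Subgroup.centralizer (B1 : Set G)) ⊔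
      (V ⊓ Subgroup.centralizer (B2 : Set G)))
  rw [hCi] at e2
  unfold cfix at h1 h2 hsup hinf ⊢
  have e3 : M * M ≤ M * (Nat.card (B1 ⊓ B2 : Subgroup G) *
      Nat.card ((V ⊓ Subgroup.centralizer (B1 : Set G)) ⊔ (V ⊓ Subgroup.centralizer (B2 : Set G)) :
        Subgroup G)) := by
    calc M * M = (Nat.card B1 * Nat.card ↥(V ⊓ Subgroup.centralizer (B1 : Set G))) *
          (Nat.card B2 * Nat.card ↥(V ⊓ Subgroup.centralizer (B2 : Set G))) := by rw [h1, h2]
      _ = (Nat.card B1 * Nat.card B2) * (Nat.card ↥(V ⊓ Subgroup.centralizer (B1 : Set G)) *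
          Nat.card ↥(V ⊓ Subgroup.centralizer (B2 : Set G))) := by ring
      _ ≤ (Nat.card (B1 ⊔ B2 : Subgroup G) * Nat.card (B1 ⊓ B2 : Subgroup G)) *
          (Nat.card ((V ⊓ Subgroup.centralizer (B1 : Set G)) ⊔
            (V ⊓ Subgroup.centralizer (B2 : Set G)) : Subgroup G) *
            Nat.card ↥(V ⊓ Subgroup.centralizer ((B1 ⊔ B2 : Subgroup G) : Set G))) :=
        Nat.mul_le_mul e1 e2
      _ = (Nat.card (B1 ⊔ B2 : Subgroup G) *
            Nat.card ↥(V ⊓ Subgroup.centralizer ((B1 ⊔ B2 : Subgroup G) : Set G))) *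
          (Nat.card (B1 ⊓ B2 : Subgroup G) *
            Nat.card ((V ⊓ Subgroup.centralizer (B1 : Set G)) ⊔
              (V ⊓ Subgroup.centralizer (B2 : Set G)) : Subgroup G)) := by ring
      _ ≤ M * (Nat.card (B1 ⊓ B2 : Subgroup G) *
            Nat.card ((V ⊓ Subgroup.centralizer (B1 : Set G)) ⊔
              (V ⊓ Subgroup.centralizer (B2 : Set G)) : Subgroup G)) :=
        Nat.mul_le_mul_right _ hsup
  have hMpos : 0 < M := by
    rw [← h1]; exact Nat.mul_pos Nat.card_pos Nat.card_pos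
  have e4 := Nat.le_of_mul_le_mul_left e3 hMpos
  have e5 := Subgroup.card_le_of_le hC12
  have e6 := hinf.trans e4
  have e7 := Nat.le_of_mul_le_mul_left e6 Nat.card_pos
  exact ⟨le_antisymm hinf (e4.trans (Nat.mul_le_mul_left _ e5)),
    (Subgroup.eq_of_le_of_card_ge hC12 e7).symm⟩

/-- `⟨[v, a] : a ∈ A⟩`. -/
def commSpan (A : Subgroup G) (v : G) : Subgroup G :=
  Subgroup.closure {x | ∃ a ∈ A, x = ⁅v, a⁆}

theorem commSpan_le (V A : Subgroup G) (hAV : A ≤ Subgroup.normalizer (V : Set G)) {v : G}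
    (hv : v ∈ V) : commSpan A v ≤ V := by
  rw [commSpan, Subgroup.closure_le]
  rintro _ ⟨a, ha, rfl⟩
  have h1 : a * v⁻¹ * a⁻¹ ∈ V :=
    (Subgroup.mem_normalizer_iff.mp (hAV ha) v⁻¹).mp (V.inv_mem hv)
  have h2 : ⁅v, a⁆ = v * (a * v⁻¹ * a⁻¹) := by rw [commutatorElement_def]; group
  rw [SetLike.mem_coe, h2]
  exact V.mul_mem hv h1

/-- The maps `w ↦ [w, a]` on `V` commute with each other when `A` acts with abelian image. -/
theorem comm_comm_swap (V A : Subgroup G) (hc : ∀ x ∈ V, ∀ y ∈ V, x * y = y * x)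
    (hAV : A ≤ Subgroup.normalizer (V : Set G)) (hab : ⁅A, A⁆ ≤ Subgroup.centralizer (V : Set G))
    {w a d : G} (hw : w ∈ V) (ha : a ∈ A) (hd : d ∈ A) : ⁅⁅w, a⁆, d⁆ = ⁅⁅w, d⁆, a⁆ := by
  have hu : a * w * a⁻¹ ∈ V := (Subgroup.mem_normalizer_iff.mp (hAV ha) w).mp hw
  have ht : d * w * d⁻¹ ∈ V := (Subgroup.mem_normalizer_iff.mp (hAV hd) w).mp hw
  have hs : d * (a * w * a⁻¹) * d⁻¹ ∈ V := (Subgroup.mem_normalizer_iff.mp (hAV hd) _).mp hu
  have hF : d * (a * w * a⁻¹) * d⁻¹ = a * (d * w * d⁻¹) * a⁻¹ := by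
    have hz : ⁅d⁻¹, a⁻¹⁆ ∈ Subgroup.centralizer (V : Set G) :=
      hab (Subgroup.commutator_mem_commutator (A.inv_mem hd) (A.inv_mem ha))
    have hz' := hz w hw
    have h1 : ⁅d⁻¹, a⁻¹⁆ * w * ⁅d⁻¹, a⁻¹⁆⁻¹ = w := by rw [← hz']; group
    calc d * (a * w * a⁻¹) * d⁻¹ = a * d * (⁅d⁻¹, a⁻¹⁆ * w * ⁅d⁻¹, a⁻¹⁆⁻¹) * d⁻¹ * a⁻¹ := by
          simp only [commutatorElement_def]; group
      _ = a * (d * w * d⁻¹) * a⁻¹ := by rw [h1]; group
  have e1 : ⁅⁅w, a⁆, d⁆ =
      w * (a * w * a⁻¹)⁻¹ * (d * (a * w * a⁻¹) * d⁻¹) * (d * w * d⁻¹)⁻¹ := by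
    simp only [commutatorElement_def]; group
  have e2 : ⁅⁅w, d⁆, a⁆ =
      w * (d * w * d⁻¹)⁻¹ * (a * (d * w * d⁻¹) * a⁻¹) * (a * w * a⁻¹)⁻¹ := by
    simp only [commutatorElement_def]; group
  rw [e1, e2, ← hF]
  generalize d * (a * w * a⁻¹) * d⁻¹ = s at hs ⊢
  generalize a * w * a⁻¹ = u at hu ⊢
  generalize d * w * d⁻¹ = t at ht ⊢
  have hui := V.inv_mem hu
  have hti := V.inv_mem ht
  calc w * u⁻¹ * s * t⁻¹ = w * (u⁻¹ * (s * t⁻¹)) := by group
    _ = w * (u⁻¹ * (t⁻¹ * s)) := by rw [hc s hs t⁻¹ hti]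
    _ = w * ((u⁻¹ * t⁻¹) * s) := by group
    _ = w * ((t⁻¹ * u⁻¹) * s) := by rw [hc u⁻¹ hui t⁻¹ hti]
    _ = w * (t⁻¹ * (u⁻¹ * s)) := by group
    _ = w * (t⁻¹ * (s * u⁻¹)) := by rw [hc u⁻¹ hui s hs]
    _ = w * t⁻¹ * s * u⁻¹ := by group

/-- If `[v, d]` is centralized by `A` then `d` centralizes `⟨[v, a] : a ∈ A⟩`. -/
theorem mem_centralizer_commSpan (V A : Subgroup G) (hc : ∀ x ∈ V, ∀ y ∈ V, x * y = y * x)
    (hAV : A ≤ Subgroup.normalizer (V : Set G)) (hab : ⁅A, A⁆ ≤ Subgroup.centralizer (V : Set G))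
    {v d : G} (hv : v ∈ V) (hd : d ∈ A) (h : ⁅v, d⁆ ∈ Subgroup.centralizer (A : Set G)) :
    d ∈ Subgroup.centralizer (commSpan A v : Set G) := by
  have key : commSpan A v ≤ Subgroup.centralizer {d} := by
    rw [commSpan, Subgroup.closure_le]
    rintro _ ⟨a, ha, rfl⟩
    rw [SetLike.mem_coe, Subgroup.mem_centralizer_singleton_iff]
    have h1 : ⁅⁅v, a⁆, d⁆ = 1 := by
      rw [comm_comm_swap V A hc hAV hab hv ha hd, commutatorElement_eq_one_iff_commute]
      exact (h a ha).symm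
    exact commutatorElement_eq_one_iff_commute.mp h1
  intro x hx
  exact Subgroup.mem_centralizer_singleton_iff.mp (key hx)

/-- The counting injection `A / C_A([v,A]) → [v,A] / C_{[v,A]}(A)`. -/
theorem card_mul_le_single [Finite G] (V A : Subgroup G) (hc : ∀ x ∈ V, ∀ y ∈ V, x * y = y * x)
    (hAV : A ≤ Subgroup.normalizer (V : Set G)) (hab : ⁅A, A⁆ ≤ Subgroup.centralizer (V : Set G))
    {v : G} (hv : v ∈ V) :
    Nat.card A * Nat.card ↥(commSpan A v ⊓ (V ⊓ Subgroup.centralizer (A : Set G))) ≤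
      Nat.card ↥(A ⊓ Subgroup.centralizer (commSpan A v : Set G)) * Nat.card (commSpan A v) := by
  set W := commSpan A v with hW
  set C := V ⊓ Subgroup.centralizer (A : Set G) with hC
  set Av := A ⊓ Subgroup.centralizer (W : Set G) with hAv
  let φ : A → ↥W ⧸ (C.subgroupOf W) := fun b =>
    QuotientGroup.mk ⟨⁅v, (b : G)⁆, Subgroup.subset_closure ⟨b, b.2, rfl⟩⟩
  have hφ : ∀ b b' : A, φ b = φ b' → b⁻¹ * b' ∈ Av.subgroupOf A := by
    intro b b' e
    have e' := QuotientGroup.eq.mp e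
    rw [Subgroup.mem_subgroupOf] at e' ⊢
    have e'' : ⁅v, (b : G)⁆⁻¹ * ⁅v, (b' : G)⁆ ∈ C := by simpa using e'
    have hcb : (b : G)⁻¹ * (⁅v, (b : G)⁆⁻¹ * ⁅v, (b' : G)⁆) * b = ⁅v, (b : G)⁆⁻¹ * ⁅v, (b' : G)⁆ := by
      have h1 := e''.2 b b.2
      rw [mul_assoc, ← h1]; group
    have hid : ⁅v, (b : G)⁻¹ * b'⁆ = (b : G)⁻¹ * (⁅v, (b : G)⁆⁻¹ * ⁅v, (b' : G)⁆) * b := by
      simp only [commutatorElement_def]; group
    have hmem : ⁅v, (b : G)⁻¹ * b'⁆ ∈ Subgroup.centralizer (A : Set G) := by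
      rw [hid, hcb]; exact e''.2
    have hdA : (b : G)⁻¹ * b' ∈ A := A.mul_mem (A.inv_mem b.2) b'.2
    have hcoe : ((b⁻¹ * b' : A) : G) = (b : G)⁻¹ * b' := by simp
    rw [hcoe]
    exact Subgroup.mem_inf.mpr ⟨hdA, mem_centralizer_commSpan V A hc hAV hab hv hdA hmem⟩
  have h1 := card_le_of_fiber (Av.subgroupOf A) φ hφ
  have h2 : Nat.card (Av.subgroupOf A) = Nat.card Av :=
    Nat.card_congr (Subgroup.subgroupOfEquivOfLe (inf_le_left : Av ≤ A)).toEquiv
  have h3 : Nat.card W = Nat.card (↥W ⧸ C.subgroupOf W) * Nat.card ↥(W ⊓ C) := by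
    have h4 := Subgroup.card_eq_card_quotient_mul_card_subgroup (C.subgroupOf W)
    have h5 : Nat.card (C.subgroupOf W) = Nat.card ↥(W ⊓ C) := by
      rw [← Subgroup.inf_subgroupOf_left]
      exact Nat.card_congr (Subgroup.subgroupOfEquivOfLe (inf_le_left : W ⊓ C ≤ W)).toEquiv
    rw [h4, h5]
  rw [h2] at h1
  calc Nat.card A * Nat.card ↥(W ⊓ C)
      ≤ (Nat.card (↥W ⧸ C.subgroupOf W) * Nat.card Av) * Nat.card ↥(W ⊓ C) :=
        Nat.mul_le_mul_right _ h1
    _ = Nat.card Av * Nat.card W := by rw [h3]; ring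

/-- The single-element step of the replacement theorem. -/
theorem cfix_single [Finite G] (V A : Subgroup G) (hc : ∀ x ∈ V, ∀ y ∈ V, x * y = y * x)
    (hAV : A ≤ Subgroup.normalizer (V : Set G)) (hab : ⁅A, A⁆ ≤ Subgroup.centralizer (V : Set G))
    {v : G} (hv : v ∈ V) :
    cfix V A ≤ cfix V (A ⊓ Subgroup.centralizer (commSpan A v : Set G)) ∧
      (cfix V (A ⊓ Subgroup.centralizer (commSpan A v : Set G)) ≤ cfix V A →
        V ⊓ Subgroup.centralizer ((A ⊓ Subgroup.centralizer (commSpan A v : Set G) : Subgroup G) :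
            Set G) = commSpan A v ⊔ (V ⊓ Subgroup.centralizer (A : Set G))) := by
  have hWV : commSpan A v ≤ V := commSpan_le V A hAV hv
  have i1 := card_mul_le_single V A hc hAV hab hv
  unfold cfix
  set W := commSpan A v with hW
  set C := V ⊓ Subgroup.centralizer (A : Set G) with hC
  set Av := A ⊓ Subgroup.centralizer (W : Set G) with hAv
  have hsub : W ⊔ C ≤ V ⊓ Subgroup.centralizer (Av : Set G) := by
    refine sup_le (le_inf hWV ?_) (inf_le_inf_left _ (Subgroup.centralizer_le inf_le_left))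
    intro w hw x hx
    exact (hx.2 w hw).symm
  have i2 : Nat.card W * Nat.card C ≤ Nat.card (W ⊔ C : Subgroup G) * Nat.card (W ⊓ C : Subgroup G) :=
    card_mul_card_le le_sup_left le_sup_right
  have i3 : Nat.card A * Nat.card C * Nat.card (W ⊓ C : Subgroup G) ≤
      Nat.card Av * Nat.card (W ⊔ C : Subgroup G) * Nat.card (W ⊓ C : Subgroup G) := by
    calc Nat.card A * Nat.card C * Nat.card (W ⊓ C : Subgroup G)
        = (Nat.card A * Nat.card (W ⊓ C : Subgroup G)) * Nat.card C := by ring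
      _ ≤ (Nat.card Av * Nat.card W) * Nat.card C := Nat.mul_le_mul_right _ i1
      _ = Nat.card Av * (Nat.card W * Nat.card C) := by ring
      _ ≤ Nat.card Av * (Nat.card (W ⊔ C : Subgroup G) * Nat.card (W ⊓ C : Subgroup G)) :=
        Nat.mul_le_mul_left _ i2
      _ = Nat.card Av * Nat.card (W ⊔ C : Subgroup G) * Nat.card (W ⊓ C : Subgroup G) := by ring
  have i4 : Nat.card A * Nat.card C ≤ Nat.card Av * Nat.card (W ⊔ C : Subgroup G) :=
    Nat.le_of_mul_le_mul_right i3 Nat.card_pos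
  have i5 := Subgroup.card_le_of_le hsub
  refine ⟨i4.trans (Nat.mul_le_mul_left _ i5), fun hle => ?_⟩
  have i6 := Nat.le_of_mul_le_mul_left (hle.trans i4) Nat.card_pos
  exact (Subgroup.eq_of_le_of_card_ge hsub i6).symm

theorem centralizer_bot_eq_top : Subgroup.centralizer (((⊥ : Subgroup G)) : Set G) = ⊤ := by
  ext x
  simp only [Subgroup.mem_top, iff_true]
  intro h hh
  rw [SetLike.mem_coe, Subgroup.mem_bot] at hh
  rw [hh, one_mul, mul_one]

/-- The finite induction of the replacement theorem. -/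
theorem cfix_finset [Finite G] (V A : Subgroup G) (hc : ∀ x ∈ V, ∀ y ∈ V, x * y = y * x)
    (hAV : A ≤ Subgroup.normalizer (V : Set G)) (hab : ⁅A, A⁆ ≤ Subgroup.centralizer (V : Set G))
    (hbest : ∀ B ≤ A, cfix V B ≤ cfix V A) (s : Finset G) (hs : ∀ v ∈ s, v ∈ V) :
    cfix V (A ⊓ Subgroup.centralizer ((s.sup (commSpan A) : Subgroup G) : Set G)) = cfix V A ∧
      V ⊓ Subgroup.centralizer
          ((A ⊓ Subgroup.centralizer ((s.sup (commSpan A) : Subgroup G) : Set G) : Subgroup G) :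
            Set G) = s.sup (commSpan A) ⊔ (V ⊓ Subgroup.centralizer (A : Set G)) := by
  classical
  induction s using Finset.induction_on with
  | empty =>
    have h0 : A ⊓ Subgroup.centralizer (((⊥ : Subgroup G)) : Set G) = A := by
      rw [centralizer_bot_eq_top, inf_top_eq]
    rw [Finset.sup_empty, h0, bot_sup_eq]
    exact ⟨rfl, rfl⟩
  | insert v s hvs ih =>
    have ih' := ih (fun w hw => hs w (Finset.mem_insert_of_mem hw))
    have hv := hs v (Finset.mem_insert_self v s)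
    obtain ⟨s1, s2⟩ := cfix_single V A hc hAV hab hv
    have e1 : cfix V (A ⊓ Subgroup.centralizer (commSpan A v : Set G)) = cfix V A :=
      le_antisymm (hbest _ inf_le_left) s1
    have e2 := s2 (hbest _ inf_le_left)
    have key := cfix_inf_of_max V (A ⊓ Subgroup.centralizer (commSpan A v : Set G))
      (A ⊓ Subgroup.centralizer ((s.sup (commSpan A) : Subgroup G) : Set G)) (cfix V A) e1 ih'.1
      (hbest _ (sup_le inf_le_left inf_le_left)) (hbest _ (inf_le_left.trans inf_le_left))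
    have hrew : A ⊓ Subgroup.centralizer ((((insert v s).sup (commSpan A)) : Subgroup G) : Set G) =
        (A ⊓ Subgroup.centralizer (commSpan A v : Set G)) ⊓
          (A ⊓ Subgroup.centralizer ((s.sup (commSpan A) : Subgroup G) : Set G)) := by
      rw [Finset.sup_insert, Helper50.centralizer_sup]
      exact inf_inf_distrib_left _ _ _
    rw [hrew, Finset.sup_insert]
    refine ⟨key.1, ?_⟩
    rw [key.2, e2, ih'.2]
    exact (sup_sup_distrib_right _ _ _).symm

/-- **Timmesfeld replacement, counting core.** -/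
theorem replacement_core [Finite G] (V A U : Subgroup G) (hc : ∀ x ∈ V, ∀ y ∈ V, x * y = y * x)
    (hAV : A ≤ Subgroup.normalizer (V : Set G)) (hab : ⁅A, A⁆ ≤ Subgroup.centralizer (V : Set G))
    (hbest : ∀ B ≤ A, cfix V B ≤ cfix V A) (hU : U ≤ V) :
    cfix V (A ⊓ Subgroup.centralizer ((⁅U, A⁆ : Subgroup G) : Set G)) = cfix V A ∧
      V ⊓ Subgroup.centralizer
          ((A ⊓ Subgroup.centralizer ((⁅U, A⁆ : Subgroup G) : Set G) : Subgroup G) : Set G) =
        ⁅U, A⁆ ⊔ (V ⊓ Subgroup.centralizer (A : Set G)) := by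
  classical
  have hfin : (U : Set G).Finite := Set.toFinite _
  have hsup : hfin.toFinset.sup (commSpan A) = ⁅U, A⁆ := by
    apply le_antisymm
    · apply Finset.sup_le
      intro v hv
      rw [Set.Finite.mem_toFinset] at hv
      rw [commSpan, Subgroup.closure_le]
      rintro _ ⟨a, ha, rfl⟩
      exact Subgroup.commutator_mem_commutator hv ha
    · rw [Subgroup.commutator_le]
      intro u hu a ha
      have h1 : commSpan A u ≤ hfin.toFinset.sup (commSpan A) :=
        Finset.le_sup (f := commSpan A) ((Set.Finite.mem_toFinset hfin).mpr hu)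
      exact h1 (Subgroup.subset_closure ⟨a, ha, rfl⟩)
  have h := cfix_finset V A hc hAV hab hbest hfin.toFinset
    (fun v hv => hU ((Set.Finite.mem_toFinset hfin).mp hv))
  rwa [hsup] at h

end Cfsg.Agent.Helper10
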