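import Mathlib
import Cfsg.Agent.Helper10.TransK
import Cfsg.Agent.Helper10.Replacement
import Cfsg.Agent.Helper10.Offender2
import Cfsg.Agent.S0611
import Cfsg.Agent.Helper50.SubnSylow

/-!
Helper10: abelian (not necessarily elementary abelian) 2-subgroups `A` of a faithful group `H`
(with `FFHyp 2 V H Q`) which maximise `|B| |C_V(B)|` among their subgroups are elementary abelian.
-/

set_option autoImplicit false

namespace Cfsg.Agent.Helper10

open scoped commutatorElement

variable {G : Type*} [Group G]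

/-- If `V = [V, A] C_V(A)` for a `p`-group `A` acting on the elementary abelian `p`-group `V`
then `[V, A] = 1`. -/
theorem commutator_eq_bot_of_le_sup_fixed_pgroup [Finite G] {p : ℕ} [Fact p.Prime]
    (V A : Subgroup G)
    (hV : Cfsg.IsElementaryAbelian p V) (hAV : A ≤ Subgroup.normalizer (V : Set G))
    (hAp : IsPGroup p A)
    (h : V ≤ ⁅V, A⁆ ⊔ (V ⊓ Subgroup.centralizer (A : Set G))) : ⁅V, A⁆ = ⊥ := by
  have hc : ∀ x ∈ V, ∀ y ∈ V, x * y = y * x := ((elemAb_iff p V).mp hV).1
  have hWV : ⁅V, A⁆ ≤ V := commutator_le_of_le_normalizer V A hAV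
  have hNV : ⁅⁅V, A⁆, A⁆ ≤ V := (Subgroup.commutator_mono hWV le_rfl).trans hWV
  apply eq_bot_of_le_commutator_of_pgroup V A ⁅V, A⁆ (elemAb_isPGroup hV) hAp hAV hWV
  rw [Subgroup.commutator_le]
  intro v hv a ha
  have hv' : v ∈ Subgroup.closure (((⁅V, A⁆ : Subgroup G) : Set G) ∪
      ((V ⊓ Subgroup.centralizer (A : Set G) : Subgroup G) : Set G)) := by
    rw [Subgroup.closure_union, Subgroup.closure_eq, Subgroup.closure_eq]
    exact h hv
  have key : ∀ x, x ∈ Subgroup.closure (((⁅V, A⁆ : Subgroup G) : Set G) ∪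
      ((V ⊓ Subgroup.centralizer (A : Set G) : Subgroup G) : Set G)) →
      x ∈ V ∧ ∀ b ∈ A, ⁅x, b⁆ ∈ ⁅⁅V, A⁆, A⁆ := by
    intro x hx
    induction hx using Subgroup.closure_induction with
    | mem x hx =>
      rcases hx with hx | hx
      · exact ⟨hWV hx, fun b hb => Subgroup.commutator_mem_commutator hx hb⟩
      · refine ⟨hx.1, fun b hb => ?_⟩
        have : ⁅x, b⁆ = 1 := by
          rw [commutatorElement_eq_one_iff_commute]
          exact (hx.2 b hb).symm
        rw [this]
        exact Subgroup.one_mem _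
    | one =>
      refine ⟨V.one_mem, fun b hb => ?_⟩
      rw [commutatorElement_one_left]
      exact Subgroup.one_mem _
    | mul x y _ _ ihx ihy =>
      refine ⟨V.mul_mem ihx.1 ihy.1, fun b hb => ?_⟩
      have e : ⁅x * y, b⁆ = x * ⁅y, b⁆ * x⁻¹ * ⁅x, b⁆ := by
        simp only [commutatorElement_def]; group
      have e2 : x * ⁅y, b⁆ * x⁻¹ = ⁅y, b⁆ := by
        rw [hc x ihx.1 _ (hNV (ihy.2 b hb))]; group
      rw [e, e2]
      exact Subgroup.mul_mem _ (ihy.2 b hb) (ihx.2 b hb)
    | inv x _ ihx =>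
      refine ⟨V.inv_mem ihx.1, fun b hb => ?_⟩
      have e : ⁅x⁻¹, b⁆ = x⁻¹ * ⁅x, b⁆⁻¹ * x := by
        simp only [commutatorElement_def]; group
      have e2 : x⁻¹ * ⁅x, b⁆⁻¹ * x = ⁅x, b⁆⁻¹ := by
        rw [mul_assoc, ← hc x ihx.1 _ (V.inv_mem (hNV (ihx.2 b hb)))]; group
      rw [e, e2]
      exact Subgroup.inv_mem _ (ihx.2 b hb)
  exact (key v hv').2 a ha

/-- `A` maximises `|B| |C_V(B)|` among its subgroups. -/
def IsBO (V A : Subgroup G) : Prop := ∀ B : Subgroup G, B ≤ A → cfix V B ≤ cfix V A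

theorem IsBO.bestOffender {p : ℕ} {V A : Subgroup G} (h : IsBO V A)
    (hab : ∀ a ∈ A, ∀ b ∈ A, a * b = b * a) (hsq : ∀ a ∈ A, a ^ p = 1) :
    Cfsg.IsBestOffenderOn p V A := by
  refine ⟨fun B hB => h B hB, ?_, ?_⟩
  · rw [Subgroup.commutator_le]
    intro a ha b hb
    rw [commutatorElement_eq_one_iff_commute.mpr (hab a ha b hb)]
    exact Subgroup.one_mem _
  · intro a ha
    rw [hsq a ha]
    exact Subgroup.one_mem _

theorem centralizer_sup_eq (B C : Subgroup G) :
    Subgroup.centralizer ((B ⊔ C : Subgroup G) : Set G) =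
      Subgroup.centralizer (B : Set G) ⊓ Subgroup.centralizer (C : Set G) := by
  apply le_antisymm
  · exact le_inf (Subgroup.centralizer_le (SetLike.coe_subset_coe.mpr le_sup_left))
      (Subgroup.centralizer_le (SetLike.coe_subset_coe.mpr le_sup_right))
  · rw [Subgroup.le_centralizer_iff]
    exact sup_le (Subgroup.le_centralizer_iff.mp inf_le_left)
      (Subgroup.le_centralizer_iff.mp inf_le_right)

/-- A nontrivial abelian 2-subgroup with the offender inequality contains a nontrivial best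
offender. -/
theorem exists_bestOffender_le_of_isBO [Finite G] [Fact (Nat.Prime 2)] {V H : Subgroup G}
    (hV : Cfsg.IsElementaryAbelian 2 V) (hHV : H ≤ Subgroup.normalizer (V : Set G))
    (hf : H ⊓ Subgroup.centralizer (V : Set G) = ⊥) (n : ℕ) :
    ∀ A : Subgroup G, Nat.card A = n → A ≤ H → (∀ a ∈ A, ∀ b ∈ A, a * b = b * a) →
      IsPGroup 2 A → IsBO V A → A ≠ ⊥ →
      ∃ B : Subgroup G, B ≤ A ∧ B ≠ ⊥ ∧ Cfsg.IsBestOffenderOn 2 V B := by
  induction n using Nat.strong_induction_on with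
  | _ n ih =>
    intro A hn hAH hab hAp hbo hA1
    obtain ⟨hc, hexp⟩ := (elemAb_iff 2 V).mp hV
    have hAV : A ≤ Subgroup.normalizer (V : Set G) := hAH.trans hHV
    have habc : ⁅A, A⁆ ≤ Subgroup.centralizer (V : Set G) := by
      rw [Subgroup.commutator_le]
      intro a ha b hb
      rw [commutatorElement_eq_one_iff_commute.mpr (hab a ha b hb)]
      exact Subgroup.one_mem _
    by_cases hq : ∀ v ∈ V, A ≤ Subgroup.centralizer (commSpan A v : Set G)
    · refine ⟨A, le_rfl, hA1, hbo.bestOffender hab ?_⟩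
      intro a ha
      have h1 : a ^ 2 ∈ H ⊓ Subgroup.centralizer (V : Set G) := by
        refine Subgroup.mem_inf.mpr ⟨H.pow_mem (hAH ha) 2, ?_⟩
        rw [Subgroup.mem_centralizer_iff]
        intro w hw
        have hc1 : ⁅w⁻¹, a⁆ ∈ commSpan A w⁻¹ := Subgroup.subset_closure ⟨a, ha, rfl⟩
        have hcV : ⁅w⁻¹, a⁆ ∈ V := commSpan_le V A hAV (V.inv_mem hw) hc1
        have hca : ⁅w⁻¹, a⁆ * a = a * ⁅w⁻¹, a⁆ :=
          Subgroup.mem_centralizer_iff.mp (hq _ (V.inv_mem hw) ha) _ hc1
        have hcc : ⁅w⁻¹, a⁆ * ⁅w⁻¹, a⁆ = 1 := by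
          have := hexp _ hcV
          rwa [pow_two] at this
        have e1 : a * w * a⁻¹ = w * ⁅w⁻¹, a⁆ := by rw [commutatorElement_def]; group
        have e3 : a * ⁅w⁻¹, a⁆ * a⁻¹ = ⁅w⁻¹, a⁆ := by rw [← hca]; group
        have e2 : a ^ 2 * w * (a ^ 2)⁻¹ = w := by
          calc a ^ 2 * w * (a ^ 2)⁻¹ = a * (a * w * a⁻¹) * a⁻¹ := by rw [pow_two]; group
            _ = a * (w * ⁅w⁻¹, a⁆) * a⁻¹ := by rw [e1]
            _ = (a * w * a⁻¹) * (a * ⁅w⁻¹, a⁆ * a⁻¹) := by group
            _ = (w * ⁅w⁻¹, a⁆) * ⁅w⁻¹, a⁆ := by rw [e1, e3]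
            _ = w := by rw [mul_assoc, hcc, mul_one]
        calc w * a ^ 2 = a ^ 2 * w * (a ^ 2)⁻¹ * a ^ 2 := by rw [e2]
          _ = a ^ 2 * w := by group
      rw [hf] at h1
      exact Subgroup.mem_bot.mp h1
    · push Not at hq
      obtain ⟨v, hv, hvA⟩ := hq
      obtain ⟨i1, i2⟩ := cfix_single V A hc hAV habc hv
      have hle : cfix V (A ⊓ Subgroup.centralizer (commSpan A v : Set G)) ≤ cfix V A :=
        hbo _ inf_le_left
      have heq := le_antisymm hle i1
      have hbo' : IsBO V (A ⊓ Subgroup.centralizer (commSpan A v : Set G)) :=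
        fun B hB => (hbo B (hB.trans inf_le_left)).trans (le_of_eq heq.symm)
      have hne : A ⊓ Subgroup.centralizer (commSpan A v : Set G) ≠ ⊥ := by
        intro h0
        have h3 := i2 hle
        rw [h0, centralizer_bot_eq_top, inf_top_eq] at h3
        have hcs : commSpan A v ≤ ⁅V, A⁆ := by
          rw [commSpan, Subgroup.closure_le]
          rintro _ ⟨a, ha, rfl⟩
          exact Subgroup.commutator_mem_commutator hv ha
        have h4 : V ≤ ⁅V, A⁆ ⊔ (V ⊓ Subgroup.centralizer (A : Set G)) :=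
          (le_of_eq h3).trans (sup_le_sup_right hcs _)
        have h5 := commutator_eq_bot_of_le_sup_fixed_pgroup V A hV hAV hAp h4
        have h6 : A ≤ H ⊓ Subgroup.centralizer (V : Set G) :=
          le_inf hAH (Subgroup.le_centralizer_iff.mp
            (Subgroup.commutator_eq_bot_iff_le_centralizer.mp h5))
        rw [hf] at h6
        exact hA1 (le_bot_iff.mp h6)
      have hlt : Nat.card ↥(A ⊓ Subgroup.centralizer (commSpan A v : Set G)) < n := by
        rw [← hn]
        by_contra hh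
        have h7 := Subgroup.eq_of_le_of_card_ge
          (inf_le_left : A ⊓ Subgroup.centralizer (commSpan A v : Set G) ≤ A) (not_lt.mp hh)
        exact hvA (inf_eq_left.mp h7)
      obtain ⟨B, hB, hB1, hBbo⟩ := ih _ hlt _ rfl (inf_le_left.trans hAH)
        (fun a ha b hb => hab a ha.1 b hb.1) (hAp.to_le inf_le_left) hbo' hne
      exact ⟨B, hB.trans inf_le_left, hB1, hBbo⟩

section ff

variable [Finite G] {p : ℕ} [Fact p.Prime] {V H Q : Subgroup G}

/-- A best offender of order `p` is a transvection subgroup, with fixed points of index `p`. -/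
theorem FFHyp.tsub_of_offender (h : FFHyp p V H Q) {A : Subgroup G} (hAH : A ≤ H)
    (hA : Cfsg.IsBestOffenderOn p V A) (hAc : Nat.card A = p) :
    IsTSub p V H A ∧ (V ⊓ Subgroup.centralizer (A : Set G)).relIndex V = p := by
  have hp : p.Prime := Fact.out
  obtain ⟨hVc, hexp⟩ := (elemAb_iff p V).mp h.hV
  have hcm := offender_card_mul V H Q h.hV h.hHV h.hf h.hQH h.hHQ h.hQp h.hfaith _ A rfl hAH hA
  have e1 : Nat.card V = Nat.card ↥(V ⊓ Subgroup.centralizer (A : Set G)) *
      (V ⊓ Subgroup.centralizer (A : Set G)).relIndex V :=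
    card_eq_card_mul_relIndex inf_le_left
  have hcV : (V ⊓ Subgroup.centralizer (A : Set G)).relIndex V = p := by
    have e3 : Nat.card ↥(V ⊓ Subgroup.centralizer (A : Set G)) *
        (V ⊓ Subgroup.centralizer (A : Set G)).relIndex V =
        Nat.card ↥(V ⊓ Subgroup.centralizer (A : Set G)) * p := by
      rw [← e1, ← hcm, hAc, mul_comm]
    exact Nat.eq_of_mul_eq_mul_left Nat.card_pos e3
  have hA1 : A ≠ ⊥ := by
    rintro rfl
    rw [Subgroup.card_bot] at hAc
    exact hp.one_lt.ne hAc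
  have hAV : ⁅V, A⁆ ≠ ⊥ := by
    intro h0
    have h1 : A ≤ H ⊓ Subgroup.centralizer (V : Set G) :=
      le_inf hAH (Subgroup.le_centralizer_iff.mp
        (Subgroup.commutator_eq_bot_iff_le_centralizer.mp h0))
    rw [h.hf] at h1
    exact hA1 (le_bot_iff.mp h1)
  refine ⟨⟨hAH, hAc, ?_⟩, hcV⟩
  obtain ⟨⟨a, haA⟩, ha1'⟩ := (Subgroup.ne_bot_iff_exists_ne_one.mp hA1)
  have ha1 : a ≠ 1 := fun h => ha1' (Subtype.ext h)
  have hgen : ∀ a' ∈ A, ∃ k : ℕ, a ^ k = a' := by
    have hz : Subgroup.zpowers a = A := by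
      apply Subgroup.eq_of_le_of_card_ge (Subgroup.zpowers_le.mpr haA)
      rw [hAc, Nat.card_zpowers]
      have h1 : orderOf a ∣ p := by
        rw [← hAc, ← Subgroup.orderOf_mk a haA]
        exact orderOf_dvd_natCard _
      rcases (Nat.dvd_prime hp).mp h1 with h | h
      · exact absurd (orderOf_eq_one_iff.mp h) ha1
      · exact le_of_eq h.symm
    intro a' ha'
    rw [← hz] at ha'
    exact (Submonoid.mem_powers_iff _ _).mp
      (mem_powers_iff_mem_zpowers.mpr ha')
  have haN : a ∈ Subgroup.normalizer (V : Set G) := h.hHV (hAH haA)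
  have hker : (Cfsg.Agent.S0611.commMap V hVc a haN).ker =
      (V ⊓ Subgroup.centralizer (A : Set G)).subgroupOf V := by
    ext v
    rw [MonoidHom.mem_ker, Cfsg.Agent.S0611.commMap_apply, Subgroup.mem_subgroupOf,
      Subgroup.mem_inf, commutatorElement_eq_one_iff_commute]
    constructor
    · intro h
      refine ⟨v.2, ?_⟩
      rw [Subgroup.mem_centralizer_iff]
      intro a' ha'
      obtain ⟨k, rfl⟩ := hgen a' ha'
      exact ((h.pow_right k).eq).symm
    · rintro ⟨-, h⟩
      exact (Subgroup.mem_centralizer_iff.mp h a haA).symm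
  have hrange : Nat.card (Cfsg.Agent.S0611.commMap V hVc a haN).range = p := by
    rw [← Subgroup.index_ker, hker]
    exact hcV
  have hle : ⁅V, A⁆ ≤ (Cfsg.Agent.S0611.commMap V hVc a haN).range := by
    rw [Subgroup.commutator_le]
    intro v hv a' ha'
    obtain ⟨k, rfl⟩ := hgen a' ha'
    exact Cfsg.Agent.S0611.comm_pow_mem V (Cfsg.Agent.S0611.commMap V hVc a haN).range a haN
      (fun w hw => ⟨⟨w, hw⟩, rfl⟩) k v hv
  have hdvd : Nat.card ↥(⁅V, A⁆) ∣ p := by
    rw [← hrange]
    exact Subgroup.card_dvd_of_le hle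
  rcases (Nat.dvd_prime hp).mp hdvd with h | h
  · exact absurd (Subgroup.eq_bot_of_card_eq _ h) hAV
  · exact h

/-- A nontrivial best offender contains a transvection subgroup. -/
theorem FFHyp.exists_tsub_le (h : FFHyp p V H Q) {B : Subgroup G} (hBH : B ≤ H)
    (hB : Cfsg.IsBestOffenderOn p V B) (hB1 : B ≠ ⊥) :
    ∃ A : Subgroup G, A ≤ B ∧ IsTSub p V H A ∧
      (V ⊓ Subgroup.centralizer (A : Set G)).relIndex V = p := by
  obtain ⟨k, Bf, hBf, -, hsup⟩ :=
    offender_decomp V H Q h.hV h.hHV h.hf h.hQH h.hHQ h.hQp h.hfaith _ B rfl hBH hB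
  rcases Nat.eq_zero_or_pos k with hk | hk
  · subst hk
    exfalso
    apply hB1
    rw [← hsup]
    exact iSup_of_empty _
  · obtain ⟨h1, h2, h3⟩ := hBf ⟨0, hk⟩
    obtain ⟨h4, h5⟩ := h.tsub_of_offender (h1.trans hBH) h2 h3
    exact ⟨Bf ⟨0, hk⟩, h1, h4, h5⟩

end ff

/-- **Abelian offenders are elementary abelian** (`p = 2`, solvable-type hypothesis `FFHyp`). -/
theorem FFHyp.sq_eq_one_of_isBO [Finite G] [Fact (Nat.Prime 2)] {V H Q : Subgroup G}
    (h : FFHyp 2 V H Q) (n : ℕ) :
    ∀ A : Subgroup G, Nat.card A = n → A ≤ H → (∀ a ∈ A, ∀ b ∈ A, a * b = b * a) →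
      IsPGroup 2 A → IsBO V A → ∀ a ∈ A, a ^ 2 = 1 := by
  induction n using Nat.strong_induction_on with
  | _ n ih =>
    intro A hn hAH hab hAp hbo
    by_cases hA1 : A = ⊥
    · intro a ha
      rw [hA1, Subgroup.mem_bot] at ha
      rw [ha, one_pow]
    obtain ⟨B, hBA, hB1, hBbo⟩ :=
      exists_bestOffender_le_of_isBO h.hV h.hHV h.hf _ A rfl hAH hab hAp hbo hA1
    obtain ⟨A₀, hA₀B, hT, hrel⟩ := h.exists_tsub_le (hBA.trans hAH) hBbo hB1
    have hA₀A : A₀ ≤ A := hA₀B.trans hBA
    obtain ⟨W, hWV, hW4, hA₀W, hall⟩ := h.plane_two hT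
    obtain ⟨t₀, ht₀, ht₀1⟩ := ffp_exists_ne_one_of_card_prime Nat.prime_two hT.2.1
    have henum := card_two_enum hT.2.1 ht₀ ht₀1
    have ht₀sq : t₀ * t₀ = 1 := by
      rcases henum (t₀ * t₀) (A₀.mul_mem ht₀ ht₀) with h1 | h1
      · exact h1
      · exfalso; exact ht₀1 (mul_eq_left.mp h1)
    have hA₀sq : ∀ t ∈ A₀, t * t = 1 := by
      intro t ht
      rcases henum t ht with h1 | h1
      · rw [h1, mul_one]
      · rw [h1]; exact ht₀sq
    have hAN : A ≤ Subgroup.normalizer (A₀ : Set G) :=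
      Helper49.mem_normalizer_of_forall_conj (fun g hg x hx => by
        have e : g * x * g⁻¹ = x := by rw [hab g hg x (hA₀A hx)]; group
        rw [e]; exact hx)
    have hdec : ∀ a ∈ A, ∃ t ∈ A₀, a * t ∈ A ⊓ Subgroup.centralizer (W : Set G) := by
      intro a ha
      obtain ⟨-, t, ht, hat⟩ := hall a (hAH ha) (hAN ha)
      exact ⟨t, ht, Subgroup.mem_inf.mpr ⟨A.mul_mem ha (hA₀A ht), hat⟩⟩
    have ht₀A' : t₀ ∉ A ⊓ Subgroup.centralizer (W : Set G) := by
      intro hh
      have h1 : t₀ ∈ A₀ ⊓ Subgroup.centralizer (W : Set G) :=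
        Subgroup.mem_inf.mpr ⟨ht₀, (Subgroup.mem_inf.mp hh).2⟩
      rw [hA₀W] at h1
      exact ht₀1 (Subgroup.mem_bot.mp h1)
    have hlt : Nat.card ↥(A ⊓ Subgroup.centralizer (W : Set G)) < n := by
      rw [← hn]
      by_contra hh
      have h7 := Subgroup.eq_of_le_of_card_ge
        (inf_le_left : A ⊓ Subgroup.centralizer (W : Set G) ≤ A) (not_lt.mp hh)
      apply ht₀A'
      rw [h7]
      exact hA₀A ht₀
    -- the key identity
    have hkey : ∀ B' : Subgroup G, B' ≤ A ⊓ Subgroup.centralizer (W : Set G) →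
        cfix V (B' ⊔ A₀) = cfix V B' := by
      intro B' hB'
      have hB'A : B' ≤ A := hB'.trans inf_le_left
      have hB'W : B' ≤ Subgroup.centralizer (W : Set G) := hB'.trans inf_le_right
      have hinf : B' ⊓ A₀ = ⊥ := by
        rw [eq_bot_iff, ← hA₀W]
        exact le_inf inf_le_right (inf_le_left.trans hB'W)
      have hcard := Helper50.card_mul_card_eq_of_le_normalizer (hB'A.trans hAN)
      rw [hinf, Subgroup.card_bot, mul_one, hT.2.1] at hcard
      -- fixed points
      have hfix : V ⊓ Subgroup.centralizer ((B' ⊔ A₀ : Subgroup G) : Set G) =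
          (V ⊓ Subgroup.centralizer (B' : Set G)) ⊓ Subgroup.centralizer (A₀ : Set G) := by
        rw [centralizer_sup_eq, inf_assoc]
      have hWC : W ≤ V ⊓ Subgroup.centralizer (B' : Set G) :=
        le_inf hWV (Subgroup.le_centralizer_iff.mp hB'W)
      have hrel2 : (Subgroup.centralizer (A₀ : Set G)).relIndex
          (V ⊓ Subgroup.centralizer (B' : Set G)) = 2 := by
        have h0 : (Subgroup.centralizer (A₀ : Set G)).relIndex V = 2 := by
          rw [Subgroup.inf_relIndex_left] at hrel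
          exact hrel
        have h1 : (Subgroup.centralizer (A₀ : Set G)).relIndex
            (V ⊓ Subgroup.centralizer (B' : Set G)) ≤ 2 := by
          rw [← h0]
          exact Subgroup.relIndex_le_of_le_right inf_le_left (by rw [h0]; norm_num)
        have h2 : (Subgroup.centralizer (A₀ : Set G)).relIndex
            (V ⊓ Subgroup.centralizer (B' : Set G)) ≠ 1 := by
          intro h3
          have h4 := Subgroup.relIndex_eq_one.mp h3
          have h5 : A₀ ≤ A₀ ⊓ Subgroup.centralizer (W : Set G) :=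
            le_inf le_rfl (Subgroup.le_centralizer_iff.mp (hWC.trans h4))
          rw [hA₀W] at h5
          exact ht₀1 (Subgroup.mem_bot.mp (h5 ht₀))
        have h3 : (Subgroup.centralizer (A₀ : Set G)).relIndex
            (V ⊓ Subgroup.centralizer (B' : Set G)) ≠ 0 := by
          unfold Subgroup.relIndex
          exact Subgroup.index_ne_zero_of_finite
        omega
      have hcard2 : Nat.card ↥(V ⊓ Subgroup.centralizer (B' : Set G)) =
          Nat.card ↥((V ⊓ Subgroup.centralizer (B' : Set G)) ⊓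
            Subgroup.centralizer (A₀ : Set G)) * 2 := by
        rw [card_eq_card_mul_relIndex (inf_le_left :
          (V ⊓ Subgroup.centralizer (B' : Set G)) ⊓ Subgroup.centralizer (A₀ : Set G) ≤
            V ⊓ Subgroup.centralizer (B' : Set G)), Subgroup.inf_relIndex_left, hrel2]
      unfold cfix
      rw [hfix, ← hcard, hcard2]
      ring
    have hsupA : (A ⊓ Subgroup.centralizer (W : Set G)) ⊔ A₀ = A := by
      apply le_antisymm (sup_le inf_le_left hA₀A)
      intro a ha
      obtain ⟨t, ht, hat⟩ := hdec a ha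
      have e : a = (a * t) * t⁻¹ := by group
      rw [e]
      exact Subgroup.mul_mem _ (Subgroup.mem_sup_left hat)
        (Subgroup.mem_sup_right (A₀.inv_mem ht))
    have hbo' : IsBO V (A ⊓ Subgroup.centralizer (W : Set G)) := by
      intro B' hB'
      have h1 := hbo (B' ⊔ A₀) (sup_le (hB'.trans inf_le_left) hA₀A)
      rw [hkey B' hB'] at h1
      have h2 := hkey (A ⊓ Subgroup.centralizer (W : Set G)) le_rfl
      rw [hsupA] at h2
      rw [← h2]
      exact h1
    have hsq' := ih _ hlt (A ⊓ Subgroup.centralizer (W : Set G)) rfl (inf_le_left.trans hAH)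
      (fun a ha b hb => hab a ha.1 b hb.1) (hAp.to_le inf_le_left) hbo'
    intro a ha
    obtain ⟨t, ht, hat⟩ := hdec a ha
    have h1 := hsq' _ hat
    have h2 : (a * t) ^ 2 = a ^ 2 * (t * t) := by
      have h3 := hab a ha t (hA₀A ht)
      calc (a * t) ^ 2 = a * (t * a) * t := by rw [pow_two]; group
        _ = a * (a * t) * t := by rw [h3]
        _ = a ^ 2 * (t * t) := by rw [pow_two]; group
    rw [h2, hA₀sq t ht, mul_one] at h1
    exact h1

end Cfsg.Agent.Helper10
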