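import Mathlib
import Cfsg.Agent.Helper35.SZ

set_option autoImplicit false

/-! CALL S1437 (helper2), piece FR (helper10, double): `q`-th powers and commutators of `Q` lie
in `Q₁`. -/

namespace Cfsg.Agent.Helper10

open Cfsg Subgroup
open scoped Pointwise

universe u

variable {G : Type u} [Group G] [Finite G]

/-- FR (pure). -/
theorem bg15b_frat {Q Q₁ : Subgroup G} {q : ℕ} (hq : q.Prime) (hQq : IsPGroup q Q)
    (hQ₁Q : Q₁ ≤ Q) (hne : Q₁ ≠ Q)
    (hdich : ∀ N : Subgroup G, (∀ g : G, g ∈ normalizer (Q : Set G) →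
      g ∈ normalizer (Q₁ : Set G) → g ∈ normalizer (N : Set G)) → Q₁ ≤ N → N ≤ Q →
      N = Q₁ ∨ N = Q) :
    ∀ a ∈ Q, ∀ b ∈ Q, a ^ q ∈ Q₁ ∧ a * b * a⁻¹ * b⁻¹ ∈ Q₁ := by
  haveI : Fact q.Prime := ⟨hq⟩
  obtain ⟨S, hS⟩ : ∃ S : Set G, S = {g | ∃ a ∈ Q, g = a ^ q} ∪
      {g | ∃ a ∈ Q, ∃ b ∈ Q, g = a * b * a⁻¹ * b⁻¹} := ⟨_, rfl⟩
  have hSQ : S ⊆ Q := by
    rw [hS]
    rintro g (⟨a, ha, rfl⟩ | ⟨a, ha, b, hb, rfl⟩)
    · exact Q.pow_mem ha q
    · exact Q.mul_mem (Q.mul_mem (Q.mul_mem ha hb) (Q.inv_mem ha)) (Q.inv_mem hb)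
  have hYQ : closure S ≤ Q := (closure_le Q).mpr hSQ
  have hconjS : ∀ g ∈ normalizer (Q : Set G), ∀ h ∈ S, g * h * g⁻¹ ∈ S := by
    intro g hg h hh
    rw [Subgroup.mem_normalizer_iff] at hg
    rw [hS] at hh ⊢
    rcases hh with ⟨a, ha, rfl⟩ | ⟨a, ha, b, hb, rfl⟩
    · left
      exact ⟨g * a * g⁻¹, (hg a).mp ha, (conj_pow).symm⟩
    · right
      refine ⟨g * a * g⁻¹, (hg a).mp ha, g * b * g⁻¹, (hg b).mp hb, ?_⟩
      group
  have hconjY : ∀ g ∈ normalizer (Q : Set G), ∀ h ∈ closure S, g * h * g⁻¹ ∈ closure S := by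
    intro g hg h hh
    induction hh using Subgroup.closure_induction with
    | mem x hx => exact subset_closure (hconjS g hg x hx)
    | one => simp
    | mul x y _ _ hx hy =>
      have h1 : g * (x * y) * g⁻¹ = (g * x * g⁻¹) * (g * y * g⁻¹) := by group
      rw [h1]
      exact mul_mem hx hy
    | inv x _ hx =>
      have h1 : g * x⁻¹ * g⁻¹ = (g * x * g⁻¹)⁻¹ := by group
      rw [h1]
      exact inv_mem hx
  have hnormY : ∀ g ∈ normalizer (Q : Set G),
      g ∈ normalizer ((closure S : Subgroup G) : Set G) := by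
    intro g hg
    rw [Subgroup.mem_normalizer_iff]
    intro h
    constructor
    · exact hconjY g hg h
    · intro hh
      have h1 := hconjY g⁻¹ (inv_mem hg) _ hh
      have h2 : g⁻¹ * (g * h * g⁻¹) * g⁻¹⁻¹ = h := by group
      rwa [h2] at h1
  have hN := hdich (Q₁ ⊔ closure S) (by
    intro g hgQ hgQ₁
    rw [Cfsg.Agent.Helper35.mem_normalizer_iff_conj_smul_eq, Subgroup.smul_sup,
      Cfsg.Agent.Helper35.mem_normalizer_iff_conj_smul_eq.mp hgQ₁,
      Cfsg.Agent.Helper35.mem_normalizer_iff_conj_smul_eq.mp (hnormY g hgQ)])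
    le_sup_left (sup_le hQ₁Q hYQ)
  rcases hN with hN | hN
  · intro a ha b hb
    have hY : closure S ≤ Q₁ := by
      rw [← hN]
      exact le_sup_right
    constructor
    · exact hY (subset_closure (by rw [hS]; exact Or.inl ⟨a, ha, rfl⟩))
    · exact hY (subset_closure (by rw [hS]; exact Or.inr ⟨a, ha, b, hb, rfl⟩))
  · exfalso
    obtain ⟨m, hm⟩ := IsPGroup.iff_card.mp hQq
    have hQ₁q : IsPGroup q (Q₁.subgroupOf Q) := hQq.to_subgroup _
    obtain ⟨n, hn⟩ := IsPGroup.iff_card.mp hQ₁q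
    have hlt : n < m := by
      by_contra hnm
      push Not at hnm
      have h1 : Nat.card (Q₁.subgroupOf Q) ≤ Nat.card Q := Subgroup.card_le_card_group _
      have h2 : q ^ m ≤ q ^ n := Nat.pow_le_pow_right hq.pos hnm
      have h3 : Q₁.subgroupOf Q = ⊤ := Subgroup.eq_top_of_card_eq _ (by omega)
      rw [Subgroup.subgroupOf_eq_top] at h3
      exact hne (le_antisymm hQ₁Q h3)
    obtain ⟨K₂, hK₂card, hK₂le⟩ := Sylow.exists_subgroup_card_pow_prime_le q (n := n)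
      (m := m - 1) (by rw [hm]; exact pow_dvd_pow q (Nat.sub_le m 1)) (Q₁.subgroupOf Q) hn
      (by omega)
    have hidx : K₂.index = q := by
      have h1 := K₂.card_mul_index
      rw [hK₂card, hm] at h1
      have h2 : q ^ m = q ^ (m - 1) * q := by
        rw [← pow_succ]
        congr 1
        omega
      rw [h2] at h1
      exact Nat.eq_of_mul_eq_mul_left (pow_pos hq.pos _) h1
    haveI hK₂n : K₂.Normal := Subgroup.normal_of_index_eq_minFac_card (by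
      rw [hidx, hm, hq.pow_minFac (by omega)])
    have hcq : Nat.card (↥Q ⧸ K₂) = q := by
      rw [← Subgroup.index_eq_card, hidx]
    haveI : IsCyclic (↥Q ⧸ K₂) := isCyclic_of_prime_card (p := q) hcq
    have hc : ∀ x y : ↥Q ⧸ K₂, x * y = y * x := by
      obtain ⟨g, hg⟩ := IsCyclic.exists_generator (α := ↥Q ⧸ K₂)
      intro x y
      obtain ⟨i, rfl⟩ := Subgroup.mem_zpowers_iff.mp (hg x)
      obtain ⟨j, rfl⟩ := Subgroup.mem_zpowers_iff.mp (hg y)
      rw [← zpow_add, ← zpow_add, add_comm]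
    have hYK : closure S ≤ K₂.map Q.subtype := by
      rw [closure_le, hS]
      rintro g (⟨a, ha, rfl⟩ | ⟨a, ha, b, hb, rfl⟩)
      · refine ⟨(⟨a, ha⟩ : ↥Q) ^ q, ?_, rfl⟩
        have h1 := K₂.pow_index_mem (⟨a, ha⟩ : ↥Q)
        rwa [hidx] at h1
      · refine ⟨(⟨a, ha⟩ : ↥Q) * ⟨b, hb⟩ * (⟨a, ha⟩ : ↥Q)⁻¹ * (⟨b, hb⟩ : ↥Q)⁻¹, ?_, rfl⟩
        rw [SetLike.mem_coe, ← QuotientGroup.eq_one_iff]
        rw [QuotientGroup.mk_mul, QuotientGroup.mk_mul, QuotientGroup.mk_mul,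
          QuotientGroup.mk_inv, QuotientGroup.mk_inv, hc (↑(⟨a, ha⟩ : ↥Q)) (↑(⟨b, hb⟩ : ↥Q))]
        group
    have hQ₁K : Q₁ ≤ K₂.map Q.subtype := by
      intro x hx
      exact ⟨⟨x, hQ₁Q hx⟩, hK₂le (by rw [Subgroup.mem_subgroupOf]; exact hx), rfl⟩
    have hQK : Q ≤ K₂.map Q.subtype := by
      conv_lhs => rw [← hN]
      exact sup_le hQ₁K hYK
    have htop : K₂ = ⊤ := by
      rw [eq_top_iff]
      intro y _
      obtain ⟨z, hz, hzy⟩ := hQK y.2
      have h1 : z = y := Subtype.ext hzy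
      rw [← h1]
      exact hz
    rw [htop, Subgroup.index_top] at hidx
    exact hq.one_lt.ne hidx

end Cfsg.Agent.Helper10
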