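import Mathlib
import Cfsg.Agent.Helper35.CoprimeAbelian

set_option autoImplicit false

/-! CALL S1435 (helper23), piece ABCOP (helper10). -/

namespace Cfsg.Agent.Helper10

open Cfsg Subgroup

open scoped commutatorElement

universe u

variable {G : Type u} [Group G] [Finite G] {M K U Mstar H : Subgroup G}

/-- ABCOP (pure). `K` of prime order `p` normalizing the abelian `p'`-group `Q` acts
fixed-point-freely on `[Q, K]` (`Q = C_Q(K) × [Q, K]`). -/
theorem bg65_comm_fpf {Q K : Subgroup G} (hQ : ∀ a ∈ Q, ∀ b ∈ Q, a * b = b * a)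
    (hKp : (Nat.card K).Prime) (hpQ : ¬ Nat.card K ∣ Nat.card Q)
    (hKQ : K ≤ normalizer (Q : Set G)) :
    ∀ k ∈ K, k ≠ 1 → ∀ w ∈ ⁅Q, K⁆, k * w = w * k → w = 1 := by
  intro k hk hk1 w hw hkw
  have hbot := Cfsg.Agent.Helper35.commutator_inf_centralizer_eq_bot_of_comm hKQ
    ((Nat.Prime.coprime_iff_not_dvd hKp).mpr hpQ) hQ
  have hwc : w ∈ centralizer (K : Set G) := by
    rw [Subgroup.mem_centralizer_iff]
    intro x hx
    haveI : Fact (Nat.card K).Prime := ⟨hKp⟩
    have hmem : (⟨x, hx⟩ : ↥K) ∈ Subgroup.zpowers (⟨k, hk⟩ : ↥K) :=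
      mem_zpowers_of_prime_card (p := Nat.card K) rfl (by
        intro h
        exact hk1 (congrArg Subtype.val h))
    obtain ⟨i, hi⟩ := Subgroup.mem_zpowers_iff.mp hmem
    have hx' : x = k ^ i := by
      have h1 := congrArg Subtype.val hi
      simpa using h1.symm
    rw [hx']
    have hc : Commute k w := hkw
    exact (hc.zpow_left i).eq
  have h2 : w ∈ (⁅Q, K⁆ : Subgroup G) ⊓ centralizer (K : Set G) := ⟨hw, hwc⟩
  rw [hbot] at h2
  exact h2

end Cfsg.Agent.Helper10
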