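import Mathlib
import Cfsg.Agent.Helper74.N9T6

set_option autoImplicit false

/-! CALL S1435 (helper23), piece COMMK (helper10): a restatement of helper74's `n9_comm_inv`. -/

namespace Cfsg.Agent.Helper10

open Cfsg Subgroup

open scoped commutatorElement

universe u

variable {G : Type u} [Group G] [Finite G] {M K U Mstar H : Subgroup G}

/-- COMMK (pure). `[Q, K] ≤ Q` and `K` normalizes `[Q, K]` when `K` normalizes `Q`. -/
theorem bg65_comm_basic {Q K : Subgroup G} (hKQ : K ≤ normalizer (Q : Set G)) :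
    ⁅Q, K⁆ ≤ Q ∧ K ≤ normalizer ((⁅Q, K⁆ : Subgroup G) : Set G) := by
  have h := Cfsg.Agent.Helper74.N9.n9_comm_inv Q K hKQ
  exact ⟨h.1, h.2.2⟩

end Cfsg.Agent.Helper10
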