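import Mathlib

set_option autoImplicit false

/-! CALL S1435 (helper23), piece DNORM (helper10). -/

namespace Cfsg.Agent.Helper10

open Cfsg Subgroup

open scoped commutatorElement

universe u

variable {G : Type u} [Group G] [Finite G] {M K U Mstar H : Subgroup G}

/-- DNORM (pure). `E` normalizes `[E, E]`. -/
theorem bg65_comm_norm (E : Subgroup G) : E ≤ normalizer ((⁅E, E⁆ : Subgroup G) : Set G) := by
  have key : ∀ e ∈ E, ∀ h ∈ ⁅E, E⁆, e * h * e⁻¹ ∈ ⁅E, E⁆ := by
    intro e he h hh
    have h1 : ⁅e, h⁆ ∈ ⁅E, E⁆ :=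
      Subgroup.commutator_mem_commutator he (Subgroup.commutator_le_self E hh)
    have h2 : e * h * e⁻¹ = ⁅e, h⁆ * h := by
      rw [commutatorElement_def]
      group
    rw [h2]
    exact mul_mem h1 hh
  intro e he
  rw [Subgroup.mem_normalizer_iff]
  intro h
  constructor
  · exact key e he h
  · intro hh
    have h1 := key e⁻¹ (E.inv_mem he) _ hh
    have h2 : e⁻¹ * (e * h * e⁻¹) * e⁻¹⁻¹ = h := by group
    rwa [h2] at h1

end Cfsg.Agent.Helper10
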