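import Mathlib

set_option autoImplicit false

/-! CALL S1435 (helper23), piece PPART (helper10). -/

namespace Cfsg.Agent.Helper10

open Cfsg Subgroup

open scoped commutatorElement

universe u

variable {G : Type u} [Group G] [Finite G] {M K U Mstar H : Subgroup G}

/-- the elements of the abelian subgroup `A` killed by `n`. -/
theorem ppart_torsion {A : Subgroup G} (hA : ∀ a ∈ A, ∀ b ∈ A, a * b = b * a) (n : ℕ) :
    ∃ T : Subgroup G, (∀ x, x ∈ T ↔ x ∈ A ∧ x ^ n = 1) ∧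
      ∀ g ∈ normalizer (A : Set G), g ∈ normalizer (T : Set G) := by
  let T : Subgroup G :=
    { carrier := {x | x ∈ A ∧ x ^ n = 1}
      one_mem' := ⟨A.one_mem, one_pow n⟩
      mul_mem' := by
        rintro a b ⟨ha, han⟩ ⟨hb, hbn⟩
        refine ⟨A.mul_mem ha hb, ?_⟩
        have hc : Commute a b := hA a ha b hb
        rw [hc.mul_pow, han, hbn, one_mul]
      inv_mem' := by
        rintro a ⟨ha, han⟩
        exact ⟨A.inv_mem ha, by rw [inv_pow, han, inv_one]⟩ }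
  have hT : ∀ x, x ∈ T ↔ x ∈ A ∧ x ^ n = 1 := fun x => Iff.rfl
  refine ⟨T, hT, ?_⟩
  intro g hg
  rw [Subgroup.mem_normalizer_iff] at hg ⊢
  intro x
  rw [hT, hT, ← hg x, conj_pow]
  constructor
  · rintro ⟨h1, h2⟩
    exact ⟨h1, by rw [h2, mul_one, mul_inv_cancel]⟩
  · rintro ⟨h1, h2⟩
    refine ⟨h1, ?_⟩
    have h3 : x ^ n = g⁻¹ * (g * x ^ n * g⁻¹) * g := by group
    rw [h3, h2, mul_one, inv_mul_cancel]

/-- PPART (pure). The `p`-part and the `p'`-part of an abelian subgroup. -/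
theorem bg65_ppart {A : Subgroup G} (hA : ∀ a ∈ A, ∀ b ∈ A, a * b = b * a) {p : ℕ}
    (hp : p.Prime) :
    ∃ P Q : Subgroup G, P ≤ A ∧ Q ≤ A ∧ IsPGroup p P ∧ ¬ p ∣ Nat.card Q ∧
      (∀ c ∈ A, ∃ a ∈ P, ∃ b ∈ Q, c = a * b) ∧
      ∀ g ∈ normalizer (A : Set G), g ∈ normalizer (P : Set G) ∧ g ∈ normalizer (Q : Set G) := by
  haveI : Fact p.Prime := ⟨hp⟩
  obtain ⟨k, m, hpm, hcard⟩ := Nat.exists_eq_pow_mul_and_not_dvd (n := Nat.card A)
    Nat.card_pos.ne' p hp.ne_one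
  obtain ⟨P, hP, hPn⟩ := ppart_torsion hA (p ^ k)
  obtain ⟨Q, hQ, hQn⟩ := ppart_torsion hA m
  have hAll : ∀ c ∈ A, c ^ (p ^ k * m) = 1 := by
    intro c hc
    have h1 : (⟨c, hc⟩ : ↥A) ^ Nat.card A = 1 := pow_card_eq_one'
    rw [hcard] at h1
    have h2 := congrArg Subtype.val h1
    simpa using h2
  have hAllz : ∀ c ∈ A, c ^ ((p ^ k * m : ℕ) : ℤ) = 1 := by
    intro c hc
    rw [zpow_natCast]
    exact hAll c hc
  refine ⟨P, Q, fun x hx => ((hP x).mp hx).1, fun x hx => ((hQ x).mp hx).1, ?_, ?_, ?_,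
    fun g hg => ⟨hPn g hg, hQn g hg⟩⟩
  · intro g
    refine ⟨k, ?_⟩
    apply Subtype.ext
    have h1 := ((hP (g : G)).mp g.2).2
    simpa using h1
  · intro hdvd
    obtain ⟨x, hx⟩ := exists_prime_orderOf_dvd_card' (G := ↥Q) p hdvd
    have h1 : (x : G) ^ m = 1 := ((hQ (x : G)).mp x.2).2
    have h2 : x ^ m = 1 := by
      apply Subtype.ext
      simpa using h1
    have h3 : orderOf x ∣ m := orderOf_dvd_of_pow_eq_one h2
    rw [hx] at h3
    exact hpm h3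
  · intro c hc
    have hcop : Nat.Coprime (p ^ k) m := Nat.Coprime.pow_left k ((Nat.Prime.coprime_iff_not_dvd hp).mpr hpm)
    have hbez := Nat.gcd_eq_gcd_ab (p ^ k) m
    rw [hcop] at hbez
    obtain ⟨u, hu⟩ : ∃ u : ℤ, u = Nat.gcdA (p ^ k) m := ⟨_, rfl⟩
    obtain ⟨v, hv⟩ : ∃ v : ℤ, v = Nat.gcdB (p ^ k) m := ⟨_, rfl⟩
    rw [← hu, ← hv] at hbez
    refine ⟨c ^ ((m : ℤ) * v), ?_, c ^ (((p ^ k : ℕ) : ℤ) * u), ?_, ?_⟩
    · rw [hP]
      refine ⟨A.zpow_mem hc _, ?_⟩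
      rw [← zpow_natCast, ← zpow_mul]
      have e : (m : ℤ) * v * ((p ^ k : ℕ) : ℤ) = ((p ^ k * m : ℕ) : ℤ) * v := by
        push_cast
        ring
      rw [e, zpow_mul, hAllz c hc, one_zpow]
    · rw [hQ]
      refine ⟨A.zpow_mem hc _, ?_⟩
      rw [← zpow_natCast, ← zpow_mul]
      have e : ((p ^ k : ℕ) : ℤ) * u * (m : ℤ) = ((p ^ k * m : ℕ) : ℤ) * u := by
        push_cast
        ring
      rw [e, zpow_mul, hAllz c hc, one_zpow]
    · rw [← zpow_add]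
      have e : (m : ℤ) * v + ((p ^ k : ℕ) : ℤ) * u = 1 := by
        have h1 : ((1 : ℕ) : ℤ) = ((p ^ k : ℕ) : ℤ) * u + (m : ℤ) * v := hbez
        rw [add_comm]
        exact_mod_cast h1.symm
      rw [e, zpow_one]

end Cfsg.Agent.Helper10
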