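import Mathlib

/-!
# Helper10: piece D4 of CALL S1351D (helper1): the number of conjugates of the elements of a
`W`-invariant TI-subset `A` is `|A| |G| / |W|`.
-/

set_option autoImplicit false

namespace Cfsg.Agent.Helper10

universe u v

variable {G : Type u} [Group G]

theorem bgs_card_conj [Finite G] (W : Subgroup G) (A : Set G)
    (hinv : ∀ u ∈ W, ∀ a ∈ A, u * a * u⁻¹ ∈ A)
    (hTI : ∀ a ∈ A, ∀ c : G, c * a * c⁻¹ ∈ A → c ∈ W) :
    Set.ncard {g : G | ∃ y : G, ∃ a ∈ A, g = y * a * y⁻¹} * Nat.card W =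
      Set.ncard A * Nat.card G := by
  classical
  have hrep : ∀ g : {g : G | ∃ y : G, ∃ a ∈ A, g = y * a * y⁻¹},
      ∃ p : G × G, p.2 ∈ A ∧ (g : G) = p.1 * p.2 * p.1⁻¹ := by
    rintro ⟨g, y, a, ha, rfl⟩
    exact ⟨(y, a), ha, rfl⟩
  choose rep hrepA hrepEq using hrep
  have hf : Function.Bijective
      (fun p : {g : G | ∃ y : G, ∃ a ∈ A, g = y * a * y⁻¹} × W =>
        (((rep p.1).1 * (p.2 : G)⁻¹,
          ⟨(p.2 : G) * (rep p.1).2 * (p.2 : G)⁻¹, hinv _ p.2.2 _ (hrepA p.1)⟩) : G × A)) := by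
    constructor
    · rintro ⟨g, u⟩ ⟨g', u'⟩ h
      simp only [Prod.mk.injEq, Subtype.mk.injEq] at h
      obtain ⟨h1, h2⟩ := h
      have hg : (g : G) = (g' : G) := by
        rw [hrepEq g, hrepEq g']
        have e1 : (rep g).1 * (rep g).2 * (rep g).1⁻¹ = ((rep g).1 * (u : G)⁻¹) *
            ((u : G) * (rep g).2 * (u : G)⁻¹) * ((rep g).1 * (u : G)⁻¹)⁻¹ := by group
        have e2 : (rep g').1 * (rep g').2 * (rep g').1⁻¹ = ((rep g').1 * (u' : G)⁻¹) *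
            ((u' : G) * (rep g').2 * (u' : G)⁻¹) * ((rep g').1 * (u' : G)⁻¹)⁻¹ := by group
        rw [e1, e2, h1, h2]
      have hgg : g = g' := Subtype.ext hg
      subst hgg
      have hu : (u : G) = u' := inv_injective (mul_left_cancel h1)
      rw [Prod.mk.injEq]
      exact ⟨rfl, Subtype.ext hu⟩
    · rintro ⟨y, ⟨a, ha⟩⟩
      have hgX : y * a * y⁻¹ ∈ {g : G | ∃ y : G, ∃ a ∈ A, g = y * a * y⁻¹} := ⟨y, a, ha, rfl⟩
      have heq := hrepEq ⟨y * a * y⁻¹, hgX⟩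
      have hA2 := hrepA ⟨y * a * y⁻¹, hgX⟩
      obtain ⟨r, hr⟩ : ∃ r, r = rep ⟨y * a * y⁻¹, hgX⟩ := ⟨_, rfl⟩
      rw [← hr] at heq hA2
      simp only at heq
      have hc : (y⁻¹ * r.1) * r.2 * (y⁻¹ * r.1)⁻¹ = a := by
        have e : (y⁻¹ * r.1) * r.2 * (y⁻¹ * r.1)⁻¹ = y⁻¹ * (r.1 * r.2 * r.1⁻¹) * y := by group
        rw [e, ← heq]
        group
      have hcW : y⁻¹ * r.1 ∈ W := hTI _ hA2 _ (by rw [hc]; exact ha)
      refine ⟨(⟨y * a * y⁻¹, hgX⟩, ⟨y⁻¹ * r.1, hcW⟩), ?_⟩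
      simp only [Prod.mk.injEq, Subtype.mk.injEq]
      rw [← hr]
      refine ⟨by group, hc⟩
  have hcard := Nat.card_congr (Equiv.ofBijective _ hf)
  rw [Nat.card_prod, Nat.card_prod] at hcard
  rw [← Nat.card_coe_set_eq, ← Nat.card_coe_set_eq, hcard, mul_comm]

end Cfsg.Agent.Helper10
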