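import Mathlib

/-!
# Helper10: piece D9 of CALL S1351D (helper1): the final count is impossible (pure arithmetic).
-/

set_option autoImplicit false

namespace Cfsg.Agent.Helper10

universe u v

theorem bgs_arith {ι : Type v} [Fintype ι] (j k : ι) (hjk : j ≠ k) (g W C H : ℕ)
    (s w m idx : ι → ℕ) (hg : 0 < g) (hW : 0 < W) (hs : ∀ i, 0 < s i) (hw : ∀ i, 0 < w i)
    (hm : ∀ i, idx i * m i = g) (hmw : ∀ i, m i * w i = s i * W) (h3 : ∀ i, 3 * w i ≤ s i)
    (hC : C * W = H * g) (hH : H + 1 + ∑ i, (w i - 1) = W)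
    (hsum : ∑ i, (s i - 1) * idx i + C + 1 ≤ g) : False := by
  classical
  have hn : 2 ≤ Fintype.card ι := Fintype.one_lt_card_iff.2 ⟨j, k, hjk⟩
  -- per-term identities
  have ha : ∀ i, W * (s i * idx i) = g * w i := by
    intro i
    calc W * (s i * idx i) = idx i * (s i * W) := by ring
      _ = idx i * (m i * w i) := by rw [hmw i]
      _ = (idx i * m i) * w i := by ring
      _ = g * w i := by rw [hm i]
  have hb : ∀ i, 3 * (W * idx i) ≤ g := by
    intro i
    have h1 : 3 * (W * idx i) * w i ≤ g * w i := by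
      calc 3 * (W * idx i) * w i = W * idx i * (3 * w i) := by ring
        _ ≤ W * idx i * s i := Nat.mul_le_mul_left _ (h3 i)
        _ = W * (s i * idx i) := by ring
        _ = g * w i := ha i
    exact Nat.le_of_mul_le_mul_right h1 (hw i)
  have hterm : ∀ i, 3 * (g * w i) ≤ 3 * (W * ((s i - 1) * idx i)) + g := by
    intro i
    have h1 : s i - 1 + 1 = s i := Nat.sub_add_cancel (hs i)
    have h2 : 3 * (W * ((s i - 1) * idx i)) + 3 * (W * idx i) = 3 * (g * w i) := by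
      rw [← ha i]
      calc 3 * (W * ((s i - 1) * idx i)) + 3 * (W * idx i)
          = 3 * (W * ((s i - 1 + 1) * idx i)) := by ring
        _ = 3 * (W * (s i * idx i)) := by rw [h1]
    have h3' := hb i
    omega
  -- sums
  have hS1 : 3 * (g * ∑ i, w i) ≤ 3 * (W * ∑ i, (s i - 1) * idx i) + Fintype.card ι * g := by
    have h1 : ∑ i, 3 * (g * w i) ≤ ∑ i, (3 * (W * ((s i - 1) * idx i)) + g) :=
      Finset.sum_le_sum fun i _ => hterm i
    rw [Finset.sum_add_distrib, Finset.sum_const, Finset.card_univ, smul_eq_mul,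
      ← Finset.mul_sum, ← Finset.mul_sum, ← Finset.mul_sum, ← Finset.mul_sum] at h1
    exact h1
  have hS2 : ∑ i, w i = ∑ i, (w i - 1) + Fintype.card ι := by
    have h1 : ∑ i, w i = ∑ i, ((w i - 1) + 1) :=
      Finset.sum_congr rfl fun i _ => (Nat.sub_add_cancel (hw i)).symm
    rw [h1, Finset.sum_add_distrib, Finset.sum_const, Finset.card_univ, smul_eq_mul, mul_one]
  obtain ⟨A, hA⟩ : ∃ A, A = ∑ i, (s i - 1) * idx i := ⟨_, rfl⟩
  obtain ⟨B, hB⟩ : ∃ B, B = ∑ i, w i := ⟨_, rfl⟩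
  obtain ⟨B', hB'⟩ : ∃ B', B' = ∑ i, (w i - 1) := ⟨_, rfl⟩
  obtain ⟨n, hn'⟩ : ∃ n, n = Fintype.card ι := ⟨_, rfl⟩
  rw [← hA, ← hB, ← hn'] at hS1
  rw [← hB, ← hB', ← hn'] at hS2
  rw [← hB'] at hH
  rw [← hA] at hsum
  rw [← hn'] at hn
  -- products
  have h5 : W * (A + C + 1) ≤ W * g := Nat.mul_le_mul_left W hsum
  have h6 : 2 * g ≤ n * g := Nat.mul_le_mul_right g hn
  have h7 : g * B = g * B' + g * n := by rw [hS2]; ring
  have h8 : W * g = H * g + g + B' * g := by rw [← hH]; ring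
  nlinarith [h5, h6, h7, h8, hC, hS1]

end Cfsg.Agent.Helper10
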