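import Mathlib

/-!
Helper library of seat helper10: basic facts on finite solvable groups.
Everything lives in `Cfsg.Agent.Helper10`.
-/

set_option autoImplicit false

namespace Cfsg.Agent.Helper10

/-- A nontrivial solvable group has a nontrivial abelian normal subgroup. -/
theorem exists_normal_abelian {G : Type*} [Group G] [hG : Group.IsSolvable G] [Nontrivial G] :
    ∃ A : Subgroup G, A.Normal ∧ A ≠ ⊥ ∧ ∀ a ∈ A, ∀ b ∈ A, a * b = b * a := by
  classical
  have hex : ∃ n, derivedSeries G n = ⊥ := hG.solvable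
  have hk : derivedSeries G (Nat.find hex) = ⊥ := Nat.find_spec hex
  have hk0 : Nat.find hex ≠ 0 := by
    intro h0
    rw [h0, derivedSeries_zero] at hk
    exact top_ne_bot hk
  obtain ⟨m, hm⟩ := Nat.exists_eq_succ_of_ne_zero hk0
  refine ⟨derivedSeries G m, derivedSeries_normal G m, ?_, ?_⟩
  · exact Nat.find_min hex (by rw [hm]; exact Nat.lt_succ_self m)
  · intro a ha b hb
    have h1 : a * b * a⁻¹ * b⁻¹ ∈ derivedSeries G (m + 1) := by
      rw [derivedSeries_succ]
      exact Subgroup.commutator_mem_commutator ha hb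
    rw [← Nat.succ_eq_add_one, ← hm, hk, Subgroup.mem_bot] at h1
    have : a * b = (a * b * a⁻¹ * b⁻¹) * (b * a) := by group
    rw [this, h1, one_mul]

/-- A nontrivial finite solvable group has a nontrivial abelian normal `p`-subgroup for some prime `p`. -/
theorem exists_normal_pgroup {G : Type*} [Group G] [Finite G] [Group.IsSolvable G] [Nontrivial G] :
    ∃ (p : ℕ) (_ : Fact p.Prime) (N : Subgroup G), N.Normal ∧ N ≠ ⊥ ∧ IsPGroup p N ∧
      ∀ a ∈ N, ∀ b ∈ N, a * b = b * a := by
  classical
  obtain ⟨A, hAn, hA0, hAc⟩ := exists_normal_abelian (G := G)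
  have hcard : Nat.card A ≠ 1 := by
    intro h
    exact hA0 ((Subgroup.card_eq_one).mp h)
  obtain ⟨p, hp, hpd⟩ := Nat.exists_prime_and_dvd hcard
  have hpF : Fact p.Prime := ⟨hp⟩
  obtain ⟨P⟩ : Nonempty (Sylow p A) := inferInstance
  have hPn : (P : Subgroup A).Normal := by
    constructor
    intro x hx g
    have : g * x * g⁻¹ = x := by
      apply Subtype.ext
      have := hAc _ g.2 _ x.2
      simp only [Subgroup.coe_mul, Subgroup.coe_inv]
      rw [this]
      group
    rwa [this]
  have hPc : (P : Subgroup A).Characteristic := P.characteristic_of_normal hPn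
  refine ⟨p, hpF, (P : Subgroup A).map A.subtype, inferInstance, ?_, ?_, ?_⟩
  · rw [Ne, Subgroup.map_eq_bot_iff_of_injective _ A.subtype_injective]
    exact P.ne_bot_of_dvd_card hpd
  · exact P.2.map A.subtype
  · rintro _ ⟨a, _, rfl⟩ _ ⟨b, _, rfl⟩
    exact hAc _ a.2 _ b.2

/-- If one Sylow `p`-subgroup is normal then all of them are. -/
theorem all_sylow_normal {G : Type*} [Group G] [Finite G] {p : ℕ} [Fact p.Prime] (P : Sylow p G)
    (hP : (P : Subgroup G).Normal) (Q : Sylow p G) : (Q : Subgroup G).Normal := by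
  have := Sylow.unique_of_normal P hP
  rw [Subsingleton.elim Q P]
  exact hP

end Cfsg.Agent.Helper10
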