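import Mathlib
import Cfsg.Agent.Helper43.C3ODefs
import Cfsg.Agent.Helper45.Spinor
import Cfsg.Agent.Helper45.PSO
import Cfsg.Agent.Helper43.PrimeOrdO2
import Cfsg.Agent.Helper43.PrimeOrdO3
import Cfsg.Agent.Helper14.Forms2
import Cfsg.Agent.Helper3.C3EKJ
import Cfsg.Agent.Helper83.C3ENORM
import Cfsg.Agent.Helper91.C3ECONJ

/-!
# CALL C3O, piece I2X (helper10)
-/

set_option autoImplicit false

namespace Cfsg.Agent.Helper10

open Matrix Module Polynomial
open Cfsg.Agent.Helper43.C3O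
open Cfsg.Agent.Helper43.CycFactors (cycJ)
open Cfsg.Agent.Helper43.PrimeOrdMat (psi)

universe u

section quad

variable {F : Type u} [Field F] [Fintype F] {ι : Type} [Fintype ι] [DecidableEq ι]

/-- `aeval` of `toLin'` is `toLin'` of `aeval`. -/
theorem c3oi2x_aeval_toLin' (M : Matrix ι ι F) (P : F[X]) :
    aeval (Matrix.toLin' M) P = Matrix.toLin' (aeval M P) := by
  exact Polynomial.aeval_algHom_apply
    (Matrix.toLinAlgEquiv' : Matrix ι ι F ≃ₐ[F] _).toAlgHom M P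

/-- odd powers of a square root of `n`. -/
theorem c3oi2x_pow_odd (n : F) (J : Matrix ι ι F) (hJ : J * J = n • (1 : Matrix ι ι F)) (c : ℕ) :
    J ^ (2 * c + 1) = n ^ c • J := by
  rw [pow_succ, pow_mul, pow_two, hJ, _root_.smul_pow, one_pow, Matrix.smul_mul, Matrix.one_mul]

/-- PIECE I2X (KEQ, CYC, FA, FROBPOW, FC, FD are hypotheses) -/
theorem c3o_i2x {p : ℕ} [Fact p.Prime] [CharP F p] {q : ℕ} (hq : Fintype.card F = q)
    (hodd : Odd q) (Q : QuadraticForm F (ι → F)) (r : ℕ) (hr : r.Prime) (hr2 : r ≠ 2)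
    (hrp : r ≠ p) (n : F) (hn : ¬ IsSquare n) (J : Matrix ι ι F) (hJ : IsJ Q n J)
    (y : ↥(Cfsg.isometryGroup F ⇑Q)) (hy : orderOf y = r) (hyJ : gm y * J = J * gm y)
    (P : F[X]) (hP : Irreducible P)
    (hdec : ∀ v : ι → F, ∃ v₀ w : ι → F, v = v₀ + w ∧ (gm y).mulVec v₀ = v₀ ∧
      aeval (Matrix.toLin' (gm y)) P w = 0)
    (R : F[X]) (hR : ∀ w : ι → F, aeval (Matrix.toLin' (gm y)) P w = 0 →
      J.mulVec w = (aeval (gm y) R).mulVec w)
    (hfa : ∀ w : ι → F, aeval (Matrix.toLin' (gm y)) P w = 0 →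
      (aeval (gm y⁻¹) R).mulVec w = (aeval (gm y) R).mulVec w)
    (hfrob : ∀ m : ℕ, (aeval (gm y) R) ^ (q ^ m) = aeval ((gm y) ^ (q ^ m)) R)
    (m : ℕ) (hm : Odd m) (hrm : r ∣ q ^ m + 1) (hfc : n ^ ((q ^ m - 1) / 2) = -1) : False := by
  classical
  -- 2 ≠ 0
  have h2 : (2 : F) ≠ 0 := by
    apply Ring.two_ne_zero
    intro hc
    have := (FiniteField.even_card_iff_char_two (F := F)).mp hc
    rw [hq] at this
    rcases hodd with ⟨t, ht⟩
    omega
  have hn0 : n ≠ 0 := by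
    rintro rfl
    exact hn ⟨0, by simp⟩
  -- powers of gm
  have hgmpow : ∀ k : ℕ, gm (y ^ k) = (gm y) ^ k := by
    intro k
    simp [gm]
  -- y ^ (q^m) = y⁻¹
  have hyinv : y ^ (q ^ m) = y⁻¹ := by
    obtain ⟨c, hc⟩ := hrm
    have h1 : y ^ (q ^ m + 1) = 1 := by
      rw [hc, pow_mul, ← hy, pow_orderOf_eq_one, one_pow]
    rw [pow_succ] at h1
    exact eq_inv_of_mul_eq_one_left h1
  have hMinv : (gm y) ^ (q ^ m) = gm y⁻¹ := by
    rw [← hgmpow, hyinv]
  -- A := aeval (gm y) R preserves ker P(y)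
  have hker : ∀ w : ι → F, aeval (Matrix.toLin' (gm y)) P w = 0 →
      aeval (Matrix.toLin' (gm y)) P ((aeval (gm y) R).mulVec w) = 0 := by
    intro w hw
    rw [c3oi2x_aeval_toLin'] at hw ⊢
    rw [Matrix.toLin'_apply] at hw ⊢
    rw [Matrix.mulVec_mulVec]
    have hcomm : aeval (gm y) P * aeval (gm y) R = aeval (gm y) R * aeval (gm y) P := by
      rw [← map_mul, ← map_mul, mul_comm]
    rw [hcomm, ← Matrix.mulVec_mulVec, hw, Matrix.mulVec_zero]
  -- J^k = A^k on ker P(y)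
  have hpow : ∀ k : ℕ, ∀ w : ι → F, aeval (Matrix.toLin' (gm y)) P w = 0 →
      (J ^ k).mulVec w = ((aeval (gm y) R) ^ k).mulVec w := by
    intro k
    induction k with
    | zero => intro w _; simp
    | succ k ih =>
      intro w hw
      rw [pow_succ, pow_succ, ← Matrix.mulVec_mulVec, ← Matrix.mulVec_mulVec, hR w hw]
      exact ih _ (hker w hw)
  -- J^(q^m) = -J
  have hqm : q ^ m = 2 * ((q ^ m - 1) / 2) + 1 := by
    have : Odd (q ^ m) := hodd.pow
    rcases this with ⟨t, ht⟩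
    omega
  have hJpow : J ^ (q ^ m) = -J := by
    rw [hqm, c3oi2x_pow_odd n J hJ.1, hfc, neg_one_smul]
  -- ker P(y) = 0
  have hzero : ∀ w : ι → F, aeval (Matrix.toLin' (gm y)) P w = 0 → w = 0 := by
    intro w hw
    have e1 := hpow (q ^ m) w hw
    rw [hJpow, hfrob m, hMinv, hfa w hw, ← hR w hw, Matrix.neg_mulVec] at e1
    have e2 : J.mulVec w = 0 := by
      have e3 : (2 : F) • J.mulVec w = 0 := by
        rw [two_smul]
        nth_rewrite 1 [← e1]
        simp
      exact (smul_eq_zero.mp e3).resolve_left h2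
    have e4 : n • w = 0 := by
      have : (J * J).mulVec w = n • w := by
        rw [hJ.1, Matrix.smul_mulVec, Matrix.one_mulVec]
      rw [← this, ← Matrix.mulVec_mulVec, e2, Matrix.mulVec_zero]
    exact (smul_eq_zero.mp e4).resolve_left hn0
  -- gm y = 1
  have hone : gm y = 1 := by
    apply Matrix.toLin'.injective
    apply LinearMap.ext
    intro v
    obtain ⟨v₀, w, hv, hv₀, hw⟩ := hdec v
    have hw0 := hzero w hw
    rw [hw0, add_zero] at hv
    rw [Matrix.toLin'_apply, hv, hv₀]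
    simp
  have hy1 : y = 1 := by
    apply Subtype.ext
    apply Units.ext
    exact hone
  rw [hy1, orderOf_one] at hy
  exact hr.one_lt.ne' hy.symm

end quad

end Cfsg.Agent.Helper10
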