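import Mathlib
import Cfsg.Agent.Helper43.C3ODefs
import Cfsg.Agent.Helper45.Spinor
import Cfsg.Agent.Helper45.PSO
import Cfsg.Agent.Helper43.PrimeOrdO2
import Cfsg.Agent.Helper43.PrimeOrdO3
import Cfsg.Agent.Helper14.Forms2
import Cfsg.Agent.Helper3.C3EKJ
import Cfsg.Agent.Helper83.C3ENORM
import Cfsg.Agent.Helper91.C3ECONJ

/-!
# CALL C3O, piece I4 (helper10)
-/

set_option autoImplicit false

namespace Cfsg.Agent.Helper10

open Matrix Module Polynomial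
open Cfsg.Agent.Helper43.C3O
open Cfsg.Agent.Helper43.CycFactors (cycJ)
open Cfsg.Agent.Helper43.PrimeOrdMat (psi)

universe u

section quad

variable {F : Type u} [Field F] [Fintype F] {ι : Type} [Fintype ι] [DecidableEq ι]

/-- PIECE I4 (INDM, CONJO, SYL are hypotheses; uses Helper83.c3e_norm) -/
theorem c3o_i4 (Q : QuadraticForm F (ι → F)) (n : F) (J : Matrix ι ι F)
    (K : Subalgebra F (Matrix ι ι F))
    (hJK : ∀ y, y ∈ K ↔ ∃ a b : F, y = a • (1 : Matrix ι ι F) + b • J) (r : ℕ) [Fact r.Prime]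
    (hindm : ∀ S : Subgroup (GL ι F), S ≤ Cfsg.isometryGroup F ⇑Q → ∀ k, Nat.card S = r ^ k →
      ∃ J' : Matrix ι ι F, IsJ Q n J' ∧
        ∀ s ∈ S, (s : Matrix ι ι F) * J' = J' * (s : Matrix ι ι F))
    (hconj : ∀ J' : Matrix ι ι F, IsJ Q n J' →
      ∃ h : ↥(Cfsg.isometryGroup F ⇑Q), gm h * J = J' * gm h)
    (hsyl : ∀ (S : Sylow r ↥(Cfsg.Geo.omegaGL ⇑Q)) (T : Subgroup (GL ι F)),
      T ≤ Cfsg.Geo.subalgebraNormalizer K ⊓ Cfsg.Geo.omegaGL ⇑Q → Nat.card T = Nat.card S →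
      ¬ r ∣ (Cfsg.Geo.subalgebraNormalizer K).relIndex (Cfsg.Geo.omegaGL ⇑Q)) :
    ¬ r ∣ (Cfsg.Geo.subalgebraNormalizer K).relIndex (Cfsg.Geo.omegaGL ⇑Q) := by
  classical
  obtain ⟨S₀⟩ : Nonempty (Sylow r ↥(Cfsg.Geo.omegaGL ⇑Q)) := inferInstance
  have hOle : Cfsg.Geo.omegaGL ⇑Q ≤ Cfsg.isometryGroup F ⇑Q := by
    intro g hg
    obtain ⟨ω, _, rfl⟩ := hg
    exact ω.2
  have hSle : (S₀ : Subgroup ↥(Cfsg.Geo.omegaGL ⇑Q)).map (Cfsg.Geo.omegaGL ⇑Q).subtype ≤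
      Cfsg.Geo.omegaGL ⇑Q := Subgroup.map_subtype_le _
  have hScard : Nat.card ((S₀ : Subgroup ↥(Cfsg.Geo.omegaGL ⇑Q)).map
      (Cfsg.Geo.omegaGL ⇑Q).subtype) = Nat.card S₀ :=
    Subgroup.card_map_of_injective (Subgroup.subtype_injective _)
  obtain ⟨k, hk⟩ := (IsPGroup.iff_card.mp S₀.isPGroup')
  obtain ⟨J', hJ', hcomm⟩ := hindm _ (hSle.trans hOle) k (hScard.trans hk)
  obtain ⟨h, hh⟩ := hconj J' hJ'
  have hHHi : gm h * gm h⁻¹ = 1 := by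
    show ((h : GL ι F) : Matrix ι ι F) * (((h⁻¹ : ↥(Cfsg.isometryGroup F ⇑Q)) : GL ι F) :
      Matrix ι ι F) = 1
    rw [← Units.val_mul, ← Subgroup.coe_mul, mul_inv_cancel]
    rfl
  have hHiH : gm h⁻¹ * gm h = 1 := by
    show (((h⁻¹ : ↥(Cfsg.isometryGroup F ⇑Q)) : GL ι F) : Matrix ι ι F) *
      ((h : GL ι F) : Matrix ι ι F) = 1
    rw [← Units.val_mul, ← Subgroup.coe_mul, inv_mul_cancel]
    rfl
  have hJHi : gm h⁻¹ * J' = J * gm h⁻¹ := by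
    calc gm h⁻¹ * J' = gm h⁻¹ * J' * (gm h * gm h⁻¹) := by rw [hHHi, Matrix.mul_one]
      _ = gm h⁻¹ * (J' * gm h) * gm h⁻¹ := by simp only [Matrix.mul_assoc]
      _ = gm h⁻¹ * (gm h * J) * gm h⁻¹ := by rw [hh]
      _ = (gm h⁻¹ * gm h) * J * gm h⁻¹ := by simp only [Matrix.mul_assoc]
      _ = J * gm h⁻¹ := by rw [hHiH, Matrix.one_mul]
  have hTcard : Nat.card (((S₀ : Subgroup ↥(Cfsg.Geo.omegaGL ⇑Q)).map
      (Cfsg.Geo.omegaGL ⇑Q).subtype).map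
      (MulAut.conj ((h⁻¹ : ↥(Cfsg.isometryGroup F ⇑Q)) : GL ι F)).toMonoidHom) = Nat.card S₀ := by
    rw [← hScard]
    exact Subgroup.card_map_of_injective (MulAut.conj _).injective
  refine hsyl S₀ _ ?_ hTcard
  rintro g ⟨s, hs, rfl⟩
  refine ⟨?_, ?_⟩
  · apply Cfsg.Agent.Helper83.c3e_norm K J hJK _ 1 one_ne_zero
    rw [one_smul]
    have hs' := hcomm s hs
    show (((((h⁻¹ : ↥(Cfsg.isometryGroup F ⇑Q)) : GL ι F) * s *
      ((h⁻¹ : ↥(Cfsg.isometryGroup F ⇑Q)) : GL ι F)⁻¹ : GL ι F)) : Matrix ι ι F) * J =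
      J * (((((h⁻¹ : ↥(Cfsg.isometryGroup F ⇑Q)) : GL ι F) * s *
      ((h⁻¹ : ↥(Cfsg.isometryGroup F ⇑Q)) : GL ι F)⁻¹ : GL ι F)) : Matrix ι ι F)
    have hinv : (((h⁻¹ : ↥(Cfsg.isometryGroup F ⇑Q)) : GL ι F)⁻¹ : GL ι F) = (h : GL ι F) := by
      rw [← Subgroup.coe_inv, inv_inv]
    rw [hinv, Units.val_mul, Units.val_mul]
    show gm h⁻¹ * (s : Matrix ι ι F) * gm h * J = J * (gm h⁻¹ * (s : Matrix ι ι F) * gm h)
    calc gm h⁻¹ * (s : Matrix ι ι F) * gm h * J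
        = gm h⁻¹ * (s : Matrix ι ι F) * (gm h * J) := by simp only [Matrix.mul_assoc]
      _ = gm h⁻¹ * ((s : Matrix ι ι F) * J') * gm h := by rw [hh]; simp only [Matrix.mul_assoc]
      _ = (gm h⁻¹ * J') * (s : Matrix ι ι F) * gm h := by rw [hs']; simp only [Matrix.mul_assoc]
      _ = J * (gm h⁻¹ * (s : Matrix ι ι F) * gm h) := by rw [hJHi]; simp only [Matrix.mul_assoc]
  · obtain ⟨ω, hω, rfl⟩ := hSle hs
    refine ⟨h⁻¹ * ω * h, ?_, ?_⟩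
    · have := (inferInstance : (Cfsg.Omega F ⇑Q).Normal).conj_mem ω hω h⁻¹
      rwa [inv_inv] at this
    · simp

end quad

end Cfsg.Agent.Helper10
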