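import Mathlib
import Cfsg.Agent.Helper1.C9Defs

/-! CALL S1376 (helper1): piece CYC (pure). -/

set_option autoImplicit false

namespace Cfsg.Agent.Helper10

open Subgroup

universe u

variable {G : Type u} [Group G] [Finite G]

/-- CYC (pure).  An abelian finite group with cyclic Sylow subgroups is cyclic (Mathlib `IsZGroup`). -/
theorem c9_cyc {X : Type u} [Group X] [Finite X] (hc : ∀ a b : X, a * b = b * a)
    (hs : ∀ (s : ℕ) [Fact s.Prime] (P : Sylow s X), IsCyclic ↥(P : Subgroup X)) : IsCyclic X := by
  haveI : IsZGroup X := ⟨fun p hp P => @hs p ⟨hp⟩ P⟩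
  haveI : Group.IsNilpotent X := by
    letI : CommGroup X := { (inferInstance : Group X) with mul_comm := hc }
    exact CommGroup.isNilpotent
  infer_instance

end Cfsg.Agent.Helper10
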