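import Mathlib
import Cfsg.Agent.Helper1.C9Defs

/-! CALL S1376 (helper1): piece DN (pure). -/

set_option autoImplicit false

namespace Cfsg.Agent.Helper10

open Subgroup

universe u

variable {G : Type u} [Group G] [Finite G]

/-- DN (pure).  A finite group with a normal `s`-complement for every prime `s` dividing its order is
nilpotent: a Sylow `p`-subgroup `P` lies in each normal `s`-complement `N_s`, `s ≠ p` (its image in
the `s`-group `X/N_s` is trivial), so in `T := ⨅ N_s`, a normal `p`-group; hence `P = T` is normal;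
`isNilpotent_of_finite_tfae`. -/
theorem c9_nil_of_compl {X : Type u} [Group X] [Finite X]
    (h : ∀ s : ℕ, s.Prime → s ∣ Nat.card X → HasNormalPComplement s X) : Group.IsNilpotent X := by
  apply ((isNilpotent_of_finite_tfae (G := X)).out 0 3).mpr
  intro p hpF P
  have hp : p.Prime := hpF.out
  -- the family of normal complements of Sylow `s`-subgroups, `s ≠ p`
  let 𝒩 : Set (Subgroup X) :=
    {N | N.Normal ∧ ∃ s : ℕ, s.Prime ∧ s ≠ p ∧ ∃ S : Sylow s X, N.IsComplement' (S : Subgroup X)}
  have hTn : (sInf 𝒩).Normal := by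
    refine ⟨fun n hn g => ?_⟩
    rw [Subgroup.mem_sInf] at hn ⊢
    intro N hN
    exact hN.1.conj_mem n (hn N hN) g
  have hPT : (P : Subgroup X) ≤ sInf 𝒩 := by
    intro g hg
    rw [Subgroup.mem_sInf]
    rintro N ⟨hNn, s, hs, hsp, S, hc⟩
    haveI := hNn
    haveI := Fact.mk hs
    have hidx : N.index = Nat.card (S : Subgroup X) := hc.symm.index_eq_card
    obtain ⟨k, hk⟩ := IsPGroup.iff_card.mp S.2
    obtain ⟨j, hj⟩ := (IsPGroup.iff_orderOf.mp P.2) ⟨g, hg⟩
    rw [Subgroup.orderOf_mk] at hj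
    have hcop : (orderOf g).Coprime N.index := by
      rw [hidx, hk, hj]
      exact Nat.Coprime.pow _ _ ((Nat.coprime_primes hp hs).mpr (Ne.symm hsp))
    have h1 : orderOf (QuotientGroup.mk' N g) ∣ orderOf g := orderOf_map_dvd _ g
    have h2 : orderOf (QuotientGroup.mk' N g) ∣ N.index := orderOf_dvd_natCard _
    have h3 : orderOf (QuotientGroup.mk' N g) = 1 := Nat.eq_one_of_dvd_coprimes hcop h1 h2
    rw [orderOf_eq_one_iff] at h3
    exact (QuotientGroup.eq_one_iff g).1 h3
  have hTp : IsPGroup p ↥(sInf 𝒩) := by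
    have hpos : Nat.card ↥(sInf 𝒩) ≠ 0 := Nat.card_pos.ne'
    have hpow := Nat.eq_prime_pow_of_unique_prime_dvd (p := p) hpos (by
      intro s hs hsd
      by_contra hsp
      have hsX : s ∣ Nat.card X := hsd.trans (Subgroup.card_subgroup_dvd_card _)
      obtain ⟨S, N, hNn, hc⟩ := h s hs hsX
      haveI := Fact.mk hs
      have hmem : N ∈ 𝒩 := ⟨hNn, s, hs, hsp, S, hc⟩
      have hle : sInf 𝒩 ≤ N := sInf_le hmem
      have h1 : Nat.card ↥(sInf 𝒩) ∣ Nat.card N := Subgroup.card_dvd_of_le hle
      have h2 : (S : Subgroup X).index = Nat.card N := hc.index_eq_card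
      have h3 : ¬ s ∣ (S : Subgroup X).index := S.not_dvd_index
      exact h3 (h2 ▸ hsd.trans h1))
    exact IsPGroup.of_card hpow
  have hEq : sInf 𝒩 = (P : Subgroup X) := P.3 hTp hPT
  rw [← hEq]
  exact hTn

end Cfsg.Agent.Helper10
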