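import Mathlib
import Cfsg.Agent.Helper1.C9Defs

/-! CALL S1376 (helper1): piece KQ (pure). -/

set_option autoImplicit false

namespace Cfsg.Agent.Helper10

open Subgroup

universe u

variable {G : Type u} [Group G] [Finite G]

/-- KQ (pure).  A `q`-subgroup of `S` lies in the normal Sylow `q`-subgroup `Q` of `S`. -/
theorem c9_le_Q {S Q K : Subgroup G} {q : ℕ} (hq : q.Prime) (hQS : Q ≤ S)
    (hQn : S ≤ normalizer (Q : Set G)) (hQi : ¬ q ∣ Q.relIndex S) (hKS : K ≤ S)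
    (hK : IsPGroup q K) : K ≤ Q := by
  intro k hk
  haveI := Fact.mk hq
  haveI : (Q.subgroupOf S).Normal := Subgroup.normal_subgroupOf_of_le_normalizer hQn
  obtain ⟨j, hj⟩ := (IsPGroup.iff_orderOf.mp hK) ⟨k, hk⟩
  rw [Subgroup.orderOf_mk] at hj
  have hord : orderOf (⟨k, hKS hk⟩ : ↥S) = q ^ j := by
    rw [Subgroup.orderOf_mk, hj]
  have hcop : (orderOf (⟨k, hKS hk⟩ : ↥S)).Coprime (Q.subgroupOf S).index := by
    rw [hord]
    exact Nat.Coprime.pow_left _ ((Nat.Prime.coprime_iff_not_dvd hq).mpr hQi)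
  have h1 : orderOf (QuotientGroup.mk' (Q.subgroupOf S) ⟨k, hKS hk⟩) ∣ orderOf (⟨k, hKS hk⟩ : ↥S) :=
    orderOf_map_dvd _ _
  have h2 : orderOf (QuotientGroup.mk' (Q.subgroupOf S) ⟨k, hKS hk⟩) ∣ (Q.subgroupOf S).index :=
    orderOf_dvd_natCard _
  have h3 : orderOf (QuotientGroup.mk' (Q.subgroupOf S) ⟨k, hKS hk⟩) = 1 :=
    Nat.eq_one_of_dvd_coprimes hcop h1 h2
  rw [orderOf_eq_one_iff] at h3
  have h4 : (⟨k, hKS hk⟩ : ↥S) ∈ Q.subgroupOf S := (QuotientGroup.eq_one_iff _).1 h3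
  exact Subgroup.mem_subgroupOf.mp h4

end Cfsg.Agent.Helper10
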