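import Cfsg.Agent.Helper96.CWDefs

/-!
# Helper10: piece CJ of CALL S5707 (helper96): conjugation by an element in normal form preserves
`US t S` if the factors conjugate `S` into its span.
-/

set_option autoImplicit false
set_option linter.unusedSectionVars false
set_option linter.unusedSimpArgs false
set_option linter.unusedVariables false

namespace Cfsg.Agent.Helper10.CWCJ

open Matrix Cfsg Cfsg.Geo Cfsg.Agent.Helper96 Cfsg.Agent.Helper96.CW

variable {F : Type*} [Field F] {k t : ℕ}

/-- PIECE CJ: conjugation by an element in normal form preserves `US t S` if the factors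
conjugate `S` into its span (use `wreath_conj_facM`). -/
theorem cj (S : Set (Matrix (Fin k) (Fin k) F)) (g : GL (Fin t → Fin k) F)
    (σ : Equiv.Perm (Fin t)) (a ainv : Fin t → Matrix (Fin k) (Fin k) F)
    (h1 : ∀ i, a i * ainv i = 1) (h2 : ∀ i, ainv i * a i = 1)
    (hg : (g : Matrix (Fin t → Fin k) (Fin t → Fin k) F) = fpM F k σ * ptM a)
    (hS : ∀ i, ∀ W ∈ S, a i * W * ainv i ∈ Submodule.span F S) :
    ∀ Z ∈ US t S, (g : Matrix (Fin t → Fin k) (Fin t → Fin k) F) * Z *
      ((g⁻¹ : GL (Fin t → Fin k) F) : Matrix (Fin t → Fin k) (Fin t → Fin k) F) ∈ US t S := by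
  classical
  intro Z hZ
  obtain ⟨L, hL⟩ : ∃ L : Matrix (Fin t → Fin k) (Fin t → Fin k) F →ₗ[F]
      Matrix (Fin t → Fin k) (Fin t → Fin k) F,
      ∀ Z, L Z = (g : Matrix (Fin t → Fin k) (Fin t → Fin k) F) * Z *
        ((g⁻¹ : GL (Fin t → Fin k) F) : Matrix (Fin t → Fin k) (Fin t → Fin k) F) :=
    ⟨(LinearMap.mulLeft F (g : Matrix (Fin t → Fin k) (Fin t → Fin k) F)).comp
      (LinearMap.mulRight F
        ((g⁻¹ : GL (Fin t → Fin k) F) : Matrix (Fin t → Fin k) (Fin t → Fin k) F)),
      fun Z => by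
        rw [LinearMap.comp_apply, LinearMap.mulRight_apply, LinearMap.mulLeft_apply,
          Matrix.mul_assoc]⟩
  have hle : US t S ≤ (US t S).comap L := by
    unfold US
    rw [Submodule.span_le]
    rintro Z (hZ | ⟨i, X, hX, rfl⟩)
    · rw [Set.mem_singleton_iff] at hZ
      subst hZ
      show L 1 ∈ Submodule.span F _
      rw [hL, Matrix.mul_one, Units.mul_inv]
      exact Submodule.subset_span (Or.inl rfl)
    · show L (facM i X) ∈ Submodule.span F _
      rw [hL, hg, wreath_conj_facM σ a ainv h2 i X, Matrix.mul_assoc, ← hg, Units.mul_inv,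
        Matrix.mul_one]
      have h3 : Submodule.span F S ≤ (Submodule.span F ({1} ∪ {Z | ∃ (i : Fin t)
          (X : Matrix (Fin k) (Fin k) F), X ∈ S ∧ Z = facM i X})).comap (facL k (σ i)) := by
        rw [Submodule.span_le]
        intro W hW
        exact Submodule.subset_span (Or.inr ⟨σ i, W, hW, rfl⟩)
      exact h3 (hS i X hX)
  have h4 := hle hZ
  rw [Submodule.mem_comap, hL] at h4
  exact h4

end Cfsg.Agent.Helper10.CWCJ
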