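import Cfsg.Agent.Helper96.CWDefs

/-!
# Helper10: piece IP of CALL S5707 (helper96): pure tensors of isometries of `G`.
-/

set_option autoImplicit false
set_option linter.unusedSectionVars false
set_option linter.unusedSimpArgs false
set_option linter.unusedVariables false

namespace Cfsg.Agent.Helper10.CWIP

open Matrix Cfsg Cfsg.Geo Cfsg.Agent.Helper96 Cfsg.Agent.Helper96.CW

variable {F : Type*} [Field F] {k t : ℕ}

/-- PIECE IP: pure tensors of isometries of `G`. -/
theorem ip {G : Matrix (Fin k) (Fin k) F} {Q' : ((Fin t → Fin k) → F) → F} (hT : TPQ G Q')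
    (as : Fin t → Matrix (Fin k) (Fin k) F) (h : ∀ i, (as i)ᵀ * G * as i = G) :
    (ptM as)ᵀ * GT t G * ptM as = GT t G ∧ ∀ a, Q' (ptM as *ᵥ Pi.single a 1) = 0 := by
  classical
  refine ⟨?_, ?_⟩
  · have e : (ptM as)ᵀ = ptM (fun i => (as i)ᵀ) := by
      ext x y
      rw [Matrix.transpose_apply, ptM_apply, ptM_apply]
      rfl
    unfold GT
    rw [e, ptM_mul, ptM_mul]
    congr 1
    funext i
    exact h i
  · intro a
    have e : ptM as *ᵥ Pi.single a 1 = fun x => ∏ i, (fun j => as i j (a i)) (x i) := by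
      rw [Matrix.mulVec_single_one]
      funext x
      rfl
    rw [e]
    exact hT.pure (fun i j => as i j (a i))

end Cfsg.Agent.Helper10.CWIP
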