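import Cfsg.Agent.Helper96.CWDefs

/-!
# Helper10: piece ISO of CALL S5707 (helper96): the isometry criterion.
-/

set_option autoImplicit false
set_option linter.unusedSectionVars false
set_option linter.unusedSimpArgs false
set_option linter.unusedVariables false

namespace Cfsg.Agent.Helper10.CWISO

open Matrix Cfsg Cfsg.Geo Cfsg.Agent.Helper96 Cfsg.Agent.Helper96.CW

variable {F : Type*} [Field F] {k t : ℕ}

/-- PIECE ISO: isometry criterion (a quadratic form with given polar form is determined by its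
values on the basis vectors, which are pure tensors). -/
theorem iso {G : Matrix (Fin k) (Fin k) F} {Q' : ((Fin t → Fin k) → F) → F} (hT : TPQ G Q')
    (M : Matrix (Fin t → Fin k) (Fin t → Fin k) F)
    (hB : Mᵀ * GT t G * M = GT t G) (hcol : ∀ a, Q' (M *ᵥ Pi.single a 1) = 0) :
    ∀ x, Q' (M *ᵥ x) = Q' x := by
  classical
  have hpol : ∀ x y, Q' (M *ᵥ (x + y)) - Q' (M *ᵥ x) - Q' (M *ᵥ y)
      = Q' (x + y) - Q' x - Q' y := by
    intro x y
    have h1 := hT.polar (M *ᵥ x) (M *ᵥ y)
    have h2 := hT.polar x y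
    unfold QuadraticMap.polar at h1 h2
    rw [Matrix.mulVec_add, h1, h2, T5.bf_mulVec_left, T5.bf_mulVec_right, hB]
  obtain ⟨D, hD⟩ : ∃ D : ((Fin t → Fin k) → F) → F, ∀ x, D x = Q' (M *ᵥ x) - Q' x :=
    ⟨fun x => Q' (M *ᵥ x) - Q' x, fun x => rfl⟩
  have hadd : ∀ x y, D (x + y) = D x + D y := by
    intro x y
    rw [hD, hD, hD]
    linear_combination hpol x y
  have hsmul : ∀ (c : F) x, D (c • x) = c ^ 2 * D x := by
    intro c x
    rw [hD, hD, Matrix.mulVec_smul, hT.nq.smul, hT.nq.smul]
    ring
  have hpure1 : ∀ a : Fin t → Fin k, Q' (Pi.single a 1) = 0 := by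
    intro a
    have e : (Pi.single a 1 : (Fin t → Fin k) → F)
        = fun x => ∏ i, (Pi.single (a i) 1 : Fin k → F) (x i) := by
      funext x
      simp only [Pi.single_apply]
      rw [Finset.prod_ite_zero, Finset.prod_const_one]
      by_cases h : x = a
      · subst h
        simp
      · rw [if_neg h, if_neg]
        intro h'
        exact h (funext fun i => h' i (Finset.mem_univ i))
    rw [e]
    exact hT.pure _
  have hsingle : ∀ a : Fin t → Fin k, D (Pi.single a 1) = 0 := by
    intro a
    rw [hD, hcol, hpure1, sub_zero]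
  have hsum : ∀ (s : Finset (Fin t → Fin k)) (f : (Fin t → Fin k) → ((Fin t → Fin k) → F)),
      D (∑ a ∈ s, f a) = ∑ a ∈ s, D (f a) := by
    intro s f
    exact map_sum (AddMonoidHom.mk' D hadd) f s
  intro x
  have hx : x = ∑ a, x a • (Pi.single a 1 : (Fin t → Fin k) → F) := by
    funext b
    rw [Finset.sum_apply]
    simp [Pi.single_apply]
  have hD0 : D x = 0 := by
    have e1 : D x = D (∑ a, x a • (Pi.single a 1 : (Fin t → Fin k) → F)) := by rw [← hx]
    rw [e1, hsum]
    apply Finset.sum_eq_zero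
    intro a _
    rw [hsmul, hsingle, mul_zero]
  rw [hD] at hD0
  exact sub_eq_zero.mp hD0

end Cfsg.Agent.Helper10.CWISO
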