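import Mathlib
import Cfsg.Agent.Helper9.OrdTools
import Cfsg.Agent.Helper8.SylFix

set_option autoImplicit false
set_option linter.style.haveILetI false
set_option maxHeartbeats 1000000

/-!
# CALL S4429, piece E2D2 (helper10)

A simple group of order `7920` has no involution `c` with centraliser of order `720` centralised
by an element `y` of order `5` that fixes only the trivial coset of `C(c)`: otherwise `c` fixes
exactly one of the eleven cosets and is an odd permutation.
-/

universe u

namespace Cfsg.Agent.Helper10

-- PIECE E2D2: parity on the eleven cosets of `C(c)`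
theorem o7920_no_index11 {G : Type u} [Group G] [Finite G] [IsSimpleGroup G]
    (hG : Nat.card G = 7920) (hna : ∃ a b : G, a * b ≠ b * a) (c y : G)
    (hc : orderOf c = 2) (hy : orderOf y = 5) (hyc : y * c = c * y)
    (hC : Nat.card (Subgroup.centralizer ({c} : Set G)) = 720)
    (hfix : ∀ g : G, g⁻¹ * y * g ∈ Subgroup.centralizer ({c} : Set G) →
      g ∈ Subgroup.centralizer ({c} : Set G)) : False := by
  classical
  haveI : Fact (Nat.Prime 5) := ⟨by norm_num⟩
  haveI : Fact (Nat.Prime 2) := ⟨by norm_num⟩
  have hidx : (Subgroup.centralizer ({c} : Set G)).index = 11 := by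
    have := (Subgroup.centralizer ({c} : Set G)).card_mul_index
    rw [hC, hG] at this
    omega
  have hX : Nat.card (G ⧸ Subgroup.centralizer ({c} : Set G)) = 11 := by
    rw [← Subgroup.index_eq_card]
    exact hidx
  have hHtop : Subgroup.centralizer ({c} : Set G) ≠ ⊤ := by
    intro ht
    rw [ht, Subgroup.card_top, hG] at hC
    omega
  have hcH : c ∈ Subgroup.centralizer ({c} : Set G) := by
    rw [Subgroup.mem_centralizer_iff]
    intro w hw
    rw [Set.mem_singleton_iff] at hw
    subst hw
    rfl
  have hc2 : c ^ 2 = 1 := by rw [← hc]; exact pow_orderOf_eq_one c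
  -- parity
  have hz2 : IsPGroup 2 (Subgroup.zpowers c) :=
    IsPGroup.of_card (n := 1) (by rw [Nat.card_zpowers, hc, pow_one])
  have hmod2 := hz2.card_modEq_card_fixedPoints (G ⧸ Subgroup.centralizer ({c} : Set G))
  have heq2 : MulAction.fixedPoints (Subgroup.zpowers c) (G ⧸ Subgroup.centralizer ({c} : Set G))
      = MulAction.fixedBy (G ⧸ Subgroup.centralizer ({c} : Set G)) c := by
    ext x
    constructor
    · intro hx
      exact hx ⟨c, Subgroup.mem_zpowers c⟩
    · intro hx g
      have hle : Subgroup.zpowers c ≤ MulAction.stabilizer G x :=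
        (Subgroup.zpowers_le).mpr (MulAction.mem_stabilizer_iff.mpr hx)
      exact MulAction.mem_stabilizer_iff.mp (hle g.2)
  rw [heq2, hX] at hmod2
  -- the action of `y` on the fixed points of `c`
  have hcomm : ∀ a : Subgroup.zpowers y, (a : G) * c = c * (a : G) := by
    intro a
    obtain ⟨k, hk⟩ := Subgroup.mem_zpowers_iff.mp a.2
    rw [← hk]
    have : Commute y c := hyc
    exact (this.zpow_left k).eq
  let S₀ : SubMulAction (Subgroup.zpowers y) (G ⧸ Subgroup.centralizer ({c} : Set G)) :=
    { carrier := MulAction.fixedBy (G ⧸ Subgroup.centralizer ({c} : Set G)) c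
      smul_mem' := by
        intro a x hx
        rw [MulAction.mem_fixedBy] at hx
        change c • ((a : G) • x) = (a : G) • x
        rw [← mul_smul, ← hcomm a, mul_smul, hx] }
  have hz5 : IsPGroup 5 (Subgroup.zpowers y) :=
    IsPGroup.of_card (n := 1) (by rw [Nat.card_zpowers, hy, pow_one])
  have hmod5 := hz5.card_modEq_card_fixedPoints (↥S₀)
  have hone : Nat.card (MulAction.fixedPoints (Subgroup.zpowers y) (↥S₀)) = 1 := by
    rw [Nat.card_eq_one_iff_unique]
    have hkey : ∀ s : MulAction.fixedPoints (Subgroup.zpowers y) (↥S₀),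
        ((s : ↥S₀) : G ⧸ Subgroup.centralizer ({c} : Set G)) =
          ((1 : G) : G ⧸ Subgroup.centralizer ({c} : Set G)) := by
      intro s
      obtain ⟨g, hg⟩ := QuotientGroup.mk_surjective
        ((s : ↥S₀) : G ⧸ Subgroup.centralizer ({c} : Set G))
      have h1 := s.2 ⟨y, Subgroup.mem_zpowers y⟩
      have h2 : y • ((s : ↥S₀) : G ⧸ Subgroup.centralizer ({c} : Set G)) =
          ((s : ↥S₀) : G ⧸ Subgroup.centralizer ({c} : Set G)) := congrArg Subtype.val h1
      rw [← hg] at h2 ⊢
      have h3 : ((y * g : G) : G ⧸ Subgroup.centralizer ({c} : Set G)) = (g : G) := h2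
      have h4 := QuotientGroup.eq.mp h3
      have h5 := inv_mem h4
      have e : ((y * g)⁻¹ * g)⁻¹ = g⁻¹ * y * g := by group
      rw [e] at h5
      have h6 := hfix g h5
      exact QuotientGroup.eq.mpr (by simpa using h6)
    constructor
    · constructor
      intro a b
      exact Subtype.ext (Subtype.ext ((hkey a).trans (hkey b).symm))
    · have hmem1 : ((1 : G) : G ⧸ Subgroup.centralizer ({c} : Set G)) ∈
          MulAction.fixedBy (G ⧸ Subgroup.centralizer ({c} : Set G)) c := by
        rw [MulAction.mem_fixedBy]
        change ((c * 1 : G) : G ⧸ Subgroup.centralizer ({c} : Set G)) = ((1 : G) : G ⧸ _)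
        exact QuotientGroup.eq.mpr (by simpa using hcH)
      refine ⟨⟨⟨((1 : G) : G ⧸ Subgroup.centralizer ({c} : Set G)), hmem1⟩, ?_⟩⟩
      intro a
      apply Subtype.ext
      change ((a : G) • ((1 : G) : G ⧸ Subgroup.centralizer ({c} : Set G))) = ((1 : G) : G ⧸ _)
      change (((a : G) * 1 : G) : G ⧸ Subgroup.centralizer ({c} : Set G)) = ((1 : G) : G ⧸ _)
      apply QuotientGroup.eq.mpr
      have haH : (a : G) ∈ Subgroup.centralizer ({c} : Set G) := by
        rw [Subgroup.mem_centralizer_iff]
        intro w hw
        rw [Set.mem_singleton_iff] at hw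
        subst hw
        exact (hcomm a).symm
      simpa using haH
  rw [hone] at hmod5
  have hF : Nat.card (↥S₀) =
      Nat.card (MulAction.fixedBy (G ⧸ Subgroup.centralizer ({c} : Set G)) c) := rfl
  rw [hF] at hmod5
  have hle : Nat.card (MulAction.fixedBy (G ⧸ Subgroup.centralizer ({c} : Set G)) c) ≤
      Nat.card (G ⧸ Subgroup.centralizer ({c} : Set G)) :=
    Nat.card_le_card_of_injective
      (fun x : MulAction.fixedBy (G ⧸ Subgroup.centralizer ({c} : Set G)) c =>
        (x : G ⧸ Subgroup.centralizer ({c} : Set G))) Subtype.coe_injective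
  rw [hX] at hle
  have hcases : Nat.card (MulAction.fixedBy (G ⧸ Subgroup.centralizer ({c} : Set G)) c) = 1 ∨
      Nat.card (MulAction.fixedBy (G ⧸ Subgroup.centralizer ({c} : Set G)) c) = 11 := by
    unfold Nat.ModEq at hmod2 hmod5
    omega
  haveI : Fintype (G ⧸ Subgroup.centralizer ({c} : Set G)) := Fintype.ofFinite _
  rcases hcases with h | h
  · have hσ2 : (MulAction.toPermHom G (G ⧸ Subgroup.centralizer ({c} : Set G)) c) ^ 2 = 1 := by
      rw [← map_pow, hc2, map_one]
    have e : Fintype.card (Function.fixedPoints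
        (MulAction.toPermHom G (G ⧸ Subgroup.centralizer ({c} : Set G)) c)) = 1 := by
      rw [← h, ← Nat.card_eq_fintype_card]
      rfl
    have hsign := Cfsg.Agent.Helper8.SylFix.sign_of_involution
      (MulAction.toPermHom G (G ⧸ Subgroup.centralizer ({c} : Set G)) c) hσ2 5
      (by rw [e, ← Nat.card_eq_fintype_card, hX]) (by decide)
    have htriv := Cfsg.Agent.Helper9.OrdTools.hom_trivial hna
      (Equiv.Perm.sign.comp (MulAction.toPermHom G (G ⧸ Subgroup.centralizer ({c} : Set G)))) c
    rw [MonoidHom.comp_apply, hsign] at htriv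
    exact absurd htriv (by decide)
  · have hbij := Function.Injective.bijective_of_nat_card_le
      (f := fun x : MulAction.fixedBy (G ⧸ Subgroup.centralizer ({c} : Set G)) c =>
        (x : G ⧸ Subgroup.centralizer ({c} : Set G))) Subtype.coe_injective (by rw [h, hX])
    have hall : ∀ x : G ⧸ Subgroup.centralizer ({c} : Set G), c • x = x := by
      intro x
      obtain ⟨x', hx'⟩ := hbij.2 x
      have := x'.2
      rw [MulAction.mem_fixedBy] at this
      rw [← hx']
      exact this
    have hinj := Cfsg.Agent.Helper9.OrdTools.toPermHom_injective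
      (Subgroup.centralizer ({c} : Set G)) hHtop
    have hc1 : c = 1 := by
      apply hinj
      rw [map_one]
      exact Equiv.ext hall
    rw [hc1, orderOf_one] at hc
    exact absurd hc (by decide)

end Cfsg.Agent.Helper10
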