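import Mathlib
import Cfsg.Prelude.Def_GeometricClasses
import Cfsg.Prelude.Def_LieClassical
import Cfsg.Agent.Helper69.E4Def
import Cfsg.Agent.Helper69.E4UDef
import Cfsg.Agent.Helper97.UForm

set_option autoImplicit false

namespace Cfsg.Agent.Helper10
open Cfsg.Agent.Helper69 Cfsg.Agent.Helper97
open scoped Matrix

/-! ### CUBEU1 -/

theorem e4u_cbrt_unitary {F : Type*} [Field F] {p : ℕ} (hp3 : p % 3 = 1) (σ : F ≃+* F)
    (hσ : ∀ x : F, σ x = x ^ p) (z : F) (hz : z * σ z = 1) :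
    ∃ c : F, c ^ 3 = z ∧ c * σ c = 1 := by
  have hz1 : z ^ (p + 1) = 1 := by
    rw [pow_succ, mul_comm, ← hσ]; exact hz
  obtain ⟨k, hk⟩ : ∃ k, p = 3 * k + 1 := ⟨p / 3, by omega⟩
  refine ⟨z ^ (k + 1), ?_, ?_⟩
  · rw [← pow_mul]
    have : (k + 1) * 3 = (p + 1) + 1 := by omega
    rw [this, pow_succ, hz1, one_mul]
  · rw [hσ, ← pow_succ', ← pow_mul]
    have : (k + 1) * (p + 1) = (p + 1) * (k + 1) := by ring
    rw [this, pow_mul, hz1, one_pow]

end Cfsg.Agent.Helper10
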