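import Mathlib
import Cfsg.Prelude.Def_GeometricClasses
import Cfsg.Prelude.Def_LieClassical
import Cfsg.Agent.Helper69.E4Def
import Cfsg.Agent.Helper69.E4UDef
import Cfsg.Agent.Helper97.UForm

set_option autoImplicit false

namespace Cfsg.Agent.Helper10
open Cfsg.Agent.Helper69 Cfsg.Agent.Helper97
open scoped Matrix

/-! ### FIFTHU1 -/

theorem e4u_fifth_root_unitary {F : Type*} [Field F] {p : ℕ} (hord : p % 5 = 2 ∨ p % 5 = 3)
    (σ : F ≃+* F) (hσ : ∀ x : F, σ x = x ^ p) (z : F) (hz : z * σ z = 1) :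
    ∃ c : F, c ^ 5 = z ∧ c * σ c = 1 := by
  have hz1 : z ^ (p + 1) = 1 := by
    rw [pow_succ, mul_comm, ← hσ]; exact hz
  have key : ∀ k j : ℕ, k * 5 = (p + 1) * j + 1 → ∃ c : F, c ^ 5 = z ∧ c * σ c = 1 := by
    intro k j hkj
    refine ⟨z ^ k, ?_, ?_⟩
    · rw [← pow_mul, hkj, pow_succ, pow_mul, hz1, one_pow, one_mul]
    · rw [hσ, ← pow_succ', ← pow_mul]
      have : k * (p + 1) = (p + 1) * k := by ring
      rw [this, pow_mul, hz1, one_pow]
  rcases hord with h | h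
  · exact key ((3 * (p + 1) + 1) / 5) 3 (by omega)
  · exact key ((p + 2) / 5) 1 (by omega)

end Cfsg.Agent.Helper10
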