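import Mathlib
import Cfsg.Prelude.Def_GeometricClasses
import Cfsg.Prelude.Def_LieClassical
import Cfsg.Agent.Helper69.E4Def
import Cfsg.Agent.Helper69.E4UDef
import Cfsg.Agent.Helper97.UForm

set_option autoImplicit false

namespace Cfsg.Agent.Helper10
open Cfsg.Agent.Helper69 Cfsg.Agent.Helper97
open scoped Matrix

/-! ### GOLDU -/

theorem e4u_exists_golden {F : Type*} [Field F] [Fintype F] {p : ℕ} [Fact p.Prime] [CharP F p]
    (hF : Fintype.card F = p ^ 2) (h2 : (2 : F) ≠ 0) (hord : p % 5 = 2 ∨ p % 5 = 3)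
    (σ : F ≃+* F) (hσ : IsSigma p σ) :
    ∃ τ : F, τ ^ 2 + τ - 1 = 0 ∧ σ τ = -1 - τ := by
  have hdec : ∀ x r : ZMod 5, x = 2 ∨ x = 3 → x = r * r → False := by decide
  classical
  have hp : p.Prime := Fact.out
  have hp2 : p ≠ 2 := by
    rintro rfl
    apply h2
    have := CharP.cast_eq_zero F 2
    exact_mod_cast this
  have hp5 : p ≠ 5 := by
    rintro rfl
    omega
  have hodd : p % 2 = 1 := by
    rcases hp.eq_two_or_odd with h | h
    · exact absurd h hp2
    · exact h
  -- 5 ≠ 0 in F
  have h5 : (5 : F) ≠ 0 := by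
    intro h
    have h' : ((5 : ℕ) : F) = 0 := by exact_mod_cast h
    rw [CharP.cast_eq_zero_iff F p] at h'
    have := (Nat.prime_dvd_prime_iff_eq hp (by norm_num : Nat.Prime 5)).mp h'
    exact hp5 this
  -- 5 ^ p = 5
  have hφ5 : ZMod.castHom (dvd_refl p) F 5 = 5 := map_ofNat _ 5
  have h5p : (5 : F) ^ p = 5 := by
    have h := congrArg (ZMod.castHom (dvd_refl p) F) (ZMod.pow_card (5 : ZMod p))
    rw [map_pow, hφ5] at h
    exact h
  have h5p1 : (5 : F) ^ (p - 1) = 1 := by
    have h : (5 : F) ^ (p - 1) * 5 = 1 * 5 := by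
      rw [← pow_succ, one_mul]
      have : p - 1 + 1 = p := by omega
      rw [this, h5p]
    exact mul_right_cancel₀ h5 h
  -- 5 is a square in F
  have hchar : ringChar F ≠ 2 := by
    rw [ringChar.eq F p]; exact hp2
  have hsq : IsSquare (5 : F) := by
    rw [FiniteField.isSquare_iff hchar h5, hF]
    obtain ⟨m, hm⟩ : ∃ m, p = 2 * m + 1 := ⟨p / 2, by omega⟩
    have : p ^ 2 / 2 = (p - 1) * (m + 1) := by
      subst hm
      have h1 : (2 * m + 1) ^ 2 = 2 * (2 * m * (m + 1)) + 1 := by ring
      rw [h1]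
      have h2' : (2 * (2 * m * (m + 1)) + 1) / 2 = 2 * m * (m + 1) := by omega
      rw [h2']
      simp
    rw [this, pow_mul, h5p1, one_pow]
  obtain ⟨s, hs⟩ := hsq
  have hs2 : s ^ 2 = 5 := by rw [sq]; exact hs.symm
  have hs0 : s ≠ 0 := by
    rintro rfl
    apply h5
    rw [← hs2]; ring
  -- σ s = ± s
  have hσs : σ s = s ∨ σ s = -s := by
    have h : σ s ^ 2 = s ^ 2 := by
      rw [← map_pow, hs2]
      exact map_ofNat σ 5
    have h' : (σ s - s) * (σ s + s) = 0 := by ring_nf; rw [h]; ring
    rcases mul_eq_zero.mp h' with h | h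
    · left; exact sub_eq_zero.mp h
    · right; exact eq_neg_of_add_eq_zero_left h
  have hneg : σ s = -s := by
    rcases hσs with h | h
    · exfalso
      -- s ^ p = s, hence s ^ (p-1) = 1, hence 5 ^ ((p-1)/2) = 1
      have hsp : s ^ p = s := by rw [← hσ.pow]; exact h
      have hsp1 : s ^ (p - 1) = 1 := by
        have h : s ^ (p - 1) * s = 1 * s := by
          rw [← pow_succ, one_mul]
          have : p - 1 + 1 = p := by omega
          rw [this, hsp]
        exact mul_right_cancel₀ hs0 h
      have h5e : (5 : F) ^ (p / 2) = 1 := by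
        rw [← hs2, ← pow_mul]
        have : 2 * (p / 2) = p - 1 := by omega
        rw [this, hsp1]
      -- transfer to ZMod p
      have hinj : Function.Injective (ZMod.castHom (dvd_refl p) F) :=
        (ZMod.castHom (dvd_refl p) F).injective
      have h5z : (5 : ZMod p) ^ (p / 2) = 1 := by
        apply hinj
        rw [map_pow, map_one, hφ5, h5e]
      have h5z0 : (5 : ZMod p) ≠ 0 := by
        intro h0
        have := congrArg (ZMod.castHom (dvd_refl p) F) h0
        rw [map_zero, hφ5] at this
        exact h5 this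
      have hsq5 : IsSquare (5 : ZMod p) := (ZMod.euler_criterion p h5z0).mpr h5z
      have : Fact (Nat.Prime 5) := ⟨by norm_num⟩
      have hrec := ZMod.exists_sq_eq_prime_iff_of_mod_four_eq_one (p := 5) (q := p) (by norm_num) hp2
      have hsqp : IsSquare ((p : ℕ) : ZMod 5) := by
        apply hrec.mpr
        have : ((5 : ℕ) : ZMod p) = 5 := by norm_cast
        rw [this]
        exact hsq5
      have hpz : ((p : ℕ) : ZMod 5) = 2 ∨ ((p : ℕ) : ZMod 5) = 3 := by
        rcases hord with h | h
        · left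
          have : ((p : ℕ) : ZMod 5) = ((2 : ℕ) : ZMod 5) := by
            rw [ZMod.natCast_eq_natCast_iff']; simpa using h
          simpa using this
        · right
          have : ((p : ℕ) : ZMod 5) = ((3 : ℕ) : ZMod 5) := by
            rw [ZMod.natCast_eq_natCast_iff']; simpa using h
          simpa using this
      have hno : ∀ x : ZMod 5, ¬ IsSquare x ∨ (x ≠ 2 ∧ x ≠ 3) := by
        intro x
        by_cases hx : x = 2 ∨ x = 3
        · left
          rintro ⟨r, hr⟩
          exact hdec x r hx hr
        · right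
          exact ⟨fun h => hx (Or.inl h), fun h => hx (Or.inr h)⟩
      rcases hno ((p : ℕ) : ZMod 5) with h | ⟨h2', h3'⟩
      · exact h hsqp
      · rcases hpz with h | h
        · exact h2' h
        · exact h3' h
    · exact h
  refine ⟨(s - 1) / 2, ?_, ?_⟩
  · field_simp
    have : (s - 1) ^ 2 + 2 * (s - 1) - 2 ^ 2 = s ^ 2 - 5 := by ring
    rw [hs2] at this
    linear_combination this
  · rw [map_div₀, map_sub, map_one, hneg, map_ofNat]
    field_simp
    ring

end Cfsg.Agent.Helper10
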