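import Mathlib
import Cfsg.Prelude.Def_GeometricClasses
import Cfsg.Prelude.Def_LieClassical
import Cfsg.Agent.Helper69.E4Def
import Cfsg.Agent.Helper69.E4UDef
import Cfsg.Agent.Helper97.UForm

set_option autoImplicit false

namespace Cfsg.Agent.Helper10
open Cfsg.Agent.Helper69 Cfsg.Agent.Helper97
open scoped Matrix

/-! ### OMEGA -/

theorem e4u_exists_omega {F : Type*} [Field F] [Fintype F] {p : ℕ} [Fact p.Prime] [CharP F p]
    (hF : Fintype.card F = p ^ 2) (hp3 : p % 3 = 1) (σ : F ≃+* F) (hσ : ∀ x : F, σ x = x ^ p) :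
    ∃ ω : F, ω ^ 2 + ω + 1 = 0 ∧ σ ω = ω := by
  classical
  obtain ⟨k, hk⟩ : ∃ k, p = 3 * k + 1 := ⟨p / 3, by omega⟩
  have hcard : Fintype.card Fˣ = p ^ 2 - 1 := by
    rw [Fintype.card_units, hF]
  have h3 : 3 ∣ Fintype.card Fˣ := by
    rw [hcard, hk]
    refine ⟨3 * k ^ 2 + 2 * k, ?_⟩
    have : (3 * k + 1) ^ 2 = 3 * (3 * k ^ 2 + 2 * k) + 1 := by ring
    rw [this]; omega
  have : Fact (Nat.Prime 3) := ⟨by norm_num⟩
  obtain ⟨u, hu⟩ := exists_prime_orderOf_dvd_card 3 h3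
  have hu3 : u ^ 3 = 1 := by rw [← hu]; exact pow_orderOf_eq_one u
  have hu1 : u ≠ 1 := by
    intro h; rw [h, orderOf_one] at hu; omega
  have hw3 : (u : F) ^ 3 = 1 := by
    have := congrArg (fun x : Fˣ => (x : F)) hu3
    simpa using this
  have hw1 : (u : F) ≠ 1 := by
    intro h; exact hu1 (Units.ext h)
  refine ⟨(u : F), ?_, ?_⟩
  · have h0 : ((u : F) - 1) * ((u : F) ^ 2 + (u : F) + 1) = 0 := by
      have : ((u : F) - 1) * ((u : F) ^ 2 + (u : F) + 1) = (u : F) ^ 3 - 1 := by ring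
      rw [this, hw3, sub_self]
    rcases mul_eq_zero.mp h0 with h | h
    · exact absurd (sub_eq_zero.mp h) hw1
    · exact h
  · rw [hσ, hk, pow_succ, pow_mul, hw3, one_pow, one_mul]

end Cfsg.Agent.Helper10
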