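import Mathlib
import Cfsg.Prelude.Def_GeometricClasses
import Cfsg.Prelude.Def_LieTypeDatum
import Cfsg.Agent.Helper43.GraphGram
import Cfsg.Agent.Helper43.OrthEven

/-!
# Piece CongrEquiv of CALL S2700 (helper43)
-/

set_option autoImplicit false

namespace Cfsg.Agent.Helper10

open Matrix Module Cfsg.Agent.Helper43 Cfsg.Agent.Helper43.GraphForm Cfsg.Agent.Helper43.OrthEven

theorem congr_of_equiv {F : Type*} [Field F] {n : ℕ} {ι : Type} [Fintype ι] [DecidableEq ι]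
    (e : ι ≃ Fin n) (M : Matrix (Fin n) (Fin n) F) (QM : QuadraticForm F (Fin n → F))
    (hQM : ∀ u v, QuadraticMap.polar QM u v = u ⬝ᵥ (M *ᵥ v)) (Q₀ : QuadraticForm F (ι → F))
    (Ψ : (ι → F) ≃ₗ[F] (Fin n → F)) (d : F) (h : ∀ z, QM (Ψ z) = d * Q₀ z) :
    ∃ k : GL (Fin n) F, (k : Matrix (Fin n) (Fin n) F)ᵀ * M * (k : Matrix (Fin n) (Fin n) F)
      = d • Matrix.reindex e e (gram Q₀) := by
  obtain ⟨Φ, hΦ⟩ : ∃ Φ : (Fin n → F) ≃ₗ[F] (Fin n → F), ∀ x, Φ x = Ψ (x ∘ e) :=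
    ⟨(LinearEquiv.funCongrLeft F F e).trans Ψ, fun x => rfl⟩
  have h1 : LinearMap.toMatrix' (Φ : (Fin n → F) →ₗ[F] (Fin n → F)) *
      LinearMap.toMatrix' (Φ.symm : (Fin n → F) →ₗ[F] (Fin n → F)) = 1 := by
    rw [← LinearMap.toMatrix'_comp]
    simp
  have h2 : LinearMap.toMatrix' (Φ.symm : (Fin n → F) →ₗ[F] (Fin n → F)) *
      LinearMap.toMatrix' (Φ : (Fin n → F) →ₗ[F] (Fin n → F)) = 1 := by
    rw [← LinearMap.toMatrix'_comp]
    simp
  refine ⟨⟨_, _, h1, h2⟩, ?_⟩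
  show (LinearMap.toMatrix' (Φ : (Fin n → F) →ₗ[F] (Fin n → F)))ᵀ * M *
    LinearMap.toMatrix' (Φ : (Fin n → F) →ₗ[F] (Fin n → F)) = d • Matrix.reindex e e (gram Q₀)
  have hgen : ∀ (A : Matrix (Fin n) (Fin n) F) (i j : Fin n),
      (Aᵀ * M * A) i j = (A *ᵥ Pi.single i 1) ⬝ᵥ (M *ᵥ (A *ᵥ Pi.single j 1)) := by
    intro A i j
    rw [Matrix.mulVec_single_one, Matrix.mulVec_single_one]
    simp only [Matrix.mul_apply, dotProduct, Matrix.mulVec,
      Matrix.transpose_apply, Finset.sum_mul, Finset.mul_sum, Matrix.col_apply]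
    rw [Finset.sum_comm]
    refine Finset.sum_congr rfl fun a _ => Finset.sum_congr rfl fun b _ => ?_
    ring
  have hK : ∀ v : Fin n → F,
      LinearMap.toMatrix' (Φ : (Fin n → F) →ₗ[F] (Fin n → F)) *ᵥ v = Ψ (v ∘ e) := by
    intro v
    rw [← Matrix.toLin'_apply, Matrix.toLin'_toMatrix']
    exact hΦ v
  have hpol : ∀ x y : ι → F, QuadraticMap.polar QM (Ψ x) (Ψ y) = d * QuadraticMap.polar Q₀ x y := by
    intro x y
    simp only [QuadraticMap.polar]
    rw [← map_add, h, h, h]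
    ring
  have hsingle : ∀ i : Fin n, (Pi.single i (1 : F) : Fin n → F) ∘ e = Pi.single (e.symm i) 1 := by
    intro i
    ext a
    simp only [Function.comp_apply, Pi.single_apply]
    by_cases ha : e a = i
    · rw [if_pos ha, if_pos (by rw [← ha, Equiv.symm_apply_apply])]
    · rw [if_neg ha, if_neg]
      intro h'
      apply ha
      rw [h', Equiv.apply_symm_apply]
  ext i j
  rw [hgen, hK, hK, ← hQM, hpol, hsingle, hsingle, Matrix.smul_apply, Matrix.reindex_apply,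
    Matrix.submatrix_apply, GraphForm.gram_apply, smul_eq_mul]

end Cfsg.Agent.Helper10
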