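import Mathlib
import Cfsg.Prelude.Def_GeometricClasses
import Cfsg.Prelude.Def_LieTypeDatum

/-!
# Piece OddSurj of CALL S2699 (helper43): every symplectic matrix lifts to a similarity of the
odd-dimensional quadratic form in characteristic 2
-/

set_option autoImplicit false

namespace Cfsg.Agent.Helper10

open Matrix Module

/-- the hyperbolic quadratic form on `Fin m ⊕ Fin m → F` -/
def gbQ0 {F : Type*} [Field F] (m : ℕ) (w : Fin m ⊕ Fin m → F) : F :=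
  ∑ i : Fin m, w (Sum.inl i) * w (Sum.inr i)

theorem gbQ0_add {F : Type*} [Field F] (h2 : (2 : F) = 0) (m : ℕ) (w w' : Fin m ⊕ Fin m → F) :
    gbQ0 m (w + w') = gbQ0 m w + gbQ0 m w' + w ⬝ᵥ (Matrix.J (Fin m) F *ᵥ w') := by
  haveI : CharP F 2 := CharTwo.of_one_ne_zero_of_two_eq_zero one_ne_zero h2
  have hJ : w ⬝ᵥ (Matrix.J (Fin m) F *ᵥ w') =
      ∑ i : Fin m, (w (Sum.inl i) * w' (Sum.inr i) + w (Sum.inr i) * w' (Sum.inl i)) := by
    rw [Matrix.J, Matrix.fromBlocks_mulVec]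
    simp only [dotProduct, Fintype.sum_sum_type, Sum.elim_inl, Sum.elim_inr, Pi.add_apply,
      Matrix.zero_mulVec, Matrix.neg_mulVec, Matrix.one_mulVec, Pi.zero_apply, Pi.neg_apply,
      Function.comp_apply, zero_add, add_zero, CharTwo.neg_eq]
    rw [Finset.sum_add_distrib]
  rw [hJ]
  simp only [gbQ0, Pi.add_apply]
  rw [← Finset.sum_add_distrib, ← Finset.sum_add_distrib]
  refine Finset.sum_congr rfl fun i _ => ?_
  ring

theorem gbQ0_smul {F : Type*} [Field F] (m : ℕ) (c : F) (w : Fin m ⊕ Fin m → F) :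
    gbQ0 m (c • w) = c ^ 2 * gbQ0 m w := by
  simp only [gbQ0, Pi.smul_apply, smul_eq_mul, Finset.mul_sum]
  refine Finset.sum_congr rfl fun i _ => ?_
  ring

theorem oddSim_surj {F : Type*} [Field F] [Finite F] (h2 : (2 : F) = 0) (m : ℕ)
    (s : Matrix (Fin m ⊕ Fin m) (Fin m ⊕ Fin m) F) (hs : s ∈ Matrix.symplecticGroup (Fin m) F) :
    ∃ g : GL (Unit ⊕ (Fin m ⊕ Fin m)) F, g ∈ Cfsg.Geo.quadSimilarityGroup (Cfsg.quadFormOdd m F) ∧
      (g : Matrix (Unit ⊕ (Fin m ⊕ Fin m)) (Unit ⊕ (Fin m ⊕ Fin m)) F) (Sum.inl ()) (Sum.inl ()) = 1 ∧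
      (g : Matrix (Unit ⊕ (Fin m ⊕ Fin m)) (Unit ⊕ (Fin m ⊕ Fin m)) F).toBlocks₂₂ = s := by
  classical
  haveI : CharP F 2 := CharTwo.of_one_ne_zero_of_two_eq_zero one_ne_zero h2
  have hchar : ringChar F = 2 :=
    CharP.ringChar_of_prime_eq_zero Nat.prime_two (by exact_mod_cast h2)
  -- `s` preserves the alternating form
  have hs' : sᵀ * Matrix.J (Fin m) F * s = Matrix.J (Fin m) F :=
    SymplecticGroup.mem_iff'.mp hs
  have hinv : ∀ w w' : Fin m ⊕ Fin m → F,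
      (s *ᵥ w) ⬝ᵥ (Matrix.J (Fin m) F *ᵥ (s *ᵥ w')) = w ⬝ᵥ (Matrix.J (Fin m) F *ᵥ w') := by
    intro w w'
    calc (s *ᵥ w) ⬝ᵥ (Matrix.J (Fin m) F *ᵥ (s *ᵥ w'))
        = (w ᵥ* sᵀ) ⬝ᵥ (Matrix.J (Fin m) F *ᵥ (s *ᵥ w')) := by rw [Matrix.vecMul_transpose]
      _ = w ⬝ᵥ (sᵀ *ᵥ (Matrix.J (Fin m) F *ᵥ (s *ᵥ w'))) :=
          (Matrix.dotProduct_mulVec w sᵀ _).symm
      _ = w ⬝ᵥ ((sᵀ * Matrix.J (Fin m) F * s) *ᵥ w') := by
          rw [Matrix.mulVec_mulVec, Matrix.mulVec_mulVec, Matrix.mul_assoc]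
      _ = w ⬝ᵥ (Matrix.J (Fin m) F *ᵥ w') := by rw [hs']
  -- the defect `D`
  obtain ⟨D, hD⟩ : ∃ D : (Fin m ⊕ Fin m → F) → F, ∀ w, D w = gbQ0 m w + gbQ0 m (s *ᵥ w) :=
    ⟨_, fun _ => rfl⟩
  have hDadd : ∀ w w', D (w + w') = D w + D w' := by
    intro w w'
    rw [hD, hD, hD, Matrix.mulVec_add, gbQ0_add h2, gbQ0_add h2, hinv]
    have := CharTwo.add_self_eq_zero (w ⬝ᵥ (Matrix.J (Fin m) F *ᵥ w'))
    linear_combination this
  have hDsmul : ∀ (c : F) w, D (c • w) = c ^ 2 * D w := by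
    intro c w
    rw [hD, hD, Matrix.mulVec_smul, gbQ0_smul, gbQ0_smul]
    ring
  -- square roots
  have hsq : ∀ j : Fin m ⊕ Fin m, ∃ r : F, r ^ 2 = D (Pi.single j 1) := by
    intro j
    obtain ⟨r, hr⟩ := FiniteField.isSquare_of_char_two hchar (D (Pi.single j 1))
    exact ⟨r, by rw [hr, sq]⟩
  choose r hr using hsq
  have hDr : ∀ w : Fin m ⊕ Fin m → F, D w = (∑ j, r j * w j) ^ 2 := by
    intro w
    have hw : w = ∑ j, Pi.single j (w j) := (Finset.univ_sum_single w).symm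
    have h1 : D w = ∑ j, D (Pi.single j (w j)) := by
      conv_lhs => rw [hw]
      exact map_sum (AddMonoidHom.mk' D hDadd) _ _
    rw [h1, CharTwo.sum_sq]
    refine Finset.sum_congr rfl fun j _ => ?_
    have h3 : (Pi.single j (w j) : Fin m ⊕ Fin m → F) = w j • Pi.single j 1 := by
      rw [← Pi.single_smul, smul_eq_mul, mul_one]
    rw [h3, hDsmul, ← hr j]
    ring
  have hdet : (Matrix.fromBlocks (1 : Matrix Unit Unit F) (Matrix.of fun _ j => r j) 0 s).det ≠ 0 := by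
    rw [Matrix.det_fromBlocks_zero₂₁, Matrix.det_one, one_mul]
    exact (SymplecticGroup.symplectic_det hs).ne_zero
  refine ⟨Matrix.GeneralLinearGroup.mkOfDetNeZero _ hdet, ?_, ?_, ?_⟩
  · refine ⟨1, fun v => ?_⟩
    rw [Units.val_one, one_mul]
    show Cfsg.quadFormOdd m F ((Matrix.fromBlocks (1 : Matrix Unit Unit F)
      (Matrix.of fun _ j => r j) 0 s) *ᵥ v) = Cfsg.quadFormOdd m F v
    have hQ : ∀ u : Unit ⊕ (Fin m ⊕ Fin m) → F,
        Cfsg.quadFormOdd m F u = u (Sum.inl ()) ^ 2 + gbQ0 m (u ∘ Sum.inr) := fun u => rfl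
    rw [Matrix.fromBlocks_mulVec, hQ, hQ, Sum.elim_comp_inr, Sum.elim_inl]
    have h1 : ((1 : Matrix Unit Unit F) *ᵥ (v ∘ Sum.inl) +
        (Matrix.of fun (_ : Unit) (j : Fin m ⊕ Fin m) => r j) *ᵥ (v ∘ Sum.inr)) () =
        v (Sum.inl ()) + ∑ j, r j * (v ∘ Sum.inr) j := by
      simp [Matrix.mulVec, dotProduct]
    have h2' : (0 : Matrix (Fin m ⊕ Fin m) Unit F) *ᵥ (v ∘ Sum.inl) + s *ᵥ (v ∘ Sum.inr) =
        s *ᵥ (v ∘ Sum.inr) := by
      rw [Matrix.zero_mulVec, zero_add]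
    rw [h1, h2', CharTwo.add_sq, ← hDr, hD]
    have := CharTwo.add_self_eq_zero (gbQ0 m (s *ᵥ (v ∘ Sum.inr)))
    linear_combination this
  · rfl
  · rfl

end Cfsg.Agent.Helper10
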