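import Mathlib
import Cfsg.Prelude.Def_PLocal
import Cfsg.Agent.Helper10.FFPair3
import Cfsg.Agent.Helper10.PCore
import Cfsg.Agent.Helper49.JComp
import Cfsg.Agent.Helper50.SubnSylow
import Cfsg.Agent.Helper22.SolvableCore

/-!
Helper10: the module `V = ⟨Z(T)^X⟩` of a solvable group `X` with `F(X) = O₂(X)`:
`V` is an abelian normal 2-subgroup, `O₂(X / C_X(V)) = 1` (in elementwise form), and
`C_X(Ω₁(V)) = C_X(V)`.
-/

set_option autoImplicit false

namespace Cfsg.Agent.Helper10

open scoped commutatorElement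

section omega

variable {G : Type*} [Group G]

theorem mem_omegaOne_two_iff {V : Subgroup G} (hc : ∀ a ∈ V, ∀ b ∈ V, a * b = b * a) (x : G) :
    x ∈ Cfsg.omegaOne 2 V ↔ x ∈ V ∧ x ^ 2 = 1 := by
  constructor
  · intro hx
    unfold Cfsg.omegaOne at hx
    induction hx using Subgroup.closure_induction with
    | mem x hx => exact hx
    | one => exact ⟨V.one_mem, one_pow 2⟩
    | mul x y _ _ ihx ihy =>
      refine ⟨V.mul_mem ihx.1 ihy.1, ?_⟩
      have hcomm : Commute x y := hc x ihx.1 y ihy.1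
      rw [hcomm.mul_pow, ihx.2, ihy.2, one_mul]
    | inv x _ ihx =>
      refine ⟨V.inv_mem ihx.1, ?_⟩
      rw [inv_pow, ihx.2, inv_one]
  · intro hx
    exact Subgroup.subset_closure hx

theorem omegaOne_two_le (V : Subgroup G) : Cfsg.omegaOne 2 V ≤ V := by
  unfold Cfsg.omegaOne
  rw [Subgroup.closure_le]
  intro x hx
  exact hx.1

theorem omegaOne_two_normal {V : Subgroup G} [hV : V.Normal]
    (hc : ∀ a ∈ V, ∀ b ∈ V, a * b = b * a) : (Cfsg.omegaOne 2 V).Normal := by
  constructor
  intro x hx g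
  rw [mem_omegaOne_two_iff hc] at hx ⊢
  refine ⟨hV.conj_mem x hx.1 g, ?_⟩
  rw [conj_pow, hx.2, mul_one, mul_inv_cancel]

theorem omegaOne_two_elemAb {V : Subgroup G} (hc : ∀ a ∈ V, ∀ b ∈ V, a * b = b * a) :
    Cfsg.IsElementaryAbelian 2 (Cfsg.omegaOne 2 V) := by
  rw [elemAb_iff]
  constructor
  · intro a ha b hb
    exact hc a (omegaOne_two_le V ha) b (omegaOne_two_le V hb)
  · intro a ha
    exact ((mem_omegaOne_two_iff hc a).mp ha).2

theorem conj_pow_of_conj {y v c : G} (hv : y * v * y⁻¹ = c * v) (hc : y * c * y⁻¹ = c) :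
    ∀ j : ℕ, y ^ j * v * (y ^ j)⁻¹ = c ^ j * v := by
  intro j
  induction j with
  | zero => simp
  | succ j ih =>
    have hcj : y * c ^ j * y⁻¹ = c ^ j := by rw [← conj_pow, hc]
    calc y ^ (j + 1) * v * (y ^ (j + 1))⁻¹ = y * (y ^ j * v * (y ^ j)⁻¹) * y⁻¹ := by
          rw [pow_succ']; group
      _ = y * (c ^ j * v) * y⁻¹ := by rw [ih]
      _ = (y * c ^ j * y⁻¹) * (y * v * y⁻¹) := by group
      _ = c ^ j * (c * v) := by rw [hcj, hv]
      _ = c ^ (j + 1) * v := by rw [pow_succ, mul_assoc]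

/-- An element centralizing `Ω₁(V)` has a 2-power power centralizing the abelian normal
2-subgroup `V`. -/
theorem exists_pow_mem_centralizer_of_omega [Finite G] {V : Subgroup G} [hV : V.Normal]
    (hc : ∀ a ∈ V, ∀ b ∈ V, a * b = b * a) (hVp : IsPGroup 2 V) {x : G}
    (hx : x ∈ Subgroup.centralizer (Cfsg.omegaOne 2 V : Set G)) :
    ∃ m : ℕ, x ^ (2 ^ m) ∈ Subgroup.centralizer (V : Set G) := by
  obtain ⟨m, r, hr, hmr⟩ := Nat.exists_eq_two_pow_mul_odd (orderOf_pos x).ne'
  refine ⟨m, ?_⟩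
  have hyr : (x ^ (2 ^ m)) ^ r = 1 := by
    rw [← pow_mul, ← hmr]; exact pow_orderOf_eq_one x
  have hyU : x ^ (2 ^ m) ∈ Subgroup.centralizer (Cfsg.omegaOne 2 V : Set G) :=
    Subgroup.pow_mem _ hx _
  have key : ∀ k : ℕ, ∀ v ∈ V, v ^ (2 ^ k) = 1 →
      x ^ (2 ^ m) * v * (x ^ (2 ^ m))⁻¹ = v := by
    intro k
    induction k with
    | zero =>
      intro v _ hv1
      rw [pow_zero, pow_one] at hv1
      rw [hv1]; group
    | succ k ih =>
      intro v hv hv1
      have hv2 : (v ^ 2) ^ (2 ^ k) = 1 := by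
        rw [← pow_mul, ← pow_succ']; exact hv1
      have h2 := ih (v ^ 2) (V.pow_mem hv 2) hv2
      have hyv : x ^ (2 ^ m) * v * (x ^ (2 ^ m))⁻¹ ∈ V := hV.conj_mem v hv _
      have hcV : x ^ (2 ^ m) * v * (x ^ (2 ^ m))⁻¹ * v⁻¹ ∈ V := V.mul_mem hyv (V.inv_mem hv)
      have hcomm : Commute (x ^ (2 ^ m) * v * (x ^ (2 ^ m))⁻¹) v⁻¹ :=
        hc _ hyv _ (V.inv_mem hv)
      have hc2 : (x ^ (2 ^ m) * v * (x ^ (2 ^ m))⁻¹ * v⁻¹) ^ 2 = 1 := by
        rw [hcomm.mul_pow, conj_pow, h2, inv_pow, mul_inv_cancel]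
      have hcU : x ^ (2 ^ m) * v * (x ^ (2 ^ m))⁻¹ * v⁻¹ ∈ Cfsg.omegaOne 2 V :=
        (mem_omegaOne_two_iff hc _).mpr ⟨hcV, hc2⟩
      have hyc := Subgroup.mem_centralizer_iff.mp hyU _ hcU
      -- powers
      have hyc' : x ^ (2 ^ m) * (x ^ (2 ^ m) * v * (x ^ (2 ^ m))⁻¹ * v⁻¹) * (x ^ (2 ^ m))⁻¹ =
          x ^ (2 ^ m) * v * (x ^ (2 ^ m))⁻¹ * v⁻¹ := by
        rw [← hyc]; group
      have hyv' : x ^ (2 ^ m) * v * (x ^ (2 ^ m))⁻¹ =
          (x ^ (2 ^ m) * v * (x ^ (2 ^ m))⁻¹ * v⁻¹) * v := by group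
      have hpow := conj_pow_of_conj hyv' hyc'
      have h3 := hpow r
      rw [hyr] at h3
      have h4 : (x ^ (2 ^ m) * v * (x ^ (2 ^ m))⁻¹ * v⁻¹) ^ r = 1 := by
        have : (1 : G) * v * (1 : G)⁻¹ = v := by group
        rw [this] at h3
        exact (mul_eq_right.mp h3.symm)
      obtain ⟨s, hs⟩ := hr
      have h5 : x ^ (2 ^ m) * v * (x ^ (2 ^ m))⁻¹ * v⁻¹ = 1 := by
        rw [hs, pow_succ, pow_mul, hc2, one_pow, one_mul] at h4
        exact h4
      exact mul_inv_eq_one.mp h5
  rw [Subgroup.mem_centralizer_iff]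
  intro v hv
  obtain ⟨k, hk⟩ := hVp ⟨v, hv⟩
  have hk' : v ^ (2 ^ k) = 1 := by
    have := congrArg Subtype.val hk
    simpa using this
  have h1 := key k v hv hk'
  calc v * x ^ (2 ^ m) = x ^ (2 ^ m) * v * (x ^ (2 ^ m))⁻¹ * x ^ (2 ^ m) := by rw [h1]
    _ = x ^ (2 ^ m) * v := by group

end omega

section setup

variable {X : Type*} [Group X] [Finite X]

/-- `V = ⟨Z(T)^X⟩` lies in `Z(O₂(X))`. -/
theorem glau_V_le [Group.IsSolvable X] (hF : Cfsg.fittingSubgroup X = Cfsg.pCore 2 X)
    (T : Sylow 2 X) :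
    Subgroup.normalClosure (((T : Subgroup X) ⊓
        Subgroup.centralizer ((T : Subgroup X) : Set X) : Subgroup X) : Set X) ≤
      Cfsg.pCore 2 X ⊓ Subgroup.centralizer (Cfsg.pCore 2 X : Set X) := by
  haveI : Fact (Nat.Prime 2) := ⟨Nat.prime_two⟩
  haveI := pCore_normal 2 X
  have hQT : Cfsg.pCore 2 X ≤ (T : Subgroup X) := pCore_le_sylow T
  have hcent := Helper22.centralizer_fittingSubgroup_le_of_isSolvable (G := X)
  rw [hF] at hcent
  apply Subgroup.normalClosure_le_normal
  intro z hz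
  have hz' : z ∈ Subgroup.centralizer (Cfsg.pCore 2 X : Set X) :=
    Subgroup.centralizer_le (SetLike.coe_subset_coe.mpr hQT) hz.2
  exact Subgroup.mem_inf.mpr ⟨hcent hz', hz'⟩

theorem glau_V_comm [Group.IsSolvable X] (hF : Cfsg.fittingSubgroup X = Cfsg.pCore 2 X)
    (T : Sylow 2 X) :
    ∀ a ∈ Subgroup.normalClosure (((T : Subgroup X) ⊓
        Subgroup.centralizer ((T : Subgroup X) : Set X) : Subgroup X) : Set X),
      ∀ b ∈ Subgroup.normalClosure (((T : Subgroup X) ⊓
        Subgroup.centralizer ((T : Subgroup X) : Set X) : Subgroup X) : Set X), a * b = b * a := by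
  intro a ha b hb
  have h1 := glau_V_le hF T ha
  have h2 := glau_V_le hF T hb
  exact (Subgroup.mem_centralizer_iff.mp (Subgroup.mem_inf.mp h2).2 a (Subgroup.mem_inf.mp h1).1)

theorem glau_V_pgroup [Group.IsSolvable X] (hF : Cfsg.fittingSubgroup X = Cfsg.pCore 2 X)
    (T : Sylow 2 X) :
    IsPGroup 2 (Subgroup.normalClosure (((T : Subgroup X) ⊓
        Subgroup.centralizer ((T : Subgroup X) : Set X) : Subgroup X) : Set X)) := by
  haveI : Fact (Nat.Prime 2) := ⟨Nat.prime_two⟩
  exact (pCore_isPGroup 2 X).to_le ((glau_V_le hF T).trans inf_le_left)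

/-- `O₂(X / C_X(V)) = 1` for `V = ⟨Z(T)^X⟩`, in elementwise form. -/
theorem glau_hD (T : Sylow 2 X) :
    ∀ D : Subgroup X, D.Normal →
      Subgroup.centralizer ((Subgroup.normalClosure (((T : Subgroup X) ⊓
        Subgroup.centralizer ((T : Subgroup X) : Set X) : Subgroup X) : Set X) : Subgroup X) :
          Set X) ≤ D →
      (∃ k : ℕ, (Subgroup.centralizer ((Subgroup.normalClosure (((T : Subgroup X) ⊓
        Subgroup.centralizer ((T : Subgroup X) : Set X) : Subgroup X) : Set X) : Subgroup X) :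
          Set X)).relIndex D = 2 ^ k) →
      D = Subgroup.centralizer ((Subgroup.normalClosure (((T : Subgroup X) ⊓
        Subgroup.centralizer ((T : Subgroup X) : Set X) : Subgroup X) : Set X) : Subgroup X) :
          Set X) := by
  haveI : Fact (Nat.Prime 2) := ⟨Nat.prime_two⟩
  intro D hDn hCD ⟨k, hk⟩
  haveI := hDn
  have hT₀card : Nat.card ↥((T : Subgroup X) ⊓ D) = 2 ^ (Nat.card D).factorization 2 :=
    Helper50.card_sylow_inf_of_isSubnormal T hDn.isSubnormal
  have hT₀D : (T : Subgroup X) ⊓ D ≤ D := inf_le_right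
  -- Frattini
  have hcard' : Nat.card ↥(((T : Subgroup X) ⊓ D).subgroupOf D) =
      2 ^ (Nat.card D).factorization 2 := by
    rw [Nat.card_congr (Subgroup.subgroupOfEquivOfLe hT₀D).toEquiv]; exact hT₀card
  have hfrat := Sylow.normalizer_sup_eq_top (Sylow.ofCard _ hcard')
  rw [Sylow.coe_ofCard, Subgroup.subgroupOf_map_subtype, inf_of_le_left hT₀D] at hfrat
  -- `D = C T₀`
  have hDle : D ≤ Subgroup.centralizer ((Subgroup.normalClosure (((T : Subgroup X) ⊓
      Subgroup.centralizer ((T : Subgroup X) : Set X) : Subgroup X) : Set X) : Subgroup X) :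
        Set X) ⊔ ((T : Subgroup X) ⊓ D) := by
    have hMD : Subgroup.centralizer ((Subgroup.normalClosure (((T : Subgroup X) ⊓
        Subgroup.centralizer ((T : Subgroup X) : Set X) : Subgroup X) : Set X) : Subgroup X) :
          Set X) ⊔ ((T : Subgroup X) ⊓ D) ≤ D := sup_le hCD hT₀D
    have h1 := Subgroup.relIndex_mul_relIndex _ _ _
      (le_sup_left : Subgroup.centralizer ((Subgroup.normalClosure (((T : Subgroup X) ⊓
        Subgroup.centralizer ((T : Subgroup X) : Set X) : Subgroup X) : Set X) : Subgroup X) :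
          Set X) ≤ _ ⊔ ((T : Subgroup X) ⊓ D)) hMD
    have h2 := Subgroup.relIndex_mul_relIndex _ _ _
      (le_sup_right : (T : Subgroup X) ⊓ D ≤ Subgroup.centralizer
        ((Subgroup.normalClosure (((T : Subgroup X) ⊓
        Subgroup.centralizer ((T : Subgroup X) : Set X) : Subgroup X) : Set X) : Subgroup X) :
          Set X) ⊔ _) hMD
    rw [hk] at h1
    have h3 : ¬ 2 ∣ ((T : Subgroup X) ⊓ D).relIndex D := by
      intro hdvd
      have h4 : Nat.card D = 2 ^ (Nat.card D).factorization 2 *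
          ((T : Subgroup X) ⊓ D).relIndex D := by
        have h4' := card_eq_card_mul_relIndex hT₀D
        rw [hT₀card] at h4'
        exact h4'
      have h5 : 2 ^ ((Nat.card D).factorization 2 + 1) ∣ Nat.card D := by
        obtain ⟨r', hr'⟩ := hdvd
        refine ⟨r', ?_⟩
        rw [pow_succ, mul_assoc, ← hr']
        exact h4
      exact Nat.pow_succ_factorization_not_dvd Nat.card_pos.ne' Nat.prime_two h5
    have h6 : (Subgroup.centralizer ((Subgroup.normalClosure (((T : Subgroup X) ⊓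
        Subgroup.centralizer ((T : Subgroup X) : Set X) : Subgroup X) : Set X) : Subgroup X) :
          Set X) ⊔ ((T : Subgroup X) ⊓ D)).relIndex D = 1 := by
      have h7 : (Subgroup.centralizer ((Subgroup.normalClosure (((T : Subgroup X) ⊓
          Subgroup.centralizer ((T : Subgroup X) : Set X) : Subgroup X) : Set X) : Subgroup X) :
            Set X) ⊔ ((T : Subgroup X) ⊓ D)).relIndex D ∣ 2 ^ k := Dvd.intro_left _ h1
      obtain ⟨j, -, hj⟩ := (Nat.dvd_prime_pow Nat.prime_two).mp h7
      rcases Nat.eq_zero_or_pos j with hj0 | hj0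
      · rw [hj, hj0, pow_zero]
      · exfalso
        apply h3
        rw [← h2, hj]
        exact Dvd.dvd.mul_left (dvd_pow_self 2 hj0.ne') _
    exact Subgroup.relIndex_eq_one.mp h6
  -- `W₀ = C_V(T₀)` is normal
  have hVn : (Subgroup.normalClosure (((T : Subgroup X) ⊓
      Subgroup.centralizer ((T : Subgroup X) : Set X) : Subgroup X) : Set X)).Normal :=
    inferInstance
  have hN1 : Subgroup.normalizer ((((T : Subgroup X) ⊓ D : Subgroup X)) : Set X) ≤
      Subgroup.normalizer (((Subgroup.normalClosure (((T : Subgroup X) ⊓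
        Subgroup.centralizer ((T : Subgroup X) : Set X) : Subgroup X) : Set X) ⊓
          Subgroup.centralizer ((((T : Subgroup X) ⊓ D : Subgroup X)) : Set X) : Subgroup X)) :
            Set X) := by
    intro g hg
    apply ffp_mem_normalizer_inf
    · rw [Subgroup.normalizer_eq_top]; exact Subgroup.mem_top g
    · exact ffp_mem_normalizer_centralizer _ hg
  have hN2 : Subgroup.centralizer ((Subgroup.normalClosure (((T : Subgroup X) ⊓
      Subgroup.centralizer ((T : Subgroup X) : Set X) : Subgroup X) : Set X) : Subgroup X) :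
        Set X) ≤
      Subgroup.normalizer (((Subgroup.normalClosure (((T : Subgroup X) ⊓
        Subgroup.centralizer ((T : Subgroup X) : Set X) : Subgroup X) : Set X) ⊓
          Subgroup.centralizer ((((T : Subgroup X) ⊓ D : Subgroup X)) : Set X) : Subgroup X)) :
            Set X) := by
    apply Helper49.mem_normalizer_of_forall_conj
    intro g hg w hw
    have e : g * w * g⁻¹ = w := by
      rw [← Subgroup.mem_centralizer_iff.mp hg w hw.1]; group
    rw [e]; exact hw
  have hN3 : (⊤ : Subgroup X) ≤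
      Subgroup.normalizer (((Subgroup.normalClosure (((T : Subgroup X) ⊓
        Subgroup.centralizer ((T : Subgroup X) : Set X) : Subgroup X) : Set X) ⊓
          Subgroup.centralizer ((((T : Subgroup X) ⊓ D : Subgroup X)) : Set X) : Subgroup X)) :
            Set X) := by
    rw [← hfrat]
    refine sup_le hN1 (hDle.trans (sup_le hN2 (Subgroup.le_normalizer.trans hN1)))
  haveI hW₀n : ((Subgroup.normalClosure (((T : Subgroup X) ⊓
        Subgroup.centralizer ((T : Subgroup X) : Set X) : Subgroup X) : Set X) ⊓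
          Subgroup.centralizer ((((T : Subgroup X) ⊓ D : Subgroup X)) : Set X) :
            Subgroup X)).Normal :=
    Subgroup.normalizer_eq_top_iff.mp (top_le_iff.mp hN3)
  have hVW : Subgroup.normalClosure (((T : Subgroup X) ⊓
      Subgroup.centralizer ((T : Subgroup X) : Set X) : Subgroup X) : Set X) ≤
      Subgroup.normalClosure (((T : Subgroup X) ⊓
        Subgroup.centralizer ((T : Subgroup X) : Set X) : Subgroup X) : Set X) ⊓
          Subgroup.centralizer ((((T : Subgroup X) ⊓ D : Subgroup X)) : Set X) := by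
    apply Subgroup.normalClosure_le_normal
    intro z hz
    refine Subgroup.mem_inf.mpr ⟨Subgroup.subset_normalClosure hz, ?_⟩
    exact Subgroup.centralizer_le (SetLike.coe_subset_coe.mpr inf_le_left) hz.2
  have hT₀C : (T : Subgroup X) ⊓ D ≤ Subgroup.centralizer
      ((Subgroup.normalClosure (((T : Subgroup X) ⊓
        Subgroup.centralizer ((T : Subgroup X) : Set X) : Subgroup X) : Set X) : Subgroup X) :
          Set X) :=
    Subgroup.le_centralizer_iff.mp (hVW.trans inf_le_right)
  exact le_antisymm (hDle.trans (sup_le le_rfl hT₀C)) hCD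

/-- `C_X(Ω₁(V)) = C_X(V)` for `V = ⟨Z(T)^X⟩`. -/
theorem glau_centralizer_omega [Group.IsSolvable X]
    (hF : Cfsg.fittingSubgroup X = Cfsg.pCore 2 X) (T : Sylow 2 X) :
    Subgroup.centralizer ((Cfsg.omegaOne 2 (Subgroup.normalClosure (((T : Subgroup X) ⊓
        Subgroup.centralizer ((T : Subgroup X) : Set X) : Subgroup X) : Set X)) : Subgroup X) :
          Set X) =
      Subgroup.centralizer ((Subgroup.normalClosure (((T : Subgroup X) ⊓
        Subgroup.centralizer ((T : Subgroup X) : Set X) : Subgroup X) : Set X) : Subgroup X) :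
          Set X) := by
  have hc := glau_V_comm hF T
  have hVp := glau_V_pgroup hF T
  haveI hUn := omegaOne_two_normal hc
  have hle : Subgroup.centralizer ((Subgroup.normalClosure (((T : Subgroup X) ⊓
        Subgroup.centralizer ((T : Subgroup X) : Set X) : Subgroup X) : Set X) : Subgroup X) :
          Set X) ≤
      Subgroup.centralizer ((Cfsg.omegaOne 2 (Subgroup.normalClosure (((T : Subgroup X) ⊓
        Subgroup.centralizer ((T : Subgroup X) : Set X) : Subgroup X) : Set X)) : Subgroup X) :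
          Set X) :=
    Subgroup.centralizer_le (SetLike.coe_subset_coe.mpr (omegaOne_two_le _))
  apply glau_hD T _ inferInstance hle
  -- the quotient is a 2-group
  have hp : IsPGroup 2 (↥(Subgroup.centralizer ((Cfsg.omegaOne 2 (Subgroup.normalClosure
      (((T : Subgroup X) ⊓ Subgroup.centralizer ((T : Subgroup X) : Set X) : Subgroup X) :
        Set X)) : Subgroup X) : Set X)) ⧸
      (Subgroup.centralizer ((Subgroup.normalClosure (((T : Subgroup X) ⊓
        Subgroup.centralizer ((T : Subgroup X) : Set X) : Subgroup X) : Set X) : Subgroup X) :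
          Set X)).subgroupOf (Subgroup.centralizer ((Cfsg.omegaOne 2 (Subgroup.normalClosure
      (((T : Subgroup X) ⊓ Subgroup.centralizer ((T : Subgroup X) : Set X) : Subgroup X) :
        Set X)) : Subgroup X) : Set X))) := by
    intro q
    induction q using QuotientGroup.induction_on with
    | H d =>
      obtain ⟨m, hm⟩ := exists_pow_mem_centralizer_of_omega hc hVp d.2
      refine ⟨m, ?_⟩
      rw [← QuotientGroup.mk_pow, QuotientGroup.eq_one_iff, Subgroup.mem_subgroupOf]
      simpa using hm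
  obtain ⟨k, hk⟩ := IsPGroup.iff_card.mp hp
  refine ⟨k, ?_⟩
  rw [← hk, ← Subgroup.index_eq_card]
  rfl

end setup

end Cfsg.Agent.Helper10
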