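import Mathlib
import Cfsg.Agent.Helper10.AbOff
import Cfsg.Agent.Helper10.GlauA
import Cfsg.Agent.Helper10.FFStruct
import Cfsg.Agent.Helper11.S4FreeOff
import Cfsg.Agent.Helper19.ThompsonJA

/-!
Helper10: abelian subgroups of largest order of a 2-subgroup `T' ≥ U` act on the normal elementary
abelian subgroup `U` as best offenders (in the holomorph of `U`), when `X` is solvable with
`O₂(X / C_X(U)) = 1`; internal direct products of copies of `SL(2, 2)` are isomorphic to
powers of `S₃`.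
-/

set_option autoImplicit false

namespace Cfsg.Agent.Helper10

open scoped commutatorElement

section offender

variable {X : Type*} [Group X] [Finite X]

/-- Abelian subgroups of largest order of `T' ≥ U` satisfy the offender inequality on the abelian
subgroup `U`. -/
theorem maxAb_isBO {U T' A : Subgroup X} (hUc : ∀ a ∈ U, ∀ b ∈ U, a * b = b * a)
    (hUT : U ≤ T') (hA : Helper19.MaxAb T' A) : IsBO U A := by
  intro B hB
  unfold cfix
  have hBab : Helper19.Ab B := hA.2.1.mono hB
  have hCab : Helper19.Ab (U ⊓ Subgroup.centralizer (B : Set X)) :=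
    fun a ha b hb => hUc a ha.1 b hb.1
  have hcomm : ∀ b ∈ B, ∀ u ∈ U ⊓ Subgroup.centralizer (B : Set X), b * u = u * b := by
    intro b hb u hu
    exact Subgroup.mem_centralizer_iff.mp hu.2 b hb
  have hEab : Helper19.Ab (B ⊔ (U ⊓ Subgroup.centralizer (B : Set X))) :=
    hBab.sup hCab hcomm
  have hET : B ⊔ (U ⊓ Subgroup.centralizer (B : Set X)) ≤ T' :=
    sup_le (hB.trans hA.1) (inf_le_left.trans hUT)
  have h1 := hA.2.2 _ hET hEab
  have hBN : B ≤ Subgroup.normalizer
      ((U ⊓ Subgroup.centralizer (B : Set X) : Subgroup X) : Set X) := by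
    apply Helper49.mem_normalizer_of_forall_conj
    intro g hg u hu
    have e : g * u * g⁻¹ = u := by rw [hcomm g hg u hu]; group
    rw [e]; exact hu
  have h2 := Helper50.card_mul_card_eq_of_le_normalizer hBN
  have h3 : B ⊓ (U ⊓ Subgroup.centralizer (B : Set X)) ≤
      U ⊓ Subgroup.centralizer (A : Set X) := by
    intro x hx
    refine Subgroup.mem_inf.mpr ⟨hx.2.1, ?_⟩
    rw [Subgroup.mem_centralizer_iff]
    intro a ha
    exact hA.2.1 a ha x (hB hx.1)
  have h4 := Subgroup.card_le_of_le h3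
  rw [h2]
  exact Nat.mul_le_mul h1 h4

/-- The offender inequality is carried to the holomorph. -/
theorem holo_isBO (U : Subgroup X) [U.Normal] {A : Subgroup X} (hA : IsBO U A) :
    IsBO (Helper11.holoV U) (A.map (Helper11.holoHom U)) := by
  intro B' hB'
  unfold cfix
  have hBm : (A ⊓ B'.comap (Helper11.holoHom U)).map (Helper11.holoHom U) = B' :=
    Helper11.holo_map_comap U A B' hB'
  have hk : (Helper11.holoHom U).ker ⊓ (A ⊓ B'.comap (Helper11.holoHom U)) =
      (Helper11.holoHom U).ker ⊓ A := by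
    apply le_antisymm
    · exact inf_le_inf_left _ inf_le_left
    · rintro x ⟨hxk, hxA⟩
      refine ⟨hxk, hxA, ?_⟩
      have hxk' : Helper11.holoHom U x = 1 := hxk
      show Helper11.holoHom U x ∈ B'
      rw [hxk']; exact B'.one_mem
  have hcB := Helper11.holo_card_eq U (A ⊓ B'.comap (Helper11.holoHom U))
  have hcA := Helper11.holo_card_eq U A
  rw [hk, hBm] at hcB
  have hle := hA (A ⊓ B'.comap (Helper11.holoHom U)) inf_le_left
  unfold cfix at hle
  rw [hcB, hcA] at hle
  have hfB := Helper11.holoV_inf_centralizer_card U (A ⊓ B'.comap (Helper11.holoHom U))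
  have hfA := Helper11.holoV_inf_centralizer_card U A
  rw [hBm] at hfB
  rw [hfB, hfA]
  have hpos : 0 < Nat.card ↥((Helper11.holoHom U).ker ⊓ A) := Nat.card_pos
  rw [mul_assoc, mul_assoc] at hle
  exact Nat.le_of_mul_le_mul_left hle hpos

/-- Hypothesis (S1) for the image of a normal subgroup in the holomorph. -/
theorem glau_hS1 [Group.IsSolvable X] (U : Subgroup X) [U.Normal]
    (hD : ∀ D : Subgroup X, D.Normal → Subgroup.centralizer (U : Set X) ≤ D →
      (∃ k : ℕ, (Subgroup.centralizer (U : Set X)).relIndex D = 2 ^ k) →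
      D = Subgroup.centralizer (U : Set X)) (N : Subgroup X) [N.Normal] :
    Subgroup.centralizer (Cfsg.pPrimeCore 2 ↥(N.map (Helper11.holoHom U)) :
        Set ↥(N.map (Helper11.holoHom U))) ≤
      Cfsg.pPrimeCore 2 ↥(N.map (Helper11.holoHom U)) := by
  haveI : Fact (Nat.Prime 2) := ⟨Nat.prime_two⟩
  haveI := Helper11.holo_finite U
  have hOp := Helper11.holo_pCore_eq_bot U hD N
  have hsolv : Group.IsSolvable ↥(N.map (Helper11.holoHom U)) :=
    Group.isSolvable_of_surjective ((Helper11.holoHom U).subgroupMap_surjective N)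
  have hPS := Helper63.PSolv.isPSolvable_of_isSolvable 2 _ hsolv
  exact Helper63.HHP.centralizer_pPrimeCore_le hPS hOp

theorem glau_ffhyp [Group.IsSolvable X] (U : Subgroup X) [U.Normal]
    (hU : Cfsg.IsElementaryAbelian 2 U)
    (hD : ∀ D : Subgroup X, D.Normal → Subgroup.centralizer (U : Set X) ≤ D →
      (∃ k : ℕ, (Subgroup.centralizer (U : Set X)).relIndex D = 2 ^ k) →
      D = Subgroup.centralizer (U : Set X)) (N : Subgroup X) [N.Normal] :
    FFHyp 2 (Helper11.holoV U) (N.map (Helper11.holoHom U))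
      ((Cfsg.pPrimeCore 2 ↥(N.map (Helper11.holoHom U))).map
        (N.map (Helper11.holoHom U)).subtype) := by
  haveI : Fact (Nat.Prime 2) := ⟨Nat.prime_two⟩
  haveI := Helper11.holo_finite U
  have hHV : N.map (Helper11.holoHom U) ≤
      Subgroup.normalizer ((Helper11.holoV U : Subgroup (Helper11.Holo U)) :
        Set (Helper11.Holo U)) := by
    haveI := Helper11.holoV_normal U
    rw [Subgroup.normalizer_eq_top]
    exact le_top
  exact ffs_hyp (Helper11.holoV_elemAb U hU) hHV
    (Helper11.holo_faithful U _ (Subgroup.map_le_range _ _)) (glau_hS1 U hD N)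

/-- Abelian subgroups of largest order of a 2-subgroup `T' ≥ U` map to best offenders. -/
theorem holo_maxAb_bestOffender [Group.IsSolvable X] (U : Subgroup X) [U.Normal]
    (hU : Cfsg.IsElementaryAbelian 2 U)
    (hD : ∀ D : Subgroup X, D.Normal → Subgroup.centralizer (U : Set X) ≤ D →
      (∃ k : ℕ, (Subgroup.centralizer (U : Set X)).relIndex D = 2 ^ k) →
      D = Subgroup.centralizer (U : Set X))
    {T' A : Subgroup X} (hT' : IsPGroup 2 T') (hUT : U ≤ T') (hA : Helper19.MaxAb T' A) :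
    Cfsg.IsBestOffenderOn 2 (Helper11.holoV U) (A.map (Helper11.holoHom U)) := by
  haveI : Fact (Nat.Prime 2) := ⟨Nat.prime_two⟩
  haveI := Helper11.holo_finite U
  have hUc : ∀ a ∈ U, ∀ b ∈ U, a * b = b * a := ((elemAb_iff 2 U).mp hU).1
  have hff := glau_ffhyp U hU hD ⊤
  have hbo := holo_isBO U (maxAb_isBO hUc hUT hA)
  have hab : ∀ a ∈ A.map (Helper11.holoHom U), ∀ b ∈ A.map (Helper11.holoHom U),
      a * b = b * a := hA.2.1.map (Helper11.holoHom U)
  have hsq := hff.sq_eq_one_of_isBO _ (A.map (Helper11.holoHom U)) rfl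
    (Subgroup.map_mono le_top) hab ((hT'.to_le hA.1).map (Helper11.holoHom U)) hbo
  exact hbo.bestOffender hab hsq

end offender

section s3

/-- The three nonzero vectors of `𝔽₂²`. -/
def s3vec : Fin 3 → Fin 2 → ZMod 2 := ![![1, 0], ![0, 1], ![1, 1]]

/-- The matrix permuting the nonzero vectors like `σ`. -/
def s3mat (σ : Equiv.Perm (Fin 3)) : Matrix (Fin 2) (Fin 2) (ZMod 2) :=
  Matrix.of (fun i j => s3vec (σ (Fin.castSucc j)) i)

theorem s3mat_det : ∀ σ : Equiv.Perm (Fin 3), (s3mat σ).det = 1 := by decide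

/-- `S₃ → SL(2, 2)`. -/
def s3SL (σ : Equiv.Perm (Fin 3)) : Matrix.SpecialLinearGroup (Fin 2) (ZMod 2) :=
  ⟨s3mat σ, s3mat_det σ⟩

theorem s3SL_mul : ∀ σ τ : Equiv.Perm (Fin 3), s3SL (σ * τ) = s3SL σ * s3SL τ := by decide

theorem s3SL_inj : ∀ σ τ : Equiv.Perm (Fin 3), s3SL σ = s3SL τ → σ = τ := by decide

theorem s3SL_surj : ∀ m : Matrix.SpecialLinearGroup (Fin 2) (ZMod 2), ∃ σ, s3SL σ = m := by
  decide

/-- `SL(2, 2) ≅ S₃`. -/
noncomputable def sl2TwoEquivPerm :
    Matrix.SpecialLinearGroup (Fin 2) (ZMod 2) ≃* Equiv.Perm (Fin 3) :=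
  (MulEquiv.ofBijective (MonoidHom.mk' s3SL s3SL_mul)
    ⟨fun σ τ h => s3SL_inj σ τ h, s3SL_surj⟩).symm

/-- An internal direct product of copies of `SL(2, 2)` is a power of `S₃`. -/
theorem exists_mulEquiv_pi_perm_of_iSupIndep {Γ : Type*} [Group Γ] {ι : Type*} [Finite ι]
    (E : ι → Subgroup Γ)
    (hnorm : ∀ i, (⨆ j, E j) ≤ Subgroup.normalizer (E i : Set Γ)) (hind : iSupIndep E)
    (hiso : ∀ i, Nonempty (↥(E i) ≃* Matrix.SpecialLinearGroup (Fin 2) (ZMod 2))) :
    Nonempty (↥(⨆ j, E j) ≃* (Fin (Nat.card ι) → Equiv.Perm (Fin 3))) := by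
  haveI := Fintype.ofFinite ι
  have hcomm : Pairwise fun i j : ι => ∀ x y : Γ, x ∈ E i → y ∈ E j → Commute x y := by
    intro i j hij x y hx hy
    have hdis : E i ⊓ E j = ⊥ := (hind.pairwiseDisjoint hij).eq_bot
    have h1 : x * y * x⁻¹ ∈ E j :=
      (Subgroup.mem_normalizer_iff.mp (hnorm j (le_iSup E i hx)) y).mp hy
    have h2 : y * x⁻¹ * y⁻¹ ∈ E i :=
      (Subgroup.mem_normalizer_iff.mp (hnorm i (le_iSup E j hy)) x⁻¹).mp ((E i).inv_mem hx)
    have h3 : x * y * x⁻¹ * y⁻¹ ∈ E i ⊓ E j := by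
      refine Subgroup.mem_inf.mpr ⟨?_, (E j).mul_mem h1 ((E j).inv_mem hy)⟩
      have e : x * y * x⁻¹ * y⁻¹ = x * (y * x⁻¹ * y⁻¹) := by group
      rw [e]
      exact (E i).mul_mem hx h2
    rw [hdis, Subgroup.mem_bot] at h3
    show x * y = y * x
    calc x * y = (x * y * x⁻¹ * y⁻¹) * (y * x) := by group
      _ = y * x := by rw [h3, one_mul]
  have hinj := Subgroup.injective_noncommPiCoprod_of_iSupIndep (hcomm := hcomm) hind
  have hrange := Subgroup.noncommPiCoprod_range (hcomm := hcomm)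
  exact ⟨((MulEquiv.subgroupCongr hrange).symm.trans (MonoidHom.ofInjective hinj).symm).trans
    ((MulEquiv.piCongrRight (fun i => (hiso i).some)).trans
      ((MulEquiv.piCongrRight (fun _ => sl2TwoEquivPerm)).trans
        (MulEquiv.arrowCongr (Finite.equivFin ι) (MulEquiv.refl _))))⟩

end s3

end Cfsg.Agent.Helper10
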