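import Mathlib
import Cfsg.Agent.Helper90.HTDefs
import Cfsg.Agent.Helper58.TICOMPL

set_option autoImplicit false

/-!
# S5953 piece HMAX (helper10): the proof, with HORTH as a hypothesis
-/

namespace Cfsg.Agent.Helper10.HT5953

open Module Polynomial Cfsg.Agent.Helper90.HT

section geom2

variable {F : Type*} [Field F] {V : Type*} [AddCommGroup V] [Module F V] [FiniteDimensional F V]
  (σ : F →+* F) (h : V → V → F)

/-- a subspace of given dimension -/
theorem hmax_exists_sub (W : Submodule F V) (a : ℕ) (ha : a ≤ finrank F W) :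
    ∃ A : Submodule F V, A ≤ W ∧ finrank F A = a := by
  classical
  let b := Module.finBasis F W
  refine ⟨Submodule.span F (Set.range fun j : Fin a => (b (Fin.castLE ha j) : V)), ?_, ?_⟩
  · rw [Submodule.span_le]
    rintro _ ⟨j, rfl⟩
    exact (b _).2
  · have hli : LinearIndependent F (fun j : Fin a => (b (Fin.castLE ha j) : V)) := by
      have h1 : LinearIndependent F (fun j : Fin a => b (Fin.castLE ha j)) :=
        b.linearIndependent.comp _ (Fin.castLE_injective ha)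
      exact h1.map' W.subtype (Submodule.ker_subtype W)
    rw [finrank_span_eq_card hli, Fintype.card_fin]

/-- HMAX with HORTH as a hypothesis -/
theorem ht_max_aux
    (horth : ∀ D W : Submodule F V, HNondegOn h D → W ≤ D →
      ∃ P : Submodule F V, (∀ v, v ∈ P ↔ v ∈ D ∧ ∀ w ∈ W, h v w = 0) ∧
        finrank F P + finrank F W = finrank F D)
    (hh : IsHerm σ h) (T : Module.End F V) (hT : HPres h T) (N : ℕ)
    (hN : (N : F) ≠ 0) (hTN : T ^ N = 1) (D : Submodule F V) (hDT : D.map T ≤ D)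
    (hD : HNondegOn h D) :
    ∃ W U : Submodule F V, W ≤ D ∧ U ≤ D ∧ HTI h W ∧ W.map T ≤ W ∧ U.map T ≤ U ∧
      finrank F D = 2 * finrank F W + finrank F U ∧
      ∀ W' : Submodule F V, W' ≤ U → HTI h W' → W'.map T ≤ W' → W' = ⊥ := by
  classical
  have hex : ∃ k, ∃ W : Submodule F V, W ≤ D ∧ HTI h W ∧ W.map T ≤ W ∧ finrank F W = k :=
    ⟨0, ⊥, bot_le, fun u hu v _ => by
      rw [Submodule.mem_bot] at hu; rw [hu]; exact hh.zero_left v, by simp, by simp⟩
  have hbd : ∀ k, (∃ W : Submodule F V, W ≤ D ∧ HTI h W ∧ W.map T ≤ W ∧ finrank F W = k) →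
      k ≤ finrank F V := by
    rintro k ⟨W, -, -, -, rfl⟩
    exact Submodule.finrank_le W
  obtain ⟨W, hWD, hWTI, hWT, hWmax⟩ : ∃ W : Submodule F V, W ≤ D ∧ HTI h W ∧ W.map T ≤ W ∧
      ∀ W₂ : Submodule F V, W₂ ≤ D → HTI h W₂ → W₂.map T ≤ W₂ → finrank F W₂ ≤ finrank F W := by
    obtain ⟨W, h1, h2, h3, h4⟩ := Nat.findGreatest_spec (P := fun k => ∃ W : Submodule F V,
      W ≤ D ∧ HTI h W ∧ W.map T ≤ W ∧ finrank F W = k) (hbd _ hex.choose_spec) hex.choose_spec
    refine ⟨W, h1, h2, h3, fun W₂ hW₂D hW₂TI hW₂T => ?_⟩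
    rw [h4]
    exact Nat.le_findGreatest (hbd _ ⟨W₂, hW₂D, hW₂TI, hW₂T, rfl⟩) ⟨W₂, hW₂D, hW₂TI, hW₂T, rfl⟩
  have hNpos : 0 < N := by
    rcases Nat.eq_zero_or_pos N with h0 | h0
    · rw [h0] at hN; simp at hN
    · exact h0
  have hinv : ∀ v, T ((T ^ (N - 1)) v) = v := by
    intro v
    have h1 : T * T ^ (N - 1) = 1 := by
      rw [← pow_succ', Nat.sub_add_cancel hNpos, hTN]
    have h2 := congrArg (fun S : Module.End F V => S v) h1
    simpa using h2
  have hpowmem : ∀ (X : Submodule F V), X.map T ≤ X → ∀ k : ℕ, ∀ v ∈ X, (T ^ k) v ∈ X := by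
    intro X hX k
    induction k with
    | zero => intro v hv; simpa using hv
    | succ k ih =>
      intro v hv
      rw [pow_succ']
      exact hX ⟨_, ih v hv, rfl⟩
  obtain ⟨P, hP, hdim⟩ := horth D W hD hWD
  have hWP : W ≤ P := fun v hv => (hP v).mpr ⟨hWD hv, fun w hw => hWTI v hv w hw⟩
  have hPD : P ≤ D := fun v hv => ((hP v).mp hv).1
  have hPT : P.map T ≤ P := by
    rintro _ ⟨v, hv, rfl⟩
    obtain ⟨hvD, hvW⟩ := (hP v).mp hv
    refine (hP _).mpr ⟨hDT ⟨v, hvD, rfl⟩, fun w hw => ?_⟩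
    have h1 : h (T v) w = h (T v) (T ((T ^ (N - 1)) w)) := by rw [hinv]
    rw [h1, hT]
    exact hvW _ (hpowmem W hWT (N - 1) w hw)
  obtain ⟨U, hUP, hUT, hWU, hWUP⟩ :=
    Cfsg.Agent.Helper58.TI5955.ti_compl T N hN hTN W P hWP hWT hPT
  have hdimP : finrank F P = finrank F W + finrank F U := by
    have h3 := Submodule.finrank_sup_add_finrank_inf_eq W U
    rw [hWU, hWUP, finrank_bot] at h3
    omega
  refine ⟨W, U, hWD, hUP.trans hPD, hWTI, hWT, hUT, by omega, ?_⟩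
  intro W' hW'U hW'TI hW'T
  have hsupTI : HTI h (W ⊔ W') := by
    intro u hu v hv
    obtain ⟨u₁, hu₁, u₂, hu₂, rfl⟩ := Submodule.mem_sup.mp hu
    obtain ⟨v₁, hv₁, v₂, hv₂, rfl⟩ := Submodule.mem_sup.mp hv
    have h12 : h u₁ v₂ = 0 :=
      hh.eq_zero_symm (((hP v₂).mp (hUP (hW'U hv₂))).2 u₁ hu₁)
    have h21 : h u₂ v₁ = 0 := ((hP u₂).mp (hUP (hW'U hu₂))).2 v₁ hv₁
    rw [hh.add_left, hh.add_right, hh.add_right, hWTI u₁ hu₁ v₁ hv₁, hW'TI u₂ hu₂ v₂ hv₂, h12,
      h21]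
    simp
  have hsupT : (W ⊔ W').map T ≤ W ⊔ W' := by
    rw [Submodule.map_sup]
    exact sup_le_sup hWT hW'T
  have hsupD : W ⊔ W' ≤ D := sup_le hWD ((hW'U.trans hUP).trans hPD)
  have hmax := hWmax (W ⊔ W') hsupD hsupTI hsupT
  have hinf : W ⊓ W' = ⊥ := by
    apply le_bot_iff.mp
    rw [← hWU]
    exact inf_le_inf_left W hW'U
  have h4 := Submodule.finrank_sup_add_finrank_inf_eq W W'
  rw [hinf, finrank_bot] at h4
  have h0 : finrank F W' = 0 := by omega
  exact Submodule.finrank_eq_zero.mp h0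

/-- HTIB with HORTH as a hypothesis -/
theorem ht_bound_aux
    (horth : ∀ D W : Submodule F V, HNondegOn h D → W ≤ D →
      ∃ P : Submodule F V, (∀ v, v ∈ P ↔ v ∈ D ∧ ∀ w ∈ W, h v w = 0) ∧
        finrank F P + finrank F W = finrank F D)
    (C W : Submodule F V) (hC : HNondegOn h C) (hW : W ≤ C)
    (hTI : HTI h W) : 2 * finrank F W ≤ finrank F C := by
  obtain ⟨P, hP, hdim⟩ := horth C W hC hW
  have hWP : W ≤ P := fun v hv => (hP v).mpr ⟨hW hv, fun w hw => hTI v hv w hw⟩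
  have h1 := Submodule.finrank_mono hWP
  omega

/-- HLAG with HMAX and HISO as hypotheses -/
theorem ht_lag_aux
    (hmax : ∀ C : Submodule F V, HNondegOn h C →
      ∃ W U : Submodule F V, W ≤ C ∧ U ≤ C ∧ HTI h W ∧
        finrank F C = 2 * finrank F W + finrank F U ∧
        ∀ W' : Submodule F V, W' ≤ U → HTI h W' → W' = ⊥)
    (hiso : ∀ U : Submodule F V, 2 ≤ finrank F U → ∃ v ∈ U, v ≠ 0 ∧ h v v = 0)
    (hh : IsHerm σ h) (C : Submodule F V) (hC : HNondegOn h C) :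
    ∀ a, 2 * a ≤ finrank F C → ∃ A : Submodule F V, A ≤ C ∧ HTI h A ∧ finrank F A = a := by
  obtain ⟨W, U, hWC, hUC, hWTI, hdim, hmaxU⟩ := hmax C hC
  have hU : finrank F U ≤ 1 := by
    by_contra hne
    push Not at hne
    obtain ⟨v, hv, hv0, hvv⟩ := hiso U hne
    have h1 := hmaxU (Submodule.span F {v}) (by
      rw [Submodule.span_le]
      intro x hx
      rw [Set.mem_singleton_iff] at hx
      rw [hx]; exact hv) (by
      intro u hu w hw
      obtain ⟨a, rfl⟩ := Submodule.mem_span_singleton.mp hu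
      obtain ⟨b, rfl⟩ := Submodule.mem_span_singleton.mp hw
      rw [hh.smul_left, hh.smul_right, hvv]
      simp)
    have hmem : v ∈ Submodule.span F {v} := Submodule.mem_span_singleton_self v
    rw [h1, Submodule.mem_bot] at hmem
    exact hv0 hmem
  intro a ha
  obtain ⟨A, hAW, hA⟩ := hmax_exists_sub W a (by omega)
  exact ⟨A, hAW.trans hWC, fun u hu v hv => hWTI u (hAW hu) v (hAW hv), hA⟩

end geom2

end Cfsg.Agent.Helper10.HT5953
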