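import Mathlib
import Cfsg.Agent.Helper90.HTDefs
import Cfsg.Agent.Helper90.BGChain
import Cfsg.Agent.Helper46.BGLIRR
import Cfsg.Agent.Helper10.HTHMAXAux
import Cfsg.Agent.Helper47.HTHORTH
import Cfsg.Agent.Helper34.HTHFIX

set_option autoImplicit false

/-!
# S5953 piece HB3 (helper10)
-/

namespace Cfsg.Agent.Helper10.HT5953

open Module Polynomial Cfsg.Agent.Helper90.HT

section geom2

variable {F : Type*} [Field F] {V : Type*} [AddCommGroup V] [Module F V] [FiniteDimensional F V]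
  (σ : F →+* F) (h : V → V → F)

variable [Fintype F] (q : ℕ) (hq : Fintype.card F = q ^ 2) (hσ : ∀ a, σ a = a ^ q)

include hq hσ

/-- HB3 (uses HFIX, HTIB, cyc_dvd, Helper46): the obstruction. -/
theorem ht_b3 (hh : IsHerm σ h) (hnd : ∀ v, (∀ w, h v w = 0) → v = 0)
    (T : Module.End F V) (hT : HPres h T) (r : ℕ) [Fact r.Prime] (hrF : (r : F) ≠ 0)
    (hTr : T ^ r = 1) (W : Submodule F V) (hTI : HTI h W) (hW : W.map T ≤ W) :
    ∃ a, a ≤ finrank F W ∧ orderOf ((Fintype.card F : ℕ) : ZMod r) ∣ finrank F W - a ∧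
      2 * a ≤ finrank F (LinearMap.ker (T - 1)) := by
  obtain ⟨-, -, -, -, hCnd, -⟩ := Cfsg.Agent.Helper34.HT5953.ht_fix σ h hh hnd T hT r hrF hTr
  refine ⟨finrank F (W ⊓ LinearMap.ker (T - 1) : Submodule F V), ?_, ?_, ?_⟩
  · exact Submodule.finrank_mono inf_le_left
  · exact Cfsg.Agent.Helper90.BG.cyc_dvd T r _ hrF hTr
      (fun g hg hdvd => Cfsg.Agent.Helper46.bgl_irr_factor_degree r hrF g hg hdvd) W hW
  · exact ht_bound_aux h
      (fun D W hD hW => Cfsg.Agent.Helper47.HT5953.ht_orth σ h hh D W hD hW)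
      (LinearMap.ker (T - 1)) (W ⊓ LinearMap.ker (T - 1)) hCnd inf_le_right
      (fun u hu v hv => hTI u hu.1 v hv.1)

end geom2

end Cfsg.Agent.Helper10.HT5953
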