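import Mathlib
import Cfsg.Agent.Helper90.HTDefs
import Cfsg.Agent.Helper10.HTHMAXAux
import Cfsg.Agent.Helper47.HTHORTH

set_option autoImplicit false

/-!
# S5953 piece HMAX (helper10)
-/

namespace Cfsg.Agent.Helper10.HT5953

open Module Polynomial Cfsg.Agent.Helper90.HT

section geom2

variable {F : Type*} [Field F] {V : Type*} [AddCommGroup V] [Module F V] [FiniteDimensional F V]
  (σ : F →+* F) (h : V → V → F)

/-- HMAX (uses HORTH, Helper58 ti_compl): a maximal invariant t.i. subspace of `D` and an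
invariant complement of it in its perp. -/
theorem ht_max (hh : IsHerm σ h) (T : Module.End F V) (hT : HPres h T) (N : ℕ)
    (hN : (N : F) ≠ 0) (hTN : T ^ N = 1) (D : Submodule F V) (hDT : D.map T ≤ D)
    (hD : HNondegOn h D) :
    ∃ W U : Submodule F V, W ≤ D ∧ U ≤ D ∧ HTI h W ∧ W.map T ≤ W ∧ U.map T ≤ U ∧
      finrank F D = 2 * finrank F W + finrank F U ∧
      ∀ W' : Submodule F V, W' ≤ U → HTI h W' → W'.map T ≤ W' → W' = ⊥ :=
  ht_max_aux σ h (fun D W hD hW => Cfsg.Agent.Helper47.HT5953.ht_orth σ h hh D W hD hW)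
    hh T hT N hN hTN D hDT hD

end geom2

end Cfsg.Agent.Helper10.HT5953
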