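import Mathlib
import Cfsg.Agent.Helper90.HTDefs
import Cfsg.Agent.Helper10.HTHMAX
import Cfsg.Agent.Helper27.HTHISO

set_option autoImplicit false

/-!
# S5953 piece HLAG (helper10)
-/

namespace Cfsg.Agent.Helper10.HT5953

open Module Polynomial Cfsg.Agent.Helper90.HT

section geom2

variable {F : Type*} [Field F] {V : Type*} [AddCommGroup V] [Module F V] [FiniteDimensional F V]
  (σ : F →+* F) (h : V → V → F)

variable [Fintype F] (q : ℕ) (hq : Fintype.card F = q ^ 2) (hσ : ∀ a, σ a = a ^ q)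

include hq hσ

/-- HLAG (uses HMAX with `T = 1`, `N = 1`, and HISO) -/
theorem ht_lag (hh : IsHerm σ h) (C : Submodule F V) (hC : HNondegOn h C) :
    ∀ a, 2 * a ≤ finrank F C → ∃ A : Submodule F V, A ≤ C ∧ HTI h A ∧ finrank F A = a := by
  refine ht_lag_aux σ h ?_
    (fun U hU => Cfsg.Agent.Helper27.HT5953.ht_iso σ h q hq hσ hh U hU) hh C hC
  intro C hC
  obtain ⟨W, U, hWC, hUC, hWTI, -, -, hdim, hmax⟩ :=
    ht_max σ h hh (1 : Module.End F V) (fun x y => rfl) 1 (by simp) (by simp) C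
      (by rintro _ ⟨v, hv, rfl⟩; exact hv) hC
  exact ⟨W, U, hWC, hUC, hWTI, hdim, fun W' hW'U hW'TI =>
    hmax W' hW'U hW'TI (by rintro _ ⟨x, hx, rfl⟩; exact hx)⟩

end geom2

end Cfsg.Agent.Helper10.HT5953
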