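import Mathlib
import Cfsg.Prelude.Def_PLocal
import Cfsg.Agent.Helper10.Thompson

/-!
Helper10: an ambient group for the action of `G` on a normal subgroup `V`.

For `V ⊴ G` we use `HolAmb V = V ⋊ Aut(V)` with the map `holMap V : G → HolAmb V`,
`g ↦ (1, conjugation by g)`, whose kernel is `C_G(V)`, and the copy `holV V` of `V`.
Thus the image of a subgroup `X ≤ G` is a copy of `X / C_X(V)` acting *faithfully* on `holV V`,
and statements about subgroups `V`, `H` of one group with `H ∩ C(V) = 1` apply.
-/

set_option autoImplicit false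

namespace Cfsg.Agent.Helper10

open scoped commutatorElement Pointwise

section

variable {G : Type*} [Group G] (V : Subgroup G) [V.Normal]

/-- The ambient group `V ⋊ Aut(V)`. -/
abbrev HolAmb : Type _ := ↥V ⋊[MonoidHom.id (MulAut ↥V)] MulAut ↥V

instance holAmb_finite [Finite G] : Finite (HolAmb V) :=
  Finite.of_equiv _ SemidirectProduct.equivProd.symm

/-- `g ↦ (1, conjugation by g)`. -/
def holMap : G →* HolAmb V := SemidirectProduct.inr.comp MulAut.conjNormal

/-- The copy of `V` in the ambient group. -/
def holV : Subgroup (HolAmb V) := (SemidirectProduct.inl : ↥V →* HolAmb V).range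

theorem holMap_conj (g : G) (v : ↥V) :
    holMap V g * SemidirectProduct.inl v * (holMap V g)⁻¹ =
      SemidirectProduct.inl (MulAut.conjNormal g v) := by
  have h := SemidirectProduct.inl_aut (φ := MonoidHom.id (MulAut ↥V)) (MulAut.conjNormal g) v
  rw [MonoidHom.id_apply] at h
  rw [h]
  simp [holMap]

theorem holMap_ker : (holMap V).ker = Subgroup.centralizer (V : Set G) := by
  ext g
  rw [MonoidHom.mem_ker, Subgroup.mem_centralizer_iff]
  constructor
  · intro h v hv
    have h1 : (MulAut.conjNormal g : MulAut ↥V) = 1 := by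
      have h2 : (SemidirectProduct.inr (MulAut.conjNormal g) : HolAmb V) =
          SemidirectProduct.inr 1 := by
        rw [map_one]; exact h
      exact SemidirectProduct.inr_injective h2
    have h3 : ((MulAut.conjNormal g : MulAut ↥V) ⟨v, hv⟩ : G) = v := by rw [h1]; rfl
    rw [MulAut.conjNormal_apply] at h3
    have h4 : g * v = v * g := by
      calc g * v = g * v * g⁻¹ * g := by group
        _ = v * g := by rw [h3]
    exact h4.symm
  · intro h
    have h1 : (MulAut.conjNormal g : MulAut ↥V) = 1 := by
      ext v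
      rw [MulAut.conjNormal_apply]
      have := h v v.2
      show g * (v : G) * g⁻¹ = v
      rw [← this]; group
    show SemidirectProduct.inr (MulAut.conjNormal g) = 1
    rw [h1, map_one]

instance holV_normal : (holV V).Normal := by
  unfold holV
  rw [SemidirectProduct.range_inl_eq_ker_rightHom]
  infer_instance

theorem mem_holV_iff (y : HolAmb V) : y ∈ holV V ↔ ∃ v : ↥V, SemidirectProduct.inl v = y :=
  MonoidHom.mem_range

theorem holV_card : Nat.card (holV V) = Nat.card V := by
  unfold holV
  exact Nat.card_congr (Equiv.ofInjective _ SemidirectProduct.inl_injective).symm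

theorem holV_elemAb {p : ℕ} (hV : Cfsg.IsElementaryAbelian p V) :
    Cfsg.IsElementaryAbelian p (holV V) := by
  rw [elemAb_iff] at hV ⊢
  constructor
  · rintro a ⟨v, rfl⟩ b ⟨w, rfl⟩
    rw [← map_mul, ← map_mul]
    congr 1
    exact Subtype.ext (hV.1 v v.2 w w.2)
  · rintro a ⟨v, rfl⟩
    rw [← map_pow]
    have : v ^ p = 1 := Subtype.ext (by simpa using hV.2 v v.2)
    rw [this, map_one]

/-- An element of the image of `G` centralizing `holV V` is trivial. -/
theorem hol_faithful : (holMap V).range ⊓ Subgroup.centralizer (holV V : Set (HolAmb V)) = ⊥ := by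
  rw [eq_bot_iff]
  rintro y ⟨⟨g, rfl⟩, hy⟩
  rw [Subgroup.mem_bot]
  have hg : g ∈ Subgroup.centralizer (V : Set G) := by
    rw [Subgroup.mem_centralizer_iff]
    intro v hv
    have h1 := Subgroup.mem_centralizer_iff.mp hy (SemidirectProduct.inl ⟨v, hv⟩) ⟨_, rfl⟩
    have h2 := holMap_conj V g ⟨v, hv⟩
    have h3 : holMap V g * SemidirectProduct.inl (⟨v, hv⟩ : ↥V) * (holMap V g)⁻¹ =
        SemidirectProduct.inl (⟨v, hv⟩ : ↥V) := by
      rw [← h1]; group
    rw [h3] at h2
    have h4 := SemidirectProduct.inl_injective h2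
    have h5 : (v : G) = g * v * g⁻¹ := by
      have := congrArg (fun t : ↥V => (t : G)) h4
      simpa [MulAut.conjNormal_apply] using this
    calc v * g = g * v * g⁻¹ * g := by rw [← h5]
      _ = g * v := by group
  rw [← holMap_ker] at hg
  exact hg

theorem hol_map_inf_centralizer (X : Subgroup G) :
    X.map (holMap V) ⊓ Subgroup.centralizer (holV V : Set (HolAmb V)) = ⊥ := by
  rw [eq_bot_iff, ← hol_faithful V]
  exact inf_le_inf_right _ (Subgroup.map_le_range _ _)

theorem hol_map_le_normalizer (X : Subgroup G) :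
    X.map (holMap V) ≤ Subgroup.normalizer (holV V : Set (HolAmb V)) := by
  rw [Subgroup.normalizer_eq_top]
  exact le_top

/-- The image of `B` has order `|B : C_B(V)|`. -/
theorem hol_card_map [Finite G] (B : Subgroup G) :
    Nat.card ↥(B.map (holMap V)) * Nat.card ↥(B ⊓ Subgroup.centralizer (V : Set G)) =
      Nat.card B := by
  rw [← Subgroup.relIndex_ker B (holMap V), holMap_ker,
    card_eq_card_mul_relIndex (inf_le_left : B ⊓ Subgroup.centralizer (V : Set G) ≤ B),
    Subgroup.inf_relIndex_left, mul_comm]

/-- Fixed points of the image of `B` on `holV V` correspond to `C_V(B)`. -/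
theorem hol_fix_eq (B : Subgroup G) :
    holV V ⊓ Subgroup.centralizer ((B.map (holMap V) : Subgroup (HolAmb V)) : Set (HolAmb V)) =
      ((V ⊓ Subgroup.centralizer (B : Set G)).subgroupOf V).map SemidirectProduct.inl := by
  ext y
  constructor
  · rintro ⟨⟨v, rfl⟩, hy⟩
    refine ⟨v, ?_, rfl⟩
    rw [SetLike.mem_coe, Subgroup.mem_subgroupOf]
    refine ⟨v.2, ?_⟩
    show (v : G) ∈ Subgroup.centralizer (B : Set G)
    rw [Subgroup.mem_centralizer_iff]
    intro b hb
    have hy' : SemidirectProduct.inl v ∈ Subgroup.centralizer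
        ((B.map (holMap V) : Subgroup (HolAmb V)) : Set (HolAmb V)) := hy
    have h1 := Subgroup.mem_centralizer_iff.mp hy' (holMap V b) ⟨b, hb, rfl⟩
    have h2 := holMap_conj V b v
    have h3 : holMap V b * SemidirectProduct.inl v * (holMap V b)⁻¹ =
        SemidirectProduct.inl v := by
      rw [h1]; group
    rw [h3] at h2
    have h4 := SemidirectProduct.inl_injective h2
    have h5 : (v : G) = b * v * b⁻¹ := by
      have := congrArg (fun t : ↥V => (t : G)) h4
      simpa [MulAut.conjNormal_apply] using this
    calc b * (v : G) = b * v * b⁻¹ * b := by group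
      _ = v * b := by rw [← h5]
  · rintro ⟨v, hv, rfl⟩
    rw [SetLike.mem_coe, Subgroup.mem_subgroupOf] at hv
    refine ⟨⟨v, rfl⟩, ?_⟩
    show SemidirectProduct.inl v ∈ Subgroup.centralizer
        ((B.map (holMap V) : Subgroup (HolAmb V)) : Set (HolAmb V))
    rw [Subgroup.mem_centralizer_iff]
    rintro _ ⟨b, hb, rfl⟩
    have h1 : b * (v : G) = v * b := Subgroup.mem_centralizer_iff.mp hv.2 b hb
    have h2 := holMap_conj V b v
    have h3 : MulAut.conjNormal b v = v := by
      apply Subtype.ext
      rw [MulAut.conjNormal_apply, h1]; group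
    rw [h3] at h2
    calc holMap V b * SemidirectProduct.inl v
        = holMap V b * SemidirectProduct.inl v * (holMap V b)⁻¹ * holMap V b := by group
      _ = SemidirectProduct.inl v * holMap V b := by rw [h2]

theorem hol_card_fix (B : Subgroup G) :
    Nat.card ↥(holV V ⊓
        Subgroup.centralizer ((B.map (holMap V) : Subgroup (HolAmb V)) : Set (HolAmb V))) =
      Nat.card ↥(V ⊓ Subgroup.centralizer (B : Set G)) := by
  rw [hol_fix_eq, Subgroup.card_map_of_injective SemidirectProduct.inl_injective]
  exact Nat.card_congr (Subgroup.subgroupOfEquivOfLe inf_le_left).toEquiv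

/-- Best offenders on `V` map to best offenders on `holV V`. -/
theorem hol_bestOffender [Finite G] {p : ℕ} {A : Subgroup G}
    (hA : Cfsg.IsBestOffenderOn p V A) :
    Cfsg.IsBestOffenderOn p (holV V) (A.map (holMap V)) := by
  obtain ⟨h1, h2, h3⟩ := hA
  refine ⟨?_, ?_, ?_⟩
  · intro B' hB'
    obtain ⟨B, hBA, hker, rfl⟩ : ∃ B : Subgroup G, B ≤ A ∧
        B ⊓ Subgroup.centralizer (V : Set G) = A ⊓ Subgroup.centralizer (V : Set G) ∧
        B.map (holMap V) = B' := by
      refine ⟨A ⊓ B'.comap (holMap V), inf_le_left, ?_, ?_⟩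
      · apply le_antisymm
        · exact inf_le_inf_right _ inf_le_left
        · refine le_inf (le_inf inf_le_left ?_) inf_le_right
          intro x hx
          rw [Subgroup.mem_comap]
          have : holMap V x = 1 := by
            rw [← MonoidHom.mem_ker, holMap_ker]; exact hx.2
          rw [this]; exact Subgroup.one_mem _
      · apply le_antisymm
        · rintro _ ⟨x, hx, rfl⟩
          exact hx.2
        · intro y hy
          obtain ⟨x, hx, rfl⟩ := hB' hy
          exact ⟨x, ⟨hx, hy⟩, rfl⟩
    have hle := h1 B hBA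
    have e1 := hol_card_map V B
    have e2 := hol_card_map V A
    rw [hker] at e1
    rw [hol_card_fix, hol_card_fix]
    have hpos : 0 < Nat.card ↥(A ⊓ Subgroup.centralizer (V : Set G)) := Nat.card_pos
    rw [← e1, ← e2] at hle
    have : Nat.card ↥(B.map (holMap V)) * Nat.card ↥(V ⊓ Subgroup.centralizer (B : Set G)) *
        Nat.card ↥(A ⊓ Subgroup.centralizer (V : Set G)) ≤
        Nat.card ↥(A.map (holMap V)) * Nat.card ↥(V ⊓ Subgroup.centralizer (A : Set G)) *
        Nat.card ↥(A ⊓ Subgroup.centralizer (V : Set G)) := by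
      calc _ = Nat.card ↥(B.map (holMap V)) * Nat.card ↥(A ⊓ Subgroup.centralizer (V : Set G)) *
            Nat.card ↥(V ⊓ Subgroup.centralizer (B : Set G)) := by ring
        _ ≤ Nat.card ↥(A.map (holMap V)) * Nat.card ↥(A ⊓ Subgroup.centralizer (V : Set G)) *
            Nat.card ↥(V ⊓ Subgroup.centralizer (A : Set G)) := hle
        _ = _ := by ring
    exact Nat.le_of_mul_le_mul_right this hpos
  · rw [← Subgroup.map_commutator]
    rintro _ ⟨x, hx, rfl⟩
    have : holMap V x = 1 := by
      rw [← MonoidHom.mem_ker, holMap_ker]; exact h2 hx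
    rw [this]; exact Subgroup.one_mem _
  · rintro _ ⟨a, ha, rfl⟩
    have : holMap V (a ^ p) = 1 := by
      rw [← MonoidHom.mem_ker, holMap_ker]; exact h3 a ha
    rw [← map_pow, this]; exact Subgroup.one_mem _

end

end Cfsg.Agent.Helper10
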