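import Mathlib
import Cfsg.Agent.Helper10.Hol
import Cfsg.Agent.Helper10.PCore
import Cfsg.Agent.Helper22.Transport
import Cfsg.Agent.Helper32.PSolvable
import Cfsg.Agent.Helper63.HHPSol
import Cfsg.Agent.S0606

/-!
Helper10: the hypotheses of the structure theorem for failure of factorization hold for the
image of `J(G)` in the ambient group `HolAmb V`, when `G` is `p`-solvable, `V ⊴ G` is elementary
abelian and `O_p(G / C_G(V)) = 1`.
-/

set_option autoImplicit false

namespace Cfsg.Agent.Helper10

open scoped commutatorElement Pointwise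

section

variable {G : Type*} [Group G] (V : Subgroup G) [V.Normal]

/-- The injective map `G / C_G(V) → HolAmb V`. -/
def holLift : G ⧸ Subgroup.centralizer (V : Set G) →* HolAmb V :=
  QuotientGroup.lift _ (holMap V) (by rw [holMap_ker])

theorem holLift_mk (g : G) : holLift V (QuotientGroup.mk g) = holMap V g := rfl

theorem holLift_injective : Function.Injective (holLift V) := by
  rw [injective_iff_map_eq_one]
  intro y hy
  obtain ⟨g, rfl⟩ := QuotientGroup.mk_surjective y
  rw [holLift_mk, ← MonoidHom.mem_ker, holMap_ker] at hy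
  exact (QuotientGroup.eq_one_iff g).mpr hy

theorem hol_map_eq (J : Subgroup G) :
    J.map (holMap V) =
      (J.map (QuotientGroup.mk' (Subgroup.centralizer (V : Set G)))).map (holLift V) := by
  rw [Subgroup.map_map]
  rfl

variable [Finite G] {p : ℕ} [Fact p.Prime]

/-- `C_{H'}(O_{p'}(H')) ≤ O_{p'}(H')` for the image `H'` of a normal subgroup of `G`. -/
theorem hol_hS1 (hsep : Cfsg.IsPSolvable p G)
    (hO : Cfsg.pCore p (G ⧸ Subgroup.centralizer (V : Set G)) = ⊥)
    (J : Subgroup G) [hJ : J.Normal] :
    Subgroup.centralizer (Cfsg.pPrimeCore p ↥(J.map (holMap V)) : Set ↥(J.map (holMap V))) ≤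
      Cfsg.pPrimeCore p ↥(J.map (holMap V)) := by
  have hp : p.Prime := Fact.out
  rw [hol_map_eq]
  set K : Subgroup (G ⧸ Subgroup.centralizer (V : Set G)) :=
    J.map (QuotientGroup.mk' (Subgroup.centralizer (V : Set G))) with hK
  have hKn : K.Normal := Subgroup.Normal.map hJ _ (QuotientGroup.mk'_surjective _)
  let e : ↥K ≃* ↥(K.map (holLift V)) := K.equivMapOfInjective _ (holLift_injective V)
  have hsolK : Cfsg.IsPSolvable p ↥K :=
    Helper32.isPSolvable_subgroup hp (Helper32.isPSolvable_quotient hp hsep _) K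
  have hcoreK : Cfsg.pCore p ↥K = ⊥ := by
    have h1 := Helper22.pCore_map_subtype_le p hKn.isSubnormal
    rw [hO, le_bot_iff] at h1
    exact (Subgroup.map_eq_bot_iff_of_injective _ K.subtype_injective).mp h1
  apply Helper63.HHP.centralizer_pPrimeCore_le
  · exact Helper32.isPSolvable_of_equiv e hsolK
  · rw [← Helper22.pCore_map_equiv p e, hcoreK, Subgroup.map_bot]

/-- The image of `J(G)` is generated by best offenders on `holV V`. -/
theorem hol_hS3 (hV : Cfsg.IsElementaryAbelian p V) :
    (Cfsg.thompsonSubgroup p G).map (holMap V) =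
      ⨆ A : {A : Subgroup (HolAmb V) // A ≤ (Cfsg.thompsonSubgroup p G).map (holMap V) ∧
        Cfsg.IsBestOffenderOn p (holV V) A}, (A : Subgroup (HolAmb V)) := by
  apply le_antisymm
  · rw [Subgroup.map_le_iff_le_comap]
    unfold Cfsg.thompsonSubgroup
    apply sSup_le
    intro A hA
    rw [← Subgroup.map_le_iff_le_comap]
    exact le_iSup (fun A : {A : Subgroup (HolAmb V) //
        A ≤ (sSup (Cfsg.maxElementaryAbelianSubgroups p G)).map (holMap V) ∧
        Cfsg.IsBestOffenderOn p (holV V) A} => (A : Subgroup (HolAmb V)))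
      ⟨A.map (holMap V), Subgroup.map_mono (le_sSup hA),
        hol_bestOffender V (Cfsg.Agent.S0606.result V hV A hA)⟩
  · exact iSup_le fun A => A.2.1

end

end Cfsg.Agent.Helper10
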