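import Mathlib
import Cfsg.Prelude.Def_JComponents
import Cfsg.Agent.Helper49.JComp3
import Cfsg.Agent.Helper47.Conj
import Cfsg.Agent.Helper47.FrakH

/-!
Helper10: conjugation transport for the `J(T)`-component data (`Helper49.JC`):
`Ω₁(Z(X))`, `W_K`, the Thompson subgroup of a subgroup, Sylow 2-subgroups of a subgroup and
`JC K J` itself are carried along `x ↦ g x g⁻¹`.
-/

set_option autoImplicit false

namespace Cfsg.Agent.Helper10

open scoped commutatorElement
open Cfsg.Agent.Helper49 Cfsg.Agent.Helper47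

local notation "cj(" g "," Q ")" => Subgroup.map (MulEquiv.toMonoidHom (MulAut.conj g)) Q

section

variable {G : Type*} [Group G]

theorem omegaCenterOf_cj_le (g : G) (X : Subgroup G) :
    cj(g, Cfsg.omegaCenterOf X) ≤ Cfsg.omegaCenterOf (cj(g, X)) := by
  rw [Subgroup.map_le_iff_le_comap]
  intro x hx
  rw [Subgroup.mem_comap]
  have h1 := omegaCenterOf_le X hx
  have h2 := omegaCenterOf_sq X x hx
  apply mem_omegaCenterOf
  · exact Subgroup.mem_map_of_mem _ h1.1
  · rintro _ ⟨y, hy, rfl⟩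
    have h3 := (Subgroup.mem_centralizer_iff.mp h1.2) y hy
    rw [← map_mul, ← map_mul, h3]
  · rw [← map_pow, h2, map_one]

theorem omegaCenterOf_cj (g : G) (X : Subgroup G) :
    Cfsg.omegaCenterOf (cj(g, X)) = cj(g, Cfsg.omegaCenterOf X) := by
  apply le_antisymm _ (omegaCenterOf_cj_le g X)
  have h := omegaCenterOf_cj_le g⁻¹ (cj(g, X))
  rw [cj_cj, inv_mul_cancel, cj_one] at h
  rw [le_cj_iff]
  exact h

theorem wOf_cj [Finite G] (g : G) (K : Subgroup G) :
    Cfsg.wOf (cj(g, K)) = cj(g, Cfsg.wOf K) := by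
  have : Fact (Nat.Prime 2) := ⟨Nat.prime_two⟩
  unfold Cfsg.wOf
  rw [pCoreOf_cj (p := 2), omegaCenterOf_cj, cj_commutator]

theorem isMaxEAIn_cj {p : ℕ} {U A : Subgroup G} (h : IsMaxEAIn p U A) (g : G) :
    IsMaxEAIn p (cj(g, U)) (cj(g, A)) := by
  refine ⟨cj_mono h.1, elemAb_map h.2.1 _, ?_⟩
  intro B hBU hB
  rw [card_cj]
  have h1 : cj(g⁻¹, B) ≤ U := by
    rw [← le_cj_iff]; exact hBU
  have h2 := h.2.2 _ h1 (elemAb_map hB _)
  rwa [card_cj] at h2

theorem thompsonOf_cj_le (p : ℕ) (g : G) (U : Subgroup G) :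
    cj(g, Cfsg.thompsonSubgroupOf p U) ≤ Cfsg.thompsonSubgroupOf p (cj(g, U)) := by
  rw [cj_le_iff]
  apply thompsonOf_le_of_forall
  intro A hA
  rw [← cj_le_iff]
  exact (isMaxEAIn_cj hA g).le_thompsonOf

theorem thompsonOf_cj (p : ℕ) (g : G) (U : Subgroup G) :
    Cfsg.thompsonSubgroupOf p (cj(g, U)) = cj(g, Cfsg.thompsonSubgroupOf p U) := by
  apply le_antisymm _ (thompsonOf_cj_le p g U)
  have h := thompsonOf_cj_le p g⁻¹ (cj(g, U))
  rw [cj_cj, inv_mul_cancel, cj_one] at h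
  rw [le_cj_iff]
  exact h

theorem isSylowTwoIn_cj {S X : Subgroup G} (h : Cfsg.IsSylowTwoIn S X) (g : G) :
    Cfsg.IsSylowTwoIn (cj(g, S)) (cj(g, X)) := by
  refine ⟨cj_mono h.1, isPGroup_cj h.2.1 g, ?_⟩
  rw [Subgroup.relIndex_map_map_of_injective _ _ (MulAut.conj g).injective]
  exact h.2.2

/-- Conjugation transport of the data of a `J(T)`-component. -/
theorem jc_cj [Finite G] {K J : Subgroup G} (h : JC K J) (g : G) : JC (cj(g, K)) (cj(g, J)) := by
  have : Fact (Nat.Prime 2) := ⟨Nat.prime_two⟩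
  refine ⟨isPGroup_cj h.hJ2 g, ?_, ?_, ?_, ?_, ?_, ?_⟩
  · apply le_antisymm
    · rw [Subgroup.closure_le]
      intro x hx
      exact hx.1
    · conv_lhs => rw [← h.gen]
      rw [MonoidHom.map_closure, Subgroup.closure_le]
      rintro _ ⟨x, hx, rfl⟩
      apply Subgroup.subset_closure
      refine ⟨Subgroup.mem_map_of_mem _ hx.1, ?_⟩
      have e : orderOf ((MulEquiv.toMonoidHom (MulAut.conj g)) x) = orderOf x :=
        orderOf_injective _ (MulAut.conj g).injective x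
      rw [e]
      exact hx.2
  · rw [← cj_commutator, h.comm]
  · rw [pCoreOf_cj (p := 2),
      Subgroup.relIndex_map_map_of_injective _ _ (MulAut.conj g).injective]
    exact h.idx
  · intro S hS hJS
    have hS0 : Cfsg.IsSylowTwoIn (cj(g⁻¹, S)) (K ⊔ J) := by
      have := isSylowTwoIn_cj hS g⁻¹
      rwa [cj_sup, cj_cj, cj_cj, inv_mul_cancel, cj_one, cj_one] at this
    have hJ0 : J ≤ cj(g⁻¹, S) := by
      rw [le_cj_iff, inv_inv]; exact hJS
    have h1 := h.thom _ hS0 hJ0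
    have h2 : S = cj(g, cj(g⁻¹, S)) := by
      rw [cj_cj, mul_inv_cancel, cj_one]
    rw [h2, thompsonOf_cj, h1]
  · rw [wOf_cj, card_cj]
    exact h.card4
  · rw [wOf_cj]
    rintro _ ⟨w, hw, rfl⟩
    rw [← map_mul, h.sq w hw, map_one]

theorem isJComponent_of_jc {T K : Subgroup G}
    (h : JC K (Cfsg.thompsonSubgroupOf 2 T)) : Cfsg.IsJComponent T K :=
  ⟨h.gen, h.comm, h.idx, h.thom, h.card4, h.sq⟩

/-- Conjugation transport of `J(T)`-components. -/
theorem isJComponent_cj [Finite G] {T K : Subgroup G} (hT : IsPGroup 2 T)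
    (hK : Cfsg.IsJComponent T K) (g : G) : Cfsg.IsJComponent (cj(g, T)) (cj(g, K)) := by
  apply isJComponent_of_jc
  rw [thompsonOf_cj]
  exact jc_cj (JC.of_isJComponent hT hK) g

end

end Cfsg.Agent.Helper10
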