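import Cfsg.Agent.Helper77.K2Block
import Mathlib

/-!
Piece G of helper77's CALL for S4648: the centre of the block algebra over the residue field has
dimension at least `k(B)`.

The matrix `kulMat` (over the local ring) is the matrix of the idempotent operator
`f ↦ e_B * (f ∘ rep)` where `rep` picks a representative of each conjugacy class; its range is
`e_B * (class functions)`.  Over `ℂ` the range contains the `k(B)` independent idempotents of the
characters of `B`; an idempotent matrix keeps its rank under reduction (`Lead.k2_rank_map`).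
-/

set_option autoImplicit false
open Cfsg Cfsg.Agent.Helper77

namespace Cfsg.Agent.Helper10

universe u v w

section kulG

variable {G : Type u} [Group G] [Fintype G] {M : Ideal Cfsg.AlgInt} (hM : M.IsMaximal)

/-- A representative of the conjugacy class of `g`. -/
noncomputable def kulRep (g : G) : G := (ConjClasses.mk g).out

omit [Fintype G] in
theorem kulRep_isConj (g : G) : IsConj (kulRep g) g := by
  have h : ConjClasses.mk (kulRep g) = ConjClasses.mk g := Quotient.out_eq _
  exact ConjClasses.mk_eq_mk_iff_isConj.mp h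

omit [Fintype G] in
theorem kulRep_conj (g h : G) : kulRep (h * g * h⁻¹) = kulRep g := by
  unfold kulRep
  congr 1
  exact ConjClasses.mk_eq_mk_iff_isConj.mpr (isConj_iff.mpr ⟨h⁻¹, by group⟩)

omit [Fintype G] in
theorem kulRep_classFun {L : Type*} (c : G → L) (hc : ∀ g h : G, c (h * g * h⁻¹) = c g) (g : G) :
    c (kulRep g) = c g := by
  obtain ⟨x, hx⟩ := isConj_iff.mp (kulRep_isConj g)
  have h := hc (kulRep g) x
  rw [hx] at h
  exact h.symm

open Classical in
/-- The matrix of `f ↦ e_B * (f ∘ rep)` over the local ring. -/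
noncomputable def kulMat {B : Set (Cfsg.IrrCharacter G)} (hB : Cfsg.IsPBlock M B) :
    Matrix G G (localSubring M hM) :=
  fun g h => ∑ x : G, if kulRep (x⁻¹ * g) = h then
    (⟨Cfsg.blockCoeff B x, blockCoeff_memLocalRing hM hB x⟩ : localSubring M hM) else 0

theorem kulMat_mulVec {L : Type*} [CommRing L] (φ : localSubring M hM →+* L)
    {B : Set (Cfsg.IrrCharacter G)} (hB : Cfsg.IsPBlock M B) (f : G → L) (g : G) :
    ((kulMat hM hB).map φ).mulVec f g =
      ∑ x : G, φ (⟨Cfsg.blockCoeff B x, blockCoeff_memLocalRing hM hB x⟩ : localSubring M hM) *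
        f (kulRep (x⁻¹ * g)) := by
  classical
  show ∑ h : G, ((kulMat hM hB).map φ) g h * f h = _
  simp only [Matrix.map_apply, kulMat, map_sum, Finset.sum_mul]
  rw [Finset.sum_comm]
  refine Finset.sum_congr rfl fun x _ => ?_
  simp only [apply_ite φ, map_zero, ite_mul, zero_mul]
  rw [Finset.sum_ite_eq]
  simp

/-- Over `ℂ`: the matrix acts as `f ↦ e_B * (f ∘ rep)`. -/
theorem kulMat_mulVec_complex {B : Set (Cfsg.IrrCharacter G)} (hB : Cfsg.IsPBlock M B)
    (f : G → ℂ) :
    ((kulMat hM hB).map (localSubring M hM).subtype).mulVec f =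
      Helper81.conv (Cfsg.blockCoeff B) (fun g => f (kulRep g)) := by
  funext g
  rw [kulMat_mulVec]
  rfl

/-- Over the residue field: the matrix acts as `f ↦ redIdem * (f ∘ rep)`. -/
theorem kulMat_mulVec_res {B : Set (Cfsg.IrrCharacter G)} (hB : Cfsg.IsPBlock M B)
    (f : G → ResField M hM) (g : G) :
    ((kulMat hM hB).map (resHom M hM)).mulVec f g =
      (redIdem hM B * ConvAlg.ofFun (fun g => f (kulRep g))) g := by
  rw [kulMat_mulVec, ConvAlg.mul_apply]
  refine Finset.sum_congr rfl fun x _ => ?_
  congr 1
  show _ = resMap M hM (Cfsg.blockCoeff B x)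
  rw [resMap_of_mem hM (blockCoeff_memLocalRing hM hB x)]

theorem kul_conv_idem (B : Set (Cfsg.IrrCharacter G)) {a : G → ℂ}
    (ha : Cfsg.IsClassFunction G a) :
    Helper81.conv (Cfsg.blockCoeff B) (Helper81.conv (Cfsg.blockCoeff B) a) =
      Helper81.conv (Cfsg.blockCoeff B) a := by
  classical
  have hB := blockCoeff_isClassFunction B
  have h1 := Helper81.conv_isClassFunction hB ha
  apply eq_of_omega_eq (Helper81.conv_isClassFunction hB h1) h1
  intro ψ
  rw [Helper81.omega_conv ψ hB h1, Helper81.omega_conv ψ hB ha, omega_blockCoeff]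
  split_ifs <;> ring

theorem kulMat_mul_self {B : Set (Cfsg.IrrCharacter G)} (hB : Cfsg.IsPBlock M B) :
    kulMat hM hB * kulMat hM hB = kulMat hM hB := by
  classical
  have hcl : ∀ f : G → ℂ, Cfsg.IsClassFunction G (fun g => f (kulRep g)) := by
    intro f g h
    show f (kulRep (h * g * h⁻¹)) = f (kulRep g)
    rw [kulRep_conj]
  have hvec : ∀ f : G → ℂ,
      ((kulMat hM hB).map (localSubring M hM).subtype).mulVec
        (((kulMat hM hB).map (localSubring M hM).subtype).mulVec f) =
      ((kulMat hM hB).map (localSubring M hM).subtype).mulVec f := by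
    intro f
    rw [kulMat_mulVec_complex hM hB f, kulMat_mulVec_complex hM hB]
    have h1 : Cfsg.IsClassFunction G
        (Helper81.conv (Cfsg.blockCoeff B) (fun g => f (kulRep g))) :=
      Helper81.conv_isClassFunction (blockCoeff_isClassFunction B) (hcl f)
    have h2 : (fun g => Helper81.conv (Cfsg.blockCoeff B) (fun g => f (kulRep g)) (kulRep g)) =
        Helper81.conv (Cfsg.blockCoeff B) (fun g => f (kulRep g)) := by
      funext g
      exact kulRep_classFun _ h1 g
    rw [h2, kul_conv_idem B (hcl f)]
  have hQ : ((kulMat hM hB).map (localSubring M hM).subtype) *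
      ((kulMat hM hB).map (localSubring M hM).subtype) =
      ((kulMat hM hB).map (localSubring M hM).subtype) := by
    ext i j
    have h1 := congrFun (hvec (Pi.single j 1)) i
    rw [Matrix.mulVec_mulVec, Matrix.mulVec_single_one, Matrix.mulVec_single_one] at h1
    exact h1
  have h3 : (kulMat hM hB * kulMat hM hB).map (localSubring M hM).subtype =
      (kulMat hM hB).map (localSubring M hM).subtype := by
    rw [Matrix.map_mul]
    exact hQ
  exact Matrix.map_injective Subtype.val_injective h3

/-- `Ω_ψ` as a linear functional. -/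
noncomputable def kulOmega (ψ : G → ℂ) : (G → ℂ) →ₗ[ℂ] ℂ where
  toFun := Helper81.omega ψ
  map_add' := Helper81.omega_add ψ
  map_smul' := fun c a => by
    rw [Helper81.omega_smul, RingHom.id_apply, smul_eq_mul]

theorem kul_li_idem (B : Set (Cfsg.IrrCharacter G)) :
    LinearIndependent ℂ (fun χ : B => Cfsg.blockCoeff ({(χ : Cfsg.IrrCharacter G)} :
      Set (Cfsg.IrrCharacter G))) := by
  classical
  rw [linearIndependent_iff']
  intro s c hs i hi
  have h1 := congrArg (kulOmega ((i : Cfsg.IrrCharacter G) : G → ℂ)) hs
  rw [map_sum, map_zero] at h1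
  have h2 : ∀ j ∈ s, kulOmega ((i : Cfsg.IrrCharacter G) : G → ℂ)
      (c j • Cfsg.blockCoeff ({(j : Cfsg.IrrCharacter G)} : Set (Cfsg.IrrCharacter G))) =
      if j = i then c i else 0 := by
    intro j _
    rw [map_smul]
    show c j • Helper81.omega ((i : Cfsg.IrrCharacter G) : G → ℂ) (Cfsg.blockCoeff _) = _
    rw [omega_blockCoeff]
    by_cases hji : j = i
    · subst hji
      simp
    · have : (i : Cfsg.IrrCharacter G) ∉ ({(j : Cfsg.IrrCharacter G)} :
          Set (Cfsg.IrrCharacter G)) := by
        intro h
        exact hji (Subtype.ext (Set.mem_singleton_iff.mp h).symm)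
      rw [if_neg this, if_neg hji, smul_zero]
  rw [Finset.sum_congr rfl h2, Finset.sum_ite_eq' s i, if_pos hi] at h1
  exact h1

theorem kul_center_ge {B : Set (Cfsg.IrrCharacter G)} (hB : Cfsg.IsPBlock M B) :
    ∃ w : Fin (Nat.card B) → ConvAlg (ResField M hM) G,
      (∀ i y, w i * y = y * w i) ∧ (∀ i, redIdem hM B * w i = w i) ∧
      LinearIndependent (ResField M hM) w := by
  classical
  have := Fintype.ofFinite (Cfsg.IrrCharacter G)
  have hQQ := kulMat_mul_self hM hB
  -- the complex rank is at least `k(B)`
  have hrankC : Nat.card B ≤ ((kulMat hM hB).map (localSubring M hM).subtype).rank := by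
    have hli := kul_li_idem (G := G) B
    have h3 := finrank_span_eq_card hli
    have hle : Submodule.span ℂ (Set.range (fun χ : B =>
        Cfsg.blockCoeff ({(χ : Cfsg.IrrCharacter G)} : Set (Cfsg.IrrCharacter G)))) ≤
        LinearMap.range ((kulMat hM hB).map (localSubring M hM).subtype).mulVecLin := by
      apply Submodule.span_le.mpr
      rintro _ ⟨χ, rfl⟩
      refine ⟨Cfsg.blockCoeff ({(χ : Cfsg.IrrCharacter G)} : Set (Cfsg.IrrCharacter G)), ?_⟩
      show ((kulMat hM hB).map (localSubring M hM).subtype).mulVec _ = _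
      rw [kulMat_mulVec_complex]
      have h2 : (fun g => Cfsg.blockCoeff ({(χ : Cfsg.IrrCharacter G)} :
          Set (Cfsg.IrrCharacter G)) (kulRep g)) =
          Cfsg.blockCoeff ({(χ : Cfsg.IrrCharacter G)} : Set (Cfsg.IrrCharacter G)) := by
        funext g
        exact kulRep_classFun _ (blockCoeff_isClassFunction _) g
      rw [h2]
      apply eq_of_omega_eq
        (Helper81.conv_isClassFunction (blockCoeff_isClassFunction B) (blockCoeff_isClassFunction _))
        (blockCoeff_isClassFunction _)
      intro ψ
      rw [Helper81.omega_conv ψ (blockCoeff_isClassFunction B) (blockCoeff_isClassFunction _),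
        omega_blockCoeff, omega_blockCoeff]
      by_cases hψ : ψ ∈ ({(χ : Cfsg.IrrCharacter G)} : Set (Cfsg.IrrCharacter G))
      · have hψB : ψ ∈ B := by
          rw [Set.mem_singleton_iff.mp hψ]
          exact χ.2
        rw [if_pos hψ, if_pos hψB, one_mul]
      · rw [if_neg hψ, mul_zero]
    have h4 := Submodule.finrank_mono hle
    rw [h3] at h4
    rw [Nat.card_eq_fintype_card]
    exact h4
  have hrank : Nat.card B ≤ Module.finrank (ResField M hM)
      (LinearMap.range ((kulMat hM hB).map (resHom M hM)).mulVecLin) := by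
    have h1 := Lead.k2_rank_map (resHom M hM) (localSubring M hM).subtype Subtype.val_injective
      (kulMat hM hB) hQQ
    have h2 : ((kulMat hM hB).map (resHom M hM)).rank =
        Module.finrank (ResField M hM)
          (LinearMap.range ((kulMat hM hB).map (resHom M hM)).mulVecLin) := rfl
    rw [← h2, h1]
    exact hrankC
  obtain ⟨u, hu⟩ := exists_linearIndependent_of_le_finrank hrank
  refine ⟨fun i => (ConvAlg.linEquivFun (ResField M hM) G).symm ((u i : G → ResField M hM)),
    ?_, ?_, ?_⟩
  · intro i y
    obtain ⟨f, hf⟩ := (u i).2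
    have hw : (ConvAlg.linEquivFun (ResField M hM) G).symm ((u i : G → ResField M hM)) =
        redIdem hM B * ConvAlg.ofFun (fun g => f (kulRep g)) := by
      ext g
      rw [← kulMat_mulVec_res hM hB f g]
      exact (congrFun hf g).symm
    have hc : ∀ z : ConvAlg (ResField M hM) G,
        (ConvAlg.ofFun (fun g => f (kulRep g)) : ConvAlg (ResField M hM) G) * z =
          z * ConvAlg.ofFun (fun g => f (kulRep g)) := by
      apply (ConvAlg.central_iff _).mpr
      intro g h
      show f (kulRep (h * g * h⁻¹)) = f (kulRep g)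
      rw [kulRep_conj]
    show (ConvAlg.linEquivFun (ResField M hM) G).symm ((u i : G → ResField M hM)) * y =
      y * (ConvAlg.linEquivFun (ResField M hM) G).symm ((u i : G → ResField M hM))
    rw [hw, mul_assoc, hc y, ← mul_assoc, redIdem_central hM B y, mul_assoc]
  · intro i
    obtain ⟨f, hf⟩ := (u i).2
    have hw : (ConvAlg.linEquivFun (ResField M hM) G).symm ((u i : G → ResField M hM)) =
        redIdem hM B * ConvAlg.ofFun (fun g => f (kulRep g)) := by
      ext g
      rw [← kulMat_mulVec_res hM hB f g]
      exact (congrFun hf g).symm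
    show redIdem hM B * (ConvAlg.linEquivFun (ResField M hM) G).symm ((u i : G → ResField M hM)) =
      (ConvAlg.linEquivFun (ResField M hM) G).symm ((u i : G → ResField M hM))
    rw [hw, ← mul_assoc, redIdem_mul_self hM hB]
  · have h1 := hu.map' (Submodule.subtype _) (Submodule.ker_subtype _)
    exact h1.map' (ConvAlg.linEquivFun (ResField M hM) G).symm.toLinearMap (LinearEquiv.ker _)

end kulG

end Cfsg.Agent.Helper10
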