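import Mathlib
import Cfsg.Prelude.Def_GeometricClasses
import Cfsg.Prelude.Def_Classical
import Cfsg.Agent.Helper13.NPDefs
import Cfsg.Agent.Helper96.OHDefs
import Cfsg.Agent.Helper45.Spinor
import Cfsg.Agent.Helper43.UniIso
import Cfsg.Agent.Helper80.TSNONSCAL

set_option autoImplicit false

/-!
# CALL NP (helper13, row S5989): piece SCALX.
-/

namespace Cfsg.Agent.Helper10.NP5989

open Module Cfsg Cfsg.Geo Cfsg.Agent.Helper13.NP Cfsg.Agent.Helper96.OH
open Cfsg.Agent.Helper43.UniIso (UnipH kdim)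
open scoped MatrixGroups

universe u

section C

variable {ι : Type} [Fintype ι] [DecidableEq ι] {F : Type*} [Field F] [Fintype F]
  (Q : (ι → F) → F)

omit [Fintype F] in
/-- SCALX [S-M] (adapt `Cfsg.Agent.Helper80.TS5973.ts_scal`, file Helper80/TSSCAL.lean): `z² = 1`
(some `Q v ≠ 0`), so `T = toLin' x` or `T = -toLin' x` has `T ^ r = 1`; `T ≠ 1` as `x` is not scalar. -/
theorem np_scal_x (hQ : IsNondegenerateQuadraticForm Q) (hne : Nonempty ι) (r : ℕ) (hr : Odd r)
    (x : GL ι F) (hx : x ∈ Cfsg.isometryGroup F Q) (z : F)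
    (hz : ((x ^ r : GL ι F) : Matrix ι ι F) = z • (1 : Matrix ι ι F))
    (hns : ∀ z : F, (x : Matrix ι ι F) ≠ z • (1 : Matrix ι ι F)) :
    ∃ T : Module.End F (ι → F), OPres Q T ∧ T ^ r = 1 ∧ T ≠ 1 ∧
      ∀ W : Submodule F (ι → F), W.map T ≤ W → W.map (Matrix.toLin' (x : Matrix ι ι F)) ≤ W := by
  have hz2 := Cfsg.Agent.Helper80.TS5973.ts_scalar_sq Q hQ (x ^ r)
    ((Cfsg.isometryGroup F Q).pow_mem hx r) z hz
  have hz' : z = 1 ∨ z = -1 := by
    have h1 : (z - 1) * (z + 1) = 0 := by linear_combination hz2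
    rcases mul_eq_zero.mp h1 with h2 | h2
    · exact Or.inl (sub_eq_zero.mp h2)
    · exact Or.inr (eq_neg_of_add_eq_zero_left h2)
  have hpow : (Matrix.toLin' (x : Matrix ι ι F)) ^ r = z • (1 : Module.End F (ι → F)) := by
    rw [← Matrix.toLin'_pow, ← Units.val_pow_eq_pow_val, hz, map_smul, Matrix.toLin'_one]
    rfl
  have hpres : ∀ v, Q (Matrix.toLin' (x : Matrix ι ι F) v) = Q v := by
    intro v
    rw [Matrix.toLin'_apply]
    exact hx v v
  obtain ⟨T0, hT0⟩ : ∃ T0 : Module.End F (ι → F), T0 = Matrix.toLin' (x : Matrix ι ι F) :=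
    ⟨_, rfl⟩
  rw [← hT0] at hpow hpres
  have hx0 : ∀ c : F, T0 = c • (1 : Module.End F (ι → F)) →
      (x : Matrix ι ι F) = c • (1 : Matrix ι ι F) := by
    intro c hc
    apply Matrix.toLin'.injective
    rw [← hT0, hc, map_smul, Matrix.toLin'_one]
    rfl
  rcases hz' with rfl | rfl
  · refine ⟨T0, hpres, ?_, ?_, ?_⟩
    · rw [hpow, one_smul]
    · intro h1
      apply hns 1
      apply hx0
      rw [h1, one_smul]
    · intro W h
      rw [← hT0]
      exact h
  · refine ⟨-T0, ?_, ?_, ?_, ?_⟩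
    · intro v
      rw [LinearMap.neg_apply]
      have h1 : -(T0 v) = (-1 : F) • (T0 v) := by
        rw [neg_smul, one_smul]
      rw [h1, hQ.smul, hpres]
      ring
    · rw [Odd.neg_pow hr T0, hpow]
      ext v
      simp
    · intro h1
      apply hns (-1)
      apply hx0
      have h2 : T0 = -(1 : Module.End F (ι → F)) := by
        rw [← h1, neg_neg]
      rw [h2]
      ext v
      simp
    · intro W hW
      rw [← hT0]
      rintro _ ⟨w, hw, rfl⟩
      have h1 : (-T0) w ∈ W :=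
        hW (Submodule.mem_map_of_mem hw)
      rw [LinearMap.neg_apply] at h1
      have h2 := W.neg_mem h1
      rwa [neg_neg] at h2

end C

end Cfsg.Agent.Helper10.NP5989
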