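import Mathlib
import Cfsg.Prelude.Def_GeometricClasses
import Cfsg.Prelude.Def_Classical
import Cfsg.Agent.Helper13.NPDefs
import Cfsg.Agent.Helper96.OHDefs
import Cfsg.Agent.Helper45.Spinor
import Cfsg.Agent.Helper43.UniIso

set_option autoImplicit false

/-!
# CALL NP (helper13, row S5989): piece UNIPH.
-/

namespace Cfsg.Agent.Helper10.NP5989

open Module Cfsg Cfsg.Geo Cfsg.Agent.Helper13.NP Cfsg.Agent.Helper96.OH
open Cfsg.Agent.Helper43.UniIso (UnipH kdim)
open scoped MatrixGroups

universe u

section B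

variable {F : Type u} [Field F] [Fintype F]

/-- `replicate (2 k) 2` is a sum of `k` pairs `{2} + {2}`. -/
theorem np_uniph_rep (k : ℕ) : UnipH F (Multiset.replicate (2 * k) 2) := by
  induction k with
  | zero =>
    simpa using (Cfsg.Agent.Helper43.UniIso.unipH_zero (F := F))
  | succ k ih =>
    have h1 : Multiset.replicate (2 * (k + 1)) 2
        = ({2} + {2} : Multiset ℕ) + Multiset.replicate (2 * k) 2 := by
      have : 2 * (k + 1) = 2 + 2 * k := by ring
      rw [this, Multiset.replicate_add]
      rfl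
    rw [h1]
    exact Cfsg.Agent.Helper43.UniIso.unipH_add
      (Cfsg.Agent.Helper43.UniIso.unipH_pair (F := F) 2 (by norm_num)) ih

/-- UNIPH [S-M] (`Cfsg.Agent.Helper43.UniIso.unipH_pair`, `unipH_add`, `unipH_zero`): the three
Jordan types are sums of pairs `{j} + {j}`, hence realised on a space with a totally singular subspace
of half the dimension (`replicate (2 k) 2 = k` copies of `{2} + {2}`, induction on `k`). -/
theorem np_uniph (h2 : (2 : F) ≠ 0) (d : ℕ) :
    (Even d → UnipH F (Multiset.replicate d 2)) ∧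
    (Odd d → UnipH F ({1} + {1} + Multiset.replicate (d - 1) 2)) ∧
    (Odd d → 3 ≤ d → UnipH F ({3} + {3} + Multiset.replicate (d - 3) 2)) := by
  refine ⟨?_, ?_, ?_⟩
  · rintro ⟨k, hk⟩
    have : d = 2 * k := by omega
    rw [this]
    exact np_uniph_rep k
  · rintro ⟨k, hk⟩
    have : d - 1 = 2 * k := by omega
    rw [this]
    exact Cfsg.Agent.Helper43.UniIso.unipH_add
      (Cfsg.Agent.Helper43.UniIso.unipH_pair (F := F) 1 (by norm_num)) (np_uniph_rep k)
  · rintro ⟨k, hk⟩ h3
    have : d - 3 = 2 * (k - 1) := by omega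
    rw [this]
    exact Cfsg.Agent.Helper43.UniIso.unipH_add
      (Cfsg.Agent.Helper43.UniIso.unipH_pair (F := F) 3 (by norm_num)) (np_uniph_rep (k - 1))

end B

end Cfsg.Agent.Helper10.NP5989
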