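import Mathlib
import Cfsg.Prelude.Def_GeometricClasses
import Cfsg.Agent.Helper97.ODecomp

/-!
# Piece FS of CALL S5871 (helper97)

The isometries permuting an orthogonal frame (decomposition into isometric non-degenerate lines)
lie in a subfield group, for every subfield, whose structure carries a scalar multiple of the
quadratic form.
-/

set_option autoImplicit false
open Cfsg Cfsg.Geo Matrix

namespace Cfsg.Agent.Helper10

variable {ι : Type} [Fintype ι] [DecidableEq ι] {F : Type*} [Field F]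

theorem o12p_polar_sum_right_zero (Q : (ι → F) → F) (hQ : IsNondegenerateQuadraticForm Q)
    {κ : Type} [DecidableEq κ] (s : Finset κ) (x : ι → F) (w : κ → ι → F)
    (h : ∀ l ∈ s, QuadraticMap.polar Q x (w l) = 0) :
    QuadraticMap.polar Q x (∑ l ∈ s, w l) = 0 := by
  induction s using Finset.induction_on with
  | empty =>
    rw [Finset.sum_empty]
    have := hQ.polar_bilinear.smul_right 0 x 0
    simpa using this
  | insert k s hk ih =>
    rw [Finset.sum_insert hk, hQ.polar_bilinear.add_right, h k (Finset.mem_insert_self k s),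
      ih (fun l hl => h l (Finset.mem_insert_of_mem hl)), add_zero]

theorem o12p_quad_sum_orth (Q : (ι → F) → F) (hQ : IsNondegenerateQuadraticForm Q)
    {κ : Type} [DecidableEq κ] (s : Finset κ) (a : κ → F) (v : κ → ι → F)
    (horth : ∀ k l, k ≠ l → QuadraticMap.polar Q (v k) (v l) = 0) :
    Q (∑ k ∈ s, a k • v k) = ∑ k ∈ s, a k ^ 2 * Q (v k) := by
  induction s using Finset.induction_on with
  | empty =>
    rw [Finset.sum_empty, Finset.sum_empty]
    have := hQ.smul 0 0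
    simpa using this
  | insert k s hk ih =>
    rw [Finset.sum_insert hk, Finset.sum_insert hk]
    have h1 : Q (a k • v k + ∑ l ∈ s, a l • v l) = Q (a k • v k) + Q (∑ l ∈ s, a l • v l)
        + QuadraticMap.polar Q (a k • v k) (∑ l ∈ s, a l • v l) := by
      simp only [QuadraticMap.polar]
      ring
    have h2 : QuadraticMap.polar Q (a k • v k) (∑ l ∈ s, a l • v l) = 0 := by
      apply o12p_polar_sum_right_zero Q hQ
      intro l hl
      have hkl : k ≠ l := fun h => hk (h ▸ hl)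
      rw [hQ.polar_bilinear.smul_left, hQ.polar_bilinear.smul_right, horth k l hkl, mul_zero,
        mul_zero]
    rw [h1, h2, add_zero, ih, hQ.smul]

/-- **Piece FS of CALL S5871.** -/
theorem o12p_frame_subfield (Q : (ι → F) → F) (hQ : IsNondegenerateQuadraticForm Q) {t : ℕ}
    (D : Fin t → Submodule F (ι → F)) (hD : IsOrthogonalMDecomposition Q 1 D) (F₁ : Subfield F) :
    ∃ (P : GL ι F) (ζ : F), ζ ≠ 0 ∧ IsQuadFormRationalStructure (fun v : ι → F => ζ * Q v) F₁ P ∧
      decompositionStabilizer D ⊓ isometryGroup F Q ≤ subfieldSubgroup F₁ P := by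
  classical
  have hDd := hD.decomp.decomp
  have hn2 := hDd.two_le
  obtain ⟨i₀, -⟩ : ∃ i : Fin t, i = ⟨0, by omega⟩ := ⟨_, rfl⟩
  obtain ⟨d₀', hd₀'0, hd₀'⟩ := finrank_eq_one_iff'.mp (hDd.finrank_eq i₀)
  have hiso := hD.isometric i₀
  choose e he using hiso
  obtain ⟨d, hd⟩ : ∃ d : Fin t → ι → F, ∀ j, d j = ((e j d₀' : D j) : ι → F) := ⟨_, fun _ => rfl⟩
  have hdD : ∀ j, d j ∈ D j := fun j => by rw [hd]; exact (e j d₀').2
  obtain ⟨c, hc⟩ : ∃ c : F, c = Q (d₀' : ι → F) := ⟨_, rfl⟩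
  have hQd : ∀ j, Q (d j) = c := fun j => by rw [hd, he j d₀', hc]
  have hQ0 : Q 0 = 0 := by
    have := hQ.smul 0 0
    simpa using this
  have hc0 : c ≠ 0 := by
    have hne : (d₀' : ι → F) ≠ 0 := fun h0 => hd₀'0 (Subtype.ext h0)
    obtain ⟨⟨x, hx, hxd⟩, -⟩ := hD.decomp.nondegenerate i₀ d₀' d₀'.2 hne
    obtain ⟨a, ha⟩ := hd₀' ⟨x, hx⟩
    have e1 : x = a • (d₀' : ι → F) := (congrArg Subtype.val ha).symm
    rw [e1, hQ.polar_bilinear.smul_left, Cfsg.Agent.Helper97.Gen.polar_self Q hQ, ← hc] at hxd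
    intro h0
    apply hxd
    rw [h0, mul_zero, mul_zero]
  have hd0 : ∀ j, d j ≠ 0 := by
    intro j h0
    have := hQd j
    rw [h0, hQ0] at this
    exact hc0 this.symm
  have hdgen : ∀ j, ∀ w ∈ D j, ∃ a : F, w = a • d j := by
    intro j w hw
    obtain ⟨v, hv0, hv⟩ := finrank_eq_one_iff'.mp (hDd.finrank_eq j)
    obtain ⟨a₀, ha₀⟩ := hv ⟨d j, hdD j⟩
    obtain ⟨a, ha⟩ := hv ⟨w, hw⟩
    have e1 : d j = a₀ • (v : ι → F) := (congrArg Subtype.val ha₀).symm
    have e2 : w = a • (v : ι → F) := (congrArg Subtype.val ha).symm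
    have ha₀0 : a₀ ≠ 0 := by
      rintro rfl
      rw [zero_smul] at e1
      exact hd0 j e1
    refine ⟨a / a₀, ?_⟩
    rw [e1, e2, smul_smul, div_mul_cancel₀ a ha₀0]
  have hort : ∀ i j, i ≠ j → QuadraticMap.polar Q (d i) (d j) = 0 :=
    fun i j hij => hD.decomp.orthogonal i j hij _ (hdD i) _ (hdD j)
  have hli : LinearIndependent F d := hDd.indep.linearIndependent D hdD hd0
  have hspan : ⊤ ≤ Submodule.span F (Set.range d) := by
    rw [← hDd.iSup_eq_top]
    refine iSup_le fun j w hw => ?_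
    obtain ⟨a, rfl⟩ := hdgen j w hw
    exact Submodule.smul_mem _ _ (Submodule.subset_span ⟨j, rfl⟩)
  obtain ⟨b, hb⟩ : ∃ b : Module.Basis (Fin t) F (ι → F), ∀ i, b i = d i :=
    ⟨Module.Basis.mk hli hspan, fun i => by rw [Module.Basis.mk_apply]⟩
  have hcard : Fintype.card ι = t := by
    have h1 := Module.finrank_eq_card_basis b
    rw [Module.finrank_fintype_fun_eq_card, Fintype.card_fin] at h1
    exact h1
  obtain ⟨eq⟩ : Nonempty (ι ≃ Fin t) := ⟨Fintype.equivFinOfCardEq hcard⟩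
  obtain ⟨b', hb'⟩ : ∃ b' : Module.Basis ι F (ι → F), ∀ k, b' k = d (eq k) :=
    ⟨b.reindex eq.symm, fun k => by rw [Module.Basis.reindex_apply, Equiv.symm_symm, hb]⟩
  obtain ⟨P₀, hP₀⟩ : ∃ P₀ : GL ι F, ∀ k, (P₀ : Matrix ι ι F) *ᵥ Pi.single k 1 = d (eq k) := by
    refine ⟨Cfsg.Agent.Helper97.Gen.glOfLin (b'.equivFun.symm : (ι → F) →ₗ[F] (ι → F))
      (b'.equivFun : (ι → F) →ₗ[F] (ι → F))
      (fun x => b'.equivFun.symm_apply_apply x) (fun x => b'.equivFun.apply_symm_apply x),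
      fun k => ?_⟩
    rw [Cfsg.Agent.Helper97.Gen.glOfLin_mulVec, ← hb']
    show b'.equivFun.symm (Pi.single k 1) = b' k
    rw [LinearEquiv.symm_apply_eq]
    funext j
    rw [Module.Basis.equivFun_self, Pi.single_apply]
    by_cases hjk : j = k
    · rw [if_pos hjk, if_pos hjk.symm]
    · rw [if_neg hjk, if_neg (fun h => hjk h.symm)]
  have hP₀inv : ∀ k, ((P₀⁻¹ : GL ι F) : Matrix ι ι F) *ᵥ d (eq k) = Pi.single k 1 := by
    intro k
    rw [← hP₀ k, Cfsg.Agent.Helper97.Gen.mulVec_inv_cancel]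
  refine ⟨P₀, c⁻¹, inv_ne_zero hc0, ?_, ?_⟩
  · intro u hu
    have hPu : (P₀ : Matrix ι ι F) *ᵥ u = ∑ k, u k • d (eq k) := by
      have h1 : u = ∑ k, u k • (Pi.single k 1 : ι → F) := by
        funext j
        simp [Finset.sum_apply, Pi.single_apply]
      conv_lhs => rw [h1]
      rw [Matrix.mulVec_sum]
      refine Finset.sum_congr rfl fun k _ => ?_
      rw [Matrix.mulVec_smul, hP₀]
    have hQPu : Q ((P₀ : Matrix ι ι F) *ᵥ u) = ∑ k, u k ^ 2 * c := by
      rw [hPu, o12p_quad_sum_orth Q hQ Finset.univ u (fun k => d (eq k))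
        (fun k l hkl => hort _ _ (fun h => hkl (eq.injective h)))]
      exact Finset.sum_congr rfl fun k _ => by rw [hQd]
    show c⁻¹ * Q ((P₀ : Matrix ι ι F) *ᵥ u) ∈ F₁
    rw [hQPu, ← Finset.sum_mul, mul_comm, mul_assoc, mul_inv_cancel₀ hc0, mul_one]
    exact Subfield.sum_mem F₁ (fun k _ => F₁.pow_mem (hu k) 2)
  · rintro g ⟨hgD, hgO⟩
    apply Cfsg.Agent.Helper97.Gen.mem_subfieldSubgroup_of_entries
    intro i j
    obtain ⟨π, hπ⟩ := (Cfsg.Agent.Helper97.Gen.mem_decompositionStabilizer_iff D g).mp hgD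
    have hmem : (g : Matrix ι ι F) *ᵥ d (eq j) ∈ D (π (eq j)) := by
      rw [← hπ (eq j)]
      exact ⟨d (eq j), hdD _, by rw [Matrix.toLin'_apply]⟩
    obtain ⟨a, ha⟩ := hdgen _ _ hmem
    have ha2 : a = 1 ∨ a = -1 := by
      have h1 := (Cfsg.Agent.Helper97.Gen.mem_isometryGroup_iff Q g).mp hgO (d (eq j))
      rw [ha, hQ.smul, hQd, hQd] at h1
      have h2 : (a - 1) * (a + 1) * c = 0 := by linear_combination h1
      rcases mul_eq_zero.mp h2 with h3 | h3
      · rcases mul_eq_zero.mp h3 with h4 | h4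
        · left; exact sub_eq_zero.mp h4
        · right; exact eq_neg_of_add_eq_zero_left h4
      · exact absurd h3 hc0
    have e1 : ((P₀⁻¹ * g * P₀ : GL ι F) : Matrix ι ι F) i j
        = (((P₀⁻¹ : GL ι F) : Matrix ι ι F) *ᵥ ((g : Matrix ι ι F)
          *ᵥ ((P₀ : Matrix ι ι F) *ᵥ Pi.single j 1))) i := by
      rw [Matrix.mulVec_mulVec, Matrix.mulVec_mulVec, ← Units.val_mul, ← Units.val_mul,
        Matrix.mulVec_single_one]
      rfl
    have e2 : d (π (eq j)) = d (eq (eq.symm (π (eq j)))) := by rw [Equiv.apply_symm_apply]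
    rw [e1, hP₀, ha, Matrix.mulVec_smul, e2, hP₀inv, Pi.smul_apply, Pi.single_apply, smul_eq_mul]
    have ha' : a ∈ F₁ := by
      rcases ha2 with rfl | rfl
      · exact F₁.one_mem
      · exact F₁.neg_mem F₁.one_mem
    split_ifs
    · rw [mul_one]; exact ha'
    · rw [mul_zero]; exact F₁.zero_mem

end Cfsg.Agent.Helper10
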