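import Mathlib
import Cfsg.Prelude.Def_GeometricClasses
import Cfsg.Agent.Helper66.O12N2

/-!
# Piece NTP of CALL S5871 (helper97)

`Ω(Q)` does not stabilise a pair of complementary totally singular subspaces (dimension ≥ 5).
-/

set_option autoImplicit false
open Cfsg Cfsg.Geo Matrix

namespace Cfsg.Agent.Helper10

variable {ι : Type} [Fintype ι] [DecidableEq ι] {F : Type*} [Field F]

/-- **Piece NTP of CALL S5871.** -/
theorem o12p_notOmega_tspair [Fintype F] (Q : (ι → F) → F) (hQ : IsNondegenerateQuadraticForm Q)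
    (hn : 5 ≤ Fintype.card ι) {m : ℕ} (D : Fin 2 → Submodule F (ι → F)) (hD : IsMDecomposition m D)
    (hts : ∀ i, IsTotallySingularQuad Q (D i)) : ¬ omegaGL Q ≤ decompositionStabilizer D := by
  classical
  intro hle
  have h01 : (0 : Fin 2) ≠ 1 := by decide
  have hdisj : Disjoint (D 0) (D 1) := hD.indep.pairwiseDisjoint h01
  have hsup : D 0 ⊔ D 1 = ⊤ := by
    have h := hD.iSup_eq_top
    rw [← h]
    apply le_antisymm
    · exact sup_le (le_iSup D 0) (le_iSup D 1)
    · refine iSup_le fun i => ?_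
      fin_cases i
      · exact le_sup_left
      · exact le_sup_right
  -- dimension count: `2 m = card ι`
  have hdim : Module.finrank F (D 0) + Module.finrank F (D 1) = Fintype.card ι := by
    have h := Submodule.finrank_sup_add_finrank_inf_eq (D 0) (D 1)
    rw [hsup, disjoint_iff.mp hdisj, finrank_bot, finrank_top, Module.finrank_fintype_fun_eq_card]
      at h
    omega
  rw [hD.finrank_eq 0, hD.finrank_eq 1] at hdim
  have hm : 2 ≤ m := by omega
  -- two independent vectors `u, b` of `D 0`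
  obtain ⟨f, hf⟩ := exists_linearIndependent_of_le_finrank (R := F) (M := D 0) (n := 2)
    (by rw [hD.finrank_eq 0]; exact hm)
  have hu0D : ((f 0 : D 0) : ι → F) ∈ D 0 := (f 0).2
  have hb0D : ((f 1 : D 0) : ι → F) ∈ D 0 := (f 1).2
  obtain ⟨u, hu⟩ : ∃ u : ι → F, u = (f 0 : D 0) := ⟨_, rfl⟩
  obtain ⟨b, hb⟩ : ∃ b : ι → F, b = (f 1 : D 0) := ⟨_, rfl⟩
  have huD : u ∈ D 0 := by rw [hu]; exact hu0D
  have hbD : b ∈ D 0 := by rw [hb]; exact hb0D
  -- independence: `c • u = d • b → c = 0 ∧ d = 0`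
  have hind : ∀ c d : F, c • u - d • b = 0 → c = 0 ∧ d = 0 := by
    intro c d hcd
    have h1 : c • f 0 + (-d) • f 1 = 0 := by
      apply Subtype.ext
      simp only [Submodule.coe_add, Submodule.coe_smul, Submodule.coe_zero]
      rw [← hu, ← hb, neg_smul, ← sub_eq_add_neg]
      exact hcd
    have h2 := (LinearIndependent.pair_iff.mp
      (by
        have h3 : LinearIndependent F ![f 0, f 1] := by
          convert hf using 1
          ext i
          fin_cases i <;> rfl
        exact h3)) c (-d) h1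
    exact ⟨h2.1, by simpa using h2.2⟩
  have hu_ne : u ≠ 0 := by
    intro h0
    have := (hind 1 0 (by rw [h0]; simp)).1
    exact one_ne_zero this
  -- polar vanishes on `D 0`
  have hpol0 : ∀ x ∈ D 0, ∀ y ∈ D 0, QuadraticMap.polar Q x y = 0 := by
    intro x hx y hy
    rw [QuadraticMap.polar, hts 0 x hx, hts 0 y hy, hts 0 (x + y) ((D 0).add_mem hx hy)]
    simp
  have hQu : Q u = 0 := hts 0 u huD
  have hQb : Q b = 0 := hts 0 b hbD
  have hub : QuadraticMap.polar Q u b = 0 := hpol0 u huD b hbD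
  obtain ⟨E, hEΩ, hE⟩ := Helper66.o12_eichler Q hQ hn u b hQu hub
  obtain ⟨σ, hσ⟩ := hle hEΩ
  -- `E` fixes `D 0` pointwise
  have hEfix : ∀ x ∈ D 0, (E : Matrix ι ι F) *ᵥ x = x := by
    intro x hx
    rw [hE, hpol0 b hbD x hx, hpol0 u huD x hx]
    simp
  have hD0ne : D 0 ≠ ⊥ := by
    intro h
    have h1 := hD.finrank_eq 0
    rw [h, finrank_bot] at h1
    omega
  have hσ0 : σ 0 = 0 := by
    by_contra hne
    have hσ1 : σ 0 = 1 := by
      have : ∀ j : Fin 2, j ≠ 0 → j = 1 := by decide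
      exact this _ hne
    have h1 : u ∈ D 1 := by
      rw [← hσ1, ← hσ 0]
      exact ⟨u, huD, by rw [Matrix.toLin'_apply]; exact hEfix u huD⟩
    exact hu_ne (Submodule.disjoint_def.mp hdisj u huD h1)
  have hσ1 : σ 1 = 1 := by
    by_contra hne
    have h0 : σ 1 = 0 := by
      have : ∀ j : Fin 2, j ≠ 1 → j = 0 := by decide
      exact this _ hne
    have := σ.injective (h0.trans hσ0.symm)
    exact h01 this.symm
  -- a vector `x ∈ D 1` with `polar u x ≠ 0`
  obtain ⟨-, ⟨y, hy⟩⟩ := hQ.nondegenerate u hu_ne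
  have hytop : y ∈ D 0 ⊔ D 1 := by rw [hsup]; exact Submodule.mem_top
  obtain ⟨y0, hy0, x, hx, rfl⟩ := Submodule.mem_sup.mp hytop
  have hux : QuadraticMap.polar Q u x ≠ 0 := by
    rw [hQ.polar_bilinear.add_right, hpol0 u huD y0 hy0, zero_add] at hy
    exact hy
  have hEx : (E : Matrix ι ι F) *ᵥ x ∈ D 1 := by
    have h1 : (E : Matrix ι ι F) *ᵥ x ∈ D (σ 1) := by
      rw [← hσ 1]
      exact ⟨x, hx, by rw [Matrix.toLin'_apply]⟩
    rwa [hσ1] at h1
  rw [hE, hQb, zero_mul, sub_zero] at hEx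
  have h3 : (QuadraticMap.polar Q b x) • u - (QuadraticMap.polar Q u x) • b ∈ D 1 := by
    have h4 := (D 1).sub_mem hEx hx
    have h5 : x + QuadraticMap.polar Q b x • u - QuadraticMap.polar Q u x • b - x =
        QuadraticMap.polar Q b x • u - QuadraticMap.polar Q u x • b := by abel
    rwa [h5] at h4
  have h4 : (QuadraticMap.polar Q b x) • u - (QuadraticMap.polar Q u x) • b ∈ D 0 :=
    (D 0).sub_mem ((D 0).smul_mem _ huD) ((D 0).smul_mem _ hbD)
  have h5 := Submodule.disjoint_def.mp hdisj _ h4 h3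
  exact hux (hind _ _ h5).2

end Cfsg.Agent.Helper10
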