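import Mathlib
import Cfsg.Agent.Helper8.S4504Defs

/-!
# Helper10: piece D2 of CALL S4504 (helper8): the degree of `χ` is at least `2`.
-/

set_option autoImplicit false
open Cfsg Cfsg.Agent.Helper8
open scoped ComplexConjugate

universe u

namespace Cfsg.Agent.Helper10

/-- D2 -/
theorem s4504_two_le {H : Type u} [Group H] [Finite H] (p : ℕ) [Fact p.Prime] (x : H)
    (χ : H → ℂ) (h : S4504Hyp p x χ) : 2 ≤ Cfsg.charDegree χ := by
  obtain ⟨n, ρ, hirr, hρ⟩ := h.hχ
  have hχ1 : χ 1 = (n : ℂ) := by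
    rw [← hρ, Representation.char_one]
    simp
  have hdeg : Cfsg.charDegree χ = n := by
    unfold Cfsg.charDegree
    rw [hχ1]
    simp
  rw [hdeg]
  by_contra hlt
  push Not at hlt
  have hp := (Fact.out : p.Prime)
  have h2 := h.hdeg
  rw [hdeg] at h2
  interval_cases n
  · rw [← h2] at hp
    exact Nat.not_prime_one hp
  · have hmul : ∀ a b : H, χ (a * b) = χ a * χ b := by
      intro a b
      rw [← hρ]
      show LinearMap.trace ℂ _ (ρ (a * b)) = LinearMap.trace ℂ _ (ρ a) * LinearMap.trace ℂ _ (ρ b)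
      rw [map_mul, LinearMap.trace_eq_matrix_trace ℂ (Pi.basisFun ℂ (Fin 1)),
        LinearMap.trace_eq_matrix_trace ℂ (Pi.basisFun ℂ (Fin 1)),
        LinearMap.trace_eq_matrix_trace ℂ (Pi.basisFun ℂ (Fin 1)), LinearMap.toMatrix_mul,
        Matrix.trace_fin_one, Matrix.trace_fin_one, Matrix.trace_fin_one, Matrix.mul_apply,
        Fin.sum_univ_one]
    have hcomm : ∀ a b : H, a * b = b * a := by
      intro a b
      have h1 : χ ((a * b) * (b * a)⁻¹) = χ 1 := by
        have e1 : χ 1 = χ ((b * a) * (b * a)⁻¹) := by rw [mul_inv_cancel]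
        rw [e1, hmul, hmul (b * a), hmul a b, hmul b a, mul_comm (χ a)]
      exact mul_inv_eq_one.mp (h.hfaith _ h1)
    apply h.grp.hnn
    constructor
    intro y hy g
    rw [hcomm g y, mul_inv_cancel_right]
    exact hy

end Cfsg.Agent.Helper10
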