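import Mathlib
import Cfsg.Prelude.Def_Transfer

/-!
# Piece F3 of CALL S5156 (helper85): if `O^p(G)` contains a Sylow `p`-subgroup then `O^p(G) = G`
-/

set_option autoImplicit false
open Cfsg

namespace Cfsg.Agent.Helper10

theorem s5156_pResidual_normal (p : ℕ) (G : Type*) [Group G] : (pResidual p G).Normal := by
  constructor
  intro n hn g
  unfold pResidual at hn ⊢
  induction hn using Subgroup.closure_induction with
  | mem x hx =>
    apply Subgroup.subset_closure
    show Nat.Coprime (orderOf (g * x * g⁻¹)) p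
    have h1 : orderOf (g * x * g⁻¹) = orderOf x := by
      have := (MulAut.conj g).orderOf_eq x
      simpa [MulAut.conj_apply] using this
    rw [h1]
    exact hx
  | one => simp
  | mul x y _ _ hx hy =>
    have : g * (x * y) * g⁻¹ = (g * x * g⁻¹) * (g * y * g⁻¹) := by group
    rw [this]
    exact Subgroup.mul_mem _ hx hy
  | inv x _ hx =>
    have : g * x⁻¹ * g⁻¹ = (g * x * g⁻¹)⁻¹ := by group
    rw [this]
    exact Subgroup.inv_mem _ hx

/-- PIECE F3 -/
theorem s5156_pResidual_top {p : ℕ} [Fact p.Prime] {G : Type*} [Group G] [Finite G] (T : Sylow p G)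
    (hT : (T : Subgroup G) ≤ pResidual p G) : pResidual p G = ⊤ := by
  have hp : p.Prime := Fact.out
  haveI hn : (pResidual p G).Normal := s5156_pResidual_normal p G
  -- the quotient is a `p`-group
  have hquot : IsPGroup p (G ⧸ pResidual p G) := by
    intro x
    obtain ⟨g, rfl⟩ := QuotientGroup.mk_surjective x
    obtain ⟨k, m, hm, hkm⟩ := Nat.exists_eq_pow_mul_and_not_dvd (orderOf_pos g).ne' p hp.ne_one
    refine ⟨k, ?_⟩
    have hord : orderOf (g ^ p ^ k) = m := by
      rw [orderOf_pow, hkm, Nat.gcd_eq_right (Dvd.intro _ rfl)]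
      exact Nat.mul_div_cancel_left m (pow_pos hp.pos k)
    have hmem : g ^ p ^ k ∈ pResidual p G := by
      apply Subgroup.subset_closure
      show Nat.Coprime (orderOf (g ^ p ^ k)) p
      rw [hord]
      exact (Nat.Coprime.symm ((Nat.Prime.coprime_iff_not_dvd hp).mpr hm))
    rw [← QuotientGroup.mk_pow]
    exact (QuotientGroup.eq_one_iff _).mpr hmem
  obtain ⟨j, hj⟩ := IsPGroup.iff_card.mp hquot
  rw [← Subgroup.index_eq_card] at hj
  have hdvd : (pResidual p G).index ∣ (T : Subgroup G).index := Subgroup.index_dvd_of_le hT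
  have hnd : ¬ p ∣ (T : Subgroup G).index := T.not_dvd_index
  have hj0 : j = 0 := by
    by_contra hne
    apply hnd
    have h1 : p ∣ p ^ j := dvd_pow_self p hne
    rw [← hj] at h1
    exact h1.trans hdvd
  rw [hj0, pow_zero] at hj
  exact Subgroup.index_eq_one.mp hj

end Cfsg.Agent.Helper10
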