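import Mathlib

/-!
# Pieces K0, K2 of CALL S5156 (helper85)
-/

set_option autoImplicit false

namespace Cfsg.Agent.Helper10

/-- PIECE K0: a `p'`-automorphism `γ` of a `p`-group fixing `x⁻¹ * γ x` fixes `x`. -/
theorem s5156_fix_of_coprime {p : ℕ} [Fact p.Prime] {P : Type*} [Group P] [Finite P] (hP : IsPGroup p P)
    (γ : MulAut P) (hco : (orderOf γ).Coprime p) (x : P) (hz : γ (x⁻¹ * γ x) = x⁻¹ * γ x) : γ x = x := by
  obtain ⟨z, hzdef⟩ : ∃ z : P, z = x⁻¹ * γ x := ⟨_, rfl⟩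
  rw [← hzdef] at hz
  have hγx : γ x = x * z := by rw [hzdef]; group
  have hpow : ∀ n : ℕ, (γ ^ n) x = x * z ^ n := by
    intro n
    induction n with
    | zero => simp
    | succ n ih =>
      rw [pow_succ', MulAut.mul_apply, ih, map_mul, map_pow, hz, hγx, pow_succ', mul_assoc]
  have h1 := hpow (orderOf γ)
  rw [pow_orderOf_eq_one, MulAut.one_apply] at h1
  have hzn : z ^ orderOf γ = 1 := by
    have h2 : x * z ^ orderOf γ = x * 1 := by rw [mul_one]; exact h1.symm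
    exact mul_left_cancel h2
  obtain ⟨k, hk⟩ := hP z
  have hz1 : z = 1 := by
    have hd1 : orderOf z ∣ orderOf γ := orderOf_dvd_of_pow_eq_one hzn
    have hd2 : orderOf z ∣ p ^ k := orderOf_dvd_of_pow_eq_one hk
    have hcop : (orderOf γ).Coprime (p ^ k) := Nat.Coprime.pow_right k hco
    have : orderOf z = 1 := Nat.eq_one_of_dvd_coprimes hcop hd1 hd2
    exact orderOf_eq_one_iff.mp this
  rw [hγx, hz1, mul_one]

/-- PIECE K2 -/
theorem s5156_ppow_of_coprime_trivial {p : ℕ} [Fact p.Prime] {A : Type*} [Group A] [Finite A]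
    (U : Subgroup A) (h : ∀ γ ∈ U, (orderOf γ).Coprime p → γ = 1) : ∀ γ ∈ U, ∃ k : ℕ, γ ^ p ^ k = 1 := by
  intro γ hγ
  have hp : p.Prime := Fact.out
  obtain ⟨k, m, hm, hkm⟩ := Nat.exists_eq_pow_mul_and_not_dvd (orderOf_pos γ).ne' p hp.ne_one
  refine ⟨k, h _ (U.pow_mem hγ _) ?_⟩
  have hord : orderOf (γ ^ p ^ k) = m := by
    rw [orderOf_pow, hkm, Nat.gcd_eq_right (Dvd.intro _ rfl)]
    exact Nat.mul_div_cancel_left m (pow_pos hp.pos k)
  rw [hord]
  exact (Nat.Coprime.symm ((Nat.Prime.coprime_iff_not_dvd hp).mpr hm))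

end Cfsg.Agent.Helper10
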