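import Mathlib
import Cfsg.Agent.Helper32.PSolvable
import Cfsg.Agent.Helper63.PSolv
import Cfsg.Agent.Helper22.Fitting

/-!
# Piece X of CALL S5156 (helper85): an extension of `p`-solvable by `p`-solvable is `p`-solvable
-/

set_option autoImplicit false
universe u
open Cfsg

namespace Cfsg.Agent.Helper10

theorem s5156_psolv_ext_aux (p : ℕ) [hp : Fact p.Prime] : ∀ (n : ℕ) (G : Type u) [Group G] [Finite G],
    Nat.card G = n → ∀ (N : Subgroup G) [N.Normal], IsPSolvable p ↥N → IsPSolvable p (G ⧸ N) →
      IsPSolvable p G := by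
  intro n
  induction n using Nat.strong_induction_on with
  | _ n ih =>
    intro G _ _ hn N _ hN hQ
    by_cases hNbot : N = ⊥
    · exact Helper63.PSolv.isPSolvable_extension N (Or.inl ⟨0, by rw [hNbot]; simp⟩) hQ
    · haveI : Nontrivial N := (Subgroup.nontrivial_iff_ne_bot N).mpr hNbot
      obtain ⟨D, hDn, -, hD1, hD⟩ :=
        Helper32.exists_normal_le_of_isPSolvable hp.out hN (⊤ : Subgroup N) top_ne_bot
      obtain ⟨K, hKc, hK1, hK⟩ : ∃ K : Subgroup N, K.Characteristic ∧ K ≠ ⊥ ∧
          ((∃ m : ℕ, Nat.card K = p ^ m) ∨ (Nat.card K).Coprime p) := by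
        rcases hD with hDp | hDc
        · refine ⟨Cfsg.pCore p N, Helper22.pCore_characteristic p N, ?_, Or.inl ?_⟩
          · intro h0
            apply hD1
            have h1 : D ≤ Cfsg.pCore p N := le_sSup ⟨hDn, hDp⟩
            rw [h0] at h1
            exact le_bot_iff.mp h1
          · exact IsPGroup.iff_card.mp (Helper22.pCore_isPGroup p N)
        · refine ⟨Cfsg.pPrimeCore p N, Helper22.pPrimeCore_characteristic p N, ?_, Or.inr ?_⟩
          · intro h0
            apply hD1
            have h1 : D ≤ Cfsg.pPrimeCore p N := le_sSup ⟨hDn, hDc⟩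
            rw [h0] at h1
            exact le_bot_iff.mp h1
          · exact Helper22.card_pPrimeCore_coprime p N
      haveI := hKc
      obtain ⟨M, hM⟩ : ∃ M : Subgroup G, M = K.map N.subtype := ⟨_, rfl⟩
      haveI hMn : M.Normal := by rw [hM]; exact ConjAct.normal_of_characteristic_of_normal
      have hMN : M ≤ N := by rw [hM]; exact Subgroup.map_subtype_le K
      have hMcard : Nat.card M = Nat.card K := by
        rw [hM]
        exact Nat.card_congr (K.equivMapOfInjective N.subtype N.subtype_injective).toEquiv.symm
      have hM1 : M ≠ ⊥ := by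
        intro h0
        apply hK1
        rw [hM] at h0
        exact (Subgroup.map_eq_bot_iff_of_injective K N.subtype_injective).mp h0
      have hMfac : (∃ m : ℕ, Nat.card M = p ^ m) ∨ (Nat.card M).Coprime p := by
        rw [hMcard]; exact hK
      have hlt : Nat.card (G ⧸ M) < n := by
        have h1 := Subgroup.card_mul_index M
        rw [Subgroup.index_eq_card] at h1
        have h2 : 1 < Nat.card M := by
          haveI : Nontrivial M := (Subgroup.nontrivial_iff_ne_bot M).mpr hM1
          exact Finite.one_lt_card
        have h3 : 0 < Nat.card (G ⧸ M) := Nat.card_pos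
        rw [← hn, ← h1]
        nlinarith
      have hN' : IsPSolvable p ↥(N.map (QuotientGroup.mk' M)) := by
        have hf : Function.Surjective ((QuotientGroup.mk' M).subgroupMap N) :=
          (QuotientGroup.mk' M).subgroupMap_surjective N
        exact Helper32.isPSolvable_of_equiv
          (QuotientGroup.quotientKerEquivOfSurjective ((QuotientGroup.mk' M).subgroupMap N) hf)
          (Helper32.isPSolvable_quotient hp.out hN ((QuotientGroup.mk' M).subgroupMap N).ker)
      have hQ' : IsPSolvable p ((G ⧸ M) ⧸ N.map (QuotientGroup.mk' M)) :=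
        Helper32.isPSolvable_of_equiv (QuotientGroup.quotientQuotientEquivQuotient M N hMN).symm hQ
      have h1 := ih _ hlt (G ⧸ M) rfl (N.map (QuotientGroup.mk' M)) hN' hQ'
      exact Helper63.PSolv.isPSolvable_extension M hMfac h1

/-- PIECE X: extension of p-solvable by p-solvable. -/
theorem s5156_psolv_ext {p : ℕ} [Fact p.Prime] {G : Type*} [Group G] [Finite G] (N : Subgroup G) [N.Normal]
    (hN : IsPSolvable p ↥N) (hQ : IsPSolvable p (G ⧸ N)) : IsPSolvable p G :=
  s5156_psolv_ext_aux p (Nat.card G) G rfl N hN hQ

end Cfsg.Agent.Helper10
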