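import Mathlib
import Cfsg.Prelude.Def_GeometricClasses
import Cfsg.Prelude.Def_Classical
import Cfsg.Agent.Helper35.S88Defs
import Cfsg.Agent.Helper58.TSDefs
import Cfsg.Agent.Helper43.PrimeOrdO3
import Cfsg.Agent.Helper33.OType
import Cfsg.Agent.Helper43.S88OEDefs

set_option autoImplicit false

/-! Sub-CALL S88OE (helper43) of CALL S88 (row S5988): piece PSND (double). -/

namespace Cfsg.Agent.Helper10.S88OE

open Module Polynomial Cfsg Cfsg.Geo Cfsg.Agent.Helper58.TS Cfsg.Agent.Helper35.S88
open Cfsg.Agent.Helper43 Cfsg.Agent.Helper43.OrthEven Cfsg.Agent.Helper43.CycFactors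
  Cfsg.Agent.Helper43.PrimeOrdMat Cfsg.Agent.Helper43.S88OE
open scoped MatrixGroups

universe u

section lin

variable {F : Type*} [Field F] {Va Vb : Type*} [AddCommGroup Va] [Module F Va] [AddCommGroup Vb]
  [Module F Vb]

/-- the polar form of a restricted form -/
theorem oe_polar_restr {V : Type*} [AddCommGroup V] [Module F V] (Q : QuadraticForm F V)
    (U : Submodule F V) (v w : ↥U) :
    QuadraticMap.polar (Q.comp U.subtype) v w = QuadraticMap.polar Q (v : V) (w : V) := by
  simp [QuadraticMap.polar, QuadraticMap.comp_apply]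

/-- PSND [S-M, generic]: a product subspace is nondegenerate iff both factors are.  (The polar form
of `Qa.prod Qb` on `(a, b), (a', b')` is `polar Qa a a' + polar Qb b b'`; test against `(a', 0)`
and `(0, b')`.) -/
theorem oe_prod_sub_nd (Qa : QuadraticForm F Va) (Qb : QuadraticForm F Vb) (Ua : Submodule F Va)
    (Ub : Submodule F Vb) :
    PolarNondeg ((Qa.prod Qb).comp (Ua.prod Ub).subtype) ↔
      PolarNondeg (Qa.comp Ua.subtype) ∧ PolarNondeg (Qb.comp Ub.subtype) := by
  constructor
  · intro h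
    constructor
    · intro a ha
      have hmem : ((a : Va), (0 : Vb)) ∈ Ua.prod Ub := ⟨a.2, Ub.zero_mem⟩
      have h1 := h ⟨((a : Va), (0 : Vb)), hmem⟩ (by
        rintro ⟨⟨a', b'⟩, ha', hb'⟩
        rw [oe_polar_restr, QuadraticMap.polar_prod]
        have h2 := ha ⟨a', ha'⟩
        rw [oe_polar_restr] at h2
        show QuadraticMap.polar Qa (a : Va) a' + QuadraticMap.polar Qb 0 b' = 0
        rw [h2]
        simp [QuadraticMap.polar])
      have h3 : ((a : Va), (0 : Vb)) = 0 := congrArg Subtype.val h1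
      exact Subtype.ext (congrArg Prod.fst h3)
    · intro b hb
      have hmem : ((0 : Va), (b : Vb)) ∈ Ua.prod Ub := ⟨Ua.zero_mem, b.2⟩
      have h1 := h ⟨((0 : Va), (b : Vb)), hmem⟩ (by
        rintro ⟨⟨a', b'⟩, ha', hb'⟩
        rw [oe_polar_restr, QuadraticMap.polar_prod]
        have h2 := hb ⟨b', hb'⟩
        rw [oe_polar_restr] at h2
        show QuadraticMap.polar Qa 0 a' + QuadraticMap.polar Qb (b : Vb) b' = 0
        rw [h2]
        simp [QuadraticMap.polar])
      have h3 : ((0 : Va), (b : Vb)) = 0 := congrArg Subtype.val h1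
      exact Subtype.ext (congrArg Prod.snd h3)
  · rintro ⟨ha, hb⟩
    rintro ⟨⟨a, b⟩, haU, hbU⟩ hv
    have h1 : (⟨a, haU⟩ : ↥Ua) = 0 := by
      apply ha
      intro a'
      have hmem : ((a' : Va), (0 : Vb)) ∈ Ua.prod Ub := ⟨a'.2, Ub.zero_mem⟩
      have h2 := hv ⟨((a' : Va), (0 : Vb)), hmem⟩
      rw [oe_polar_restr, QuadraticMap.polar_prod] at h2
      rw [oe_polar_restr]
      have h3 : QuadraticMap.polar Qa a (a' : Va) + QuadraticMap.polar Qb b 0 = 0 := h2
      have h4 : QuadraticMap.polar Qb b 0 = 0 := by simp [QuadraticMap.polar]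
      rw [h4, add_zero] at h3
      exact h3
    have h1' : (⟨b, hbU⟩ : ↥Ub) = 0 := by
      apply hb
      intro b'
      have hmem : ((0 : Va), (b' : Vb)) ∈ Ua.prod Ub := ⟨Ua.zero_mem, b'.2⟩
      have h2 := hv ⟨((0 : Va), (b' : Vb)), hmem⟩
      rw [oe_polar_restr, QuadraticMap.polar_prod] at h2
      rw [oe_polar_restr]
      have h3 : QuadraticMap.polar Qa a 0 + QuadraticMap.polar Qb b (b' : Vb) = 0 := h2
      have h4 : QuadraticMap.polar Qa a 0 = 0 := by simp [QuadraticMap.polar]
      rw [h4, zero_add] at h3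
      exact h3
    have ha0 : a = 0 := congrArg Subtype.val h1
    have hb0 : b = 0 := congrArg Subtype.val h1'
    apply Subtype.ext
    show (a, b) = 0
    rw [ha0, hb0]
    rfl

end lin

end Cfsg.Agent.Helper10.S88OE
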