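import Mathlib
import Cfsg.Prelude.Def_GeometricClasses
import Cfsg.Prelude.Def_Classical
import Cfsg.Agent.Helper35.S88Defs
import Cfsg.Agent.Helper58.TSDefs
import Cfsg.Agent.Helper43.PrimeOrdO3
import Cfsg.Agent.Helper33.OType
import Cfsg.Agent.Helper43.S88OEDefs
import Cfsg.Agent.Helper80.TSNONSCAL

set_option autoImplicit false

/-! Sub-CALL S88OE (helper43) of CALL S88 (row S5988): piece SCAL. -/

namespace Cfsg.Agent.Helper10.S88OE

open Module Polynomial Cfsg Cfsg.Geo Cfsg.Agent.Helper58.TS Cfsg.Agent.Helper35.S88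
open Cfsg.Agent.Helper43 Cfsg.Agent.Helper43.OrthEven Cfsg.Agent.Helper43.CycFactors
  Cfsg.Agent.Helper43.PrimeOrdMat Cfsg.Agent.Helper43.S88OE
open scoped MatrixGroups

universe u

section conc

variable {ι : Type} [Fintype ι] [DecidableEq ι] {F : Type u} [Field F]

/-- SCAL [S] (copy of `Cfsg.Agent.Helper80.TS5973.ts_scal`, Helper80/TSSCAL.lean, with `InvEll`):
`x' = x` or `x' = -x`; the invariant subspaces of `x` and `-x` coincide; `x' = 1` would make `x`
scalar. -/
theorem oe_scal (Q : (ι → F) → F) (hQ : IsNondegenerateQuadraticForm Q) (r : ℕ) (hr : Odd r)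
    (x : GL ι F) (hx : x ∈ Cfsg.isometryGroup F Q) (z : F)
    (hz : ((x ^ r : GL ι F) : Matrix ι ι F) = z • (1 : Matrix ι ι F))
    (hns : ∀ z : F, (x : Matrix ι ι F) ≠ z • (1 : Matrix ι ι F)) :
    ∃ x' : GL ι F, x' ∈ Cfsg.isometryGroup F Q ∧ x' ^ r = 1 ∧ x' ≠ 1 ∧
      ∀ k, InvEll Q (x' : Matrix ι ι F) k → InvEll Q (x : Matrix ι ι F) k := by
  by_cases hι : IsEmpty ι
  · exact absurd (Subsingleton.elim _ _) (hns 0)
  · haveI : Nonempty ι := not_isEmpty_iff.mp hι
    have hz2 := Cfsg.Agent.Helper80.TS5973.ts_scalar_sq Q hQ (x ^ r)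
      ((Cfsg.isometryGroup F Q).pow_mem hx r) z hz
    have hz' : z = 1 ∨ z = -1 := by
      have h1 : (z - 1) * (z + 1) = 0 := by linear_combination hz2
      rcases mul_eq_zero.mp h1 with h2 | h2
      · exact Or.inl (sub_eq_zero.mp h2)
      · exact Or.inr (eq_neg_of_add_eq_zero_left h2)
    rcases hz' with rfl | rfl
    · refine ⟨x, hx, ?_, ?_, fun k h => h⟩
      · apply Units.ext
        rw [hz, one_smul]
        rfl
      · intro h1
        apply hns 1
        rw [h1, one_smul]
        rfl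
    · refine ⟨-x, ?_, ?_, ?_, ?_⟩
      · intro u v
        show Q (((-x : GL ι F) : Matrix ι ι F).mulVec u) = Q u
        rw [Units.val_neg, Matrix.neg_mulVec]
        have h1 : -((x : Matrix ι ι F).mulVec u) = (-1 : F) • ((x : Matrix ι ι F).mulVec u) := by
          rw [neg_smul, one_smul]
        rw [h1, hQ.smul]
        have h2 : Q ((x : Matrix ι ι F).mulVec u) = Q u := hx u u
        rw [h2]
        ring
      · apply Units.ext
        rw [Units.val_pow_eq_pow_val, Units.val_neg, hr.neg_pow, ← Units.val_pow_eq_pow_val, hz,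
          neg_smul, one_smul, neg_neg]
        rfl
      · intro h1
        apply hns (-1)
        have h2 : x = -1 := by rw [← h1, neg_neg]
        rw [h2, Units.val_neg, neg_smul, one_smul]
        rfl
      · rintro k ⟨W, hW1, hW3⟩
        refine ⟨W, hW1, ?_⟩
        rintro _ ⟨w, hw, rfl⟩
        have h1 : Matrix.toLin' ((-x : GL ι F) : Matrix ι ι F) w ∈ W :=
          hW3 (Submodule.mem_map_of_mem hw)
        rw [Units.val_neg, Matrix.toLin'_apply, Matrix.neg_mulVec] at h1
        rw [Matrix.toLin'_apply]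
        have h2 := W.neg_mem h1
        rwa [neg_neg] at h2

end conc

end Cfsg.Agent.Helper10.S88OE
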