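import Mathlib
import Cfsg.Prelude.Def_GeometricClasses
import Cfsg.Prelude.Def_Classical
import Cfsg.Agent.Helper35.S88Defs
import Cfsg.Agent.Helper80.TSNONSCAL

set_option autoImplicit false

/-! Sub-CALL S88R2 (helper90, row S5988): piece NSC. -/

namespace Cfsg.Agent.Helper10.S88R2

open Module Cfsg Cfsg.Geo Cfsg.Agent.Helper35.S88
open scoped MatrixGroups

section pieces

variable {ι : Type} [Fintype ι] [DecidableEq ι] {F : Type*} [Field F] [Fintype F]

/-- NSC [S]: an isometry with square `-1` is not scalar (`M = z • 1` gives `z² Q v = Q v` for a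
`v` with `Q v ≠ 0`, so `z² = 1` and `M * M = 1 ≠ -1` as `2 ≠ 0`). -/
theorem r2e_nonscalar (Q : (ι → F) → F) (hQ : IsNondegenerateQuadraticForm Q) (h2 : (2 : F) ≠ 0)
    (hne : Nonempty ι) (M : Matrix ι ι F) (hM : ∀ v, Q (M.mulVec v) = Q v) (hM2 : M * M = -1) :
    ∀ z : F, M ≠ z • (1 : Matrix ι ι F) := by
  intro z hz
  obtain ⟨u, hu⟩ := Cfsg.Agent.Helper80.TS5973.ts_exists_ne_zero Q hQ
  have h1 : Q (M.mulVec u) = Q u := hM u
  rw [hz, Matrix.smul_mulVec, Matrix.one_mulVec, hQ.smul] at h1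
  have h3 : (z ^ 2 - 1) * Q u = 0 := by rw [sub_mul, one_mul, h1, sub_self]
  have hz2 : z ^ 2 = 1 := by
    rcases mul_eq_zero.mp h3 with h4 | h4
    · exact sub_eq_zero.mp h4
    · exact absurd h4 hu
  have h5 : M * M = 1 := by
    rw [hz, Matrix.smul_mul, Matrix.mul_smul, Matrix.one_mul, smul_smul, ← pow_two, hz2, one_smul]
  rw [h5] at hM2
  obtain ⟨i⟩ := hne
  have h6 := congrFun (congrFun hM2 i) i
  rw [Matrix.neg_apply, Matrix.one_apply_eq] at h6
  apply h2
  have : (2 : F) = 1 + 1 := by norm_num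
  rw [this]
  nth_rewrite 1 [h6]
  ring

end pieces

end Cfsg.Agent.Helper10.S88R2
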