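import Mathlib
import Cfsg.Agent.Helper87.SFDefs

/-!
# Helper10: piece EIG of CALL S2752 (helper87).

An elementary abelian 2-group `A` acting non-trivially on an abelian group `N` of odd order has a
hyperplane `B` and an element `x ≠ 1` of `N` centralized by `B` and inverted by some `a ∈ A`.
Proof: take `x ∈ N` not centralized by `A` with `C_A(x)` of maximal order; then `C_A(x)` has
index 2 in `A`.
-/

set_option autoImplicit false

namespace Cfsg.Agent.Helper10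

open Cfsg.Agent.Helper87.SF

theorem sf_eig_sq_comm {G : Type*} [Group G] (x c : G) (hodd : Odd (orderOf x))
    (h : c * (x * x) = (x * x) * c) : c * x = x * c := by
  obtain ⟨k, hk⟩ := hodd
  have hx : x = (x * x) ^ (k + 1) := by
    rw [← pow_two, ← pow_mul]
    have h2 : 2 * (k + 1) = orderOf x + 1 := by omega
    rw [h2, pow_succ, pow_orderOf_eq_one, one_mul]
  have hc : Commute c (x * x) := h
  have h3 := hc.pow_right (k + 1)
  rw [← hx] at h3
  exact h3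

theorem sf_eig_mem {G : Type*} [Group G] (A : Subgroup G) (x c : G) :
    c ∈ A ⊓ Subgroup.centralizer ({x} : Set G) ↔ c ∈ A ∧ c * x = x * c := by
  rw [Subgroup.mem_inf, Subgroup.mem_centralizer_iff]
  constructor
  · rintro ⟨h1, h2⟩
    exact ⟨h1, (h2 x rfl).symm⟩
  · rintro ⟨h1, h2⟩
    refine ⟨h1, fun h hh => ?_⟩
    rw [Set.mem_singleton_iff.1 hh]
    exact h2.symm

theorem sf_eig {G : Type*} [Group G] [Finite G] (A N : Subgroup G) (hA : EA2 A)
    (hNc : ∀ x ∈ N, ∀ y ∈ N, x * y = y * x) (hNodd : Odd (Nat.card N))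
    (hAN : ∀ a ∈ A, ∀ x ∈ N, a * x * a⁻¹ ∈ N)
    (hnc : ¬ ∀ a ∈ A, ∀ x ∈ N, a * x = x * a) :
    ∃ (B : Subgroup G) (a x : G), B ≤ A ∧ Nat.card A = 2 * Nat.card B ∧ a ∈ A ∧ x ∈ N ∧
      x ≠ 1 ∧ (∀ b ∈ B, b * x = x * b) ∧ a * x * a⁻¹ = x⁻¹ := by
  classical
  obtain ⟨hAc, hA2⟩ := hA
  have hs : ({x | x ∈ N ∧ ∃ a ∈ A, a * x ≠ x * a} : Set G).Nonempty := by
    by_contra h
    apply hnc
    intro a ha x hx
    by_contra hne
    exact h ⟨x, hx, a, ha, hne⟩
  obtain ⟨x, hxs, hmax⟩ := Set.exists_max_image ({x | x ∈ N ∧ ∃ a ∈ A, a * x ≠ x * a} : Set G)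
    (fun x => Nat.card (A ⊓ Subgroup.centralizer ({x} : Set G) : Subgroup G))
    (Set.toFinite _) hs
  obtain ⟨hxN, a₀, ha₀, ha₀x⟩ := hxs
  have hoddx : Odd (orderOf x) := by
    have h1 : orderOf (⟨x, hxN⟩ : N) ∣ Nat.card N := orderOf_dvd_natCard _
    rw [Subgroup.orderOf_mk] at h1
    exact Odd.of_dvd_nat hNodd h1
  -- Step 1: `x * (c x c⁻¹)` is centralized by `A` whenever `c ∈ A` does not centralize `x`
  have hz : ∀ c ∈ A, c * x ≠ x * c → ∀ d ∈ A, d * (x * (c * x * c⁻¹)) = (x * (c * x * c⁻¹)) * d := by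
    intro c hc hcx d hd
    by_contra hne
    have hyN : c * x * c⁻¹ ∈ N := hAN c hc x hxN
    have hzs : x * (c * x * c⁻¹) ∈ ({x | x ∈ N ∧ ∃ a ∈ A, a * x ≠ x * a} : Set G) :=
      ⟨N.mul_mem hxN hyN, d, hd, hne⟩
    have hle : A ⊓ Subgroup.centralizer ({x} : Set G) ≤
        A ⊓ Subgroup.centralizer ({x * (c * x * c⁻¹)} : Set G) := by
      intro b hb
      rw [sf_eig_mem] at hb ⊢
      obtain ⟨hbA, hbx⟩ := hb
      have hbx' : Commute b x := hbx
      have hbc : Commute b c := hAc b hbA c hc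
      exact ⟨hbA, hbx'.mul_right ((hbc.mul_right hbx').mul_right hbc.inv_right)⟩
    have heq := Subgroup.eq_of_le_of_card_ge hle (hmax _ hzs)
    have hcmem : c ∈ A ⊓ Subgroup.centralizer ({x * (c * x * c⁻¹)} : Set G) := by
      rw [sf_eig_mem]
      refine ⟨hc, ?_⟩
      have hcinv : c⁻¹ = c := inv_eq_of_mul_eq_one_left (hA2 c hc)
      have hxy : x * (c * x * c⁻¹) = (c * x * c⁻¹) * x := hNc x hxN _ hyN
      have e1 : c * x = (c * x * c⁻¹) * c := by group
      have e2 : c * (c * x * c⁻¹) = x * c := by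
        rw [hcinv, ← mul_assoc, ← mul_assoc, hA2 c hc, one_mul]
      obtain ⟨y, hy⟩ : ∃ y, y = c * x * c⁻¹ := ⟨_, rfl⟩
      rw [← hy] at hxy e1 e2 ⊢
      calc c * (x * y) = (c * x) * y := (mul_assoc _ _ _).symm
        _ = y * c * y := by rw [e1]
        _ = y * (c * y) := mul_assoc _ _ _
        _ = y * (x * c) := by rw [e2]
        _ = (y * x) * c := (mul_assoc _ _ _).symm
        _ = (x * y) * c := by rw [hxy]
    rw [← heq, sf_eig_mem] at hcmem
    exact hcx hcmem.2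
  -- Step 2: two elements of `A` outside `C_A(x)` have product in `C_A(x)`
  have hclaim : ∀ a ∈ A, a * x ≠ x * a → ∀ a' ∈ A, a' * x ≠ x * a' →
      (a * a') * x = x * (a * a') := by
    intro a ha hax a' ha' ha'x
    by_contra h3
    have hz1 := hz a ha hax
    have hz2 := hz a' ha' ha'x
    have hz3 := hz (a * a') (A.mul_mem ha ha') h3
    have e3 : (a * a') * x * (a * a')⁻¹ = a * (a' * x * a'⁻¹) * a⁻¹ := by group
    rw [e3] at hz3
    have hy1N : a * x * a⁻¹ ∈ N := hAN a ha x hxN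
    have hy2N : a' * x * a'⁻¹ ∈ N := hAN a' ha' x hxN
    have hy3N : a * (a' * x * a'⁻¹) * a⁻¹ ∈ N := hAN a ha _ hy2N
    -- `a (x y₂) a⁻¹ = x y₂`
    have h13 : (a * x * a⁻¹) * (a * (a' * x * a'⁻¹) * a⁻¹) = x * (a' * x * a'⁻¹) := by
      have h4 := hz2 a ha
      have h5 : (a * x * a⁻¹) * (a * (a' * x * a'⁻¹) * a⁻¹) = a * (x * (a' * x * a'⁻¹)) * a⁻¹ := by
        group
      rw [h5, h4, mul_assoc, mul_inv_cancel, mul_one]
    obtain ⟨y₁, hy₁⟩ : ∃ y, y = a * x * a⁻¹ := ⟨_, rfl⟩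
    obtain ⟨y₂, hy₂⟩ : ∃ y, y = a' * x * a'⁻¹ := ⟨_, rfl⟩
    obtain ⟨y₃, hy₃⟩ : ∃ y, y = a * (a' * x * a'⁻¹) * a⁻¹ := ⟨_, rfl⟩
    rw [← hy₁] at hz1 hy1N
    rw [← hy₂] at hz2 hy2N
    rw [← hy₃] at hz3 hy3N
    rw [← hy₁, ← hy₃, ← hy₂] at h13
    have hsq : x * x = (x * y₁) * (x * y₃) * (x * y₂)⁻¹ := by
      have h6 : (x * y₁) * (x * y₃) = (x * x) * (x * y₂) := by
        calc (x * y₁) * (x * y₃) = x * (y₁ * x) * y₃ := by group
          _ = x * (x * y₁) * y₃ := by rw [hNc y₁ hy1N x hxN]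
          _ = (x * x) * (y₁ * y₃) := by group
          _ = (x * x) * (x * y₂) := by rw [h13]
      rw [h6, mul_assoc, mul_inv_cancel, mul_one]
    have hcomm : a * (x * x) = (x * x) * a := by
      have c1 : Commute a (x * y₁) := hz1 a ha
      have c2 : Commute a (x * y₂) := hz2 a ha
      have c3 : Commute a (x * y₃) := hz3 a ha
      rw [hsq]
      exact (c1.mul_right c3).mul_right c2.inv_right
    exact hax (sf_eig_sq_comm x a hoddx hcomm)
  -- the hyperplane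
  have hcardB : Nat.card A = 2 * Nat.card (A ⊓ Subgroup.centralizer ({x} : Set G) : Subgroup G) := by
    have hidx : ((A ⊓ Subgroup.centralizer ({x} : Set G)).subgroupOf A).index = 2 := by
      rw [Subgroup.index_eq_two_iff]
      refine ⟨⟨a₀, ha₀⟩, fun b => ?_⟩
      rw [Subgroup.mem_subgroupOf, Subgroup.mem_subgroupOf, sf_eig_mem, sf_eig_mem]
      by_cases hb : (b : G) * x = x * (b : G)
      · right
        refine ⟨⟨b.2, hb⟩, fun h => ?_⟩
        apply ha₀x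
        have hb' : Commute (b : G) x := hb
        have hba : Commute ((b : G) * a₀) x := h.2
        have h7 : Commute ((b : G)⁻¹ * ((b : G) * a₀)) x := hb'.inv_left.mul_left hba
        rw [inv_mul_cancel_left] at h7
        exact h7
      · left
        exact ⟨⟨A.mul_mem b.2 ha₀, hclaim b b.2 hb a₀ ha₀ ha₀x⟩, fun h => hb h.2⟩
    have hcard := Subgroup.card_mul_index ((A ⊓ Subgroup.centralizer ({x} : Set G)).subgroupOf A)
    have hBc : Nat.card ((A ⊓ Subgroup.centralizer ({x} : Set G)).subgroupOf A) =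
        Nat.card (A ⊓ Subgroup.centralizer ({x} : Set G) : Subgroup G) :=
      Nat.card_congr (Subgroup.subgroupOfEquivOfLe inf_le_left).toEquiv
    rw [hidx, hBc] at hcard
    omega
  have ha₀inv : a₀ * a₀ = 1 := hA2 a₀ ha₀
  refine ⟨A ⊓ Subgroup.centralizer ({x} : Set G), a₀, x * (a₀ * x * a₀⁻¹)⁻¹, inf_le_left, hcardB,
    ha₀, N.mul_mem hxN (N.inv_mem (hAN a₀ ha₀ x hxN)), ?_, ?_, ?_⟩
  · intro h
    apply ha₀x
    have h8 : x = a₀ * x * a₀⁻¹ := mul_inv_eq_one.1 h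
    calc a₀ * x = a₀ * x * a₀⁻¹ * a₀ := by group
      _ = x * a₀ := by rw [← h8]
  · intro b hb
    rw [sf_eig_mem] at hb
    have hbx : Commute b x := hb.2
    have hba : Commute b a₀ := hAc b hb.1 a₀ ha₀
    exact hbx.mul_right ((hba.mul_right hbx).mul_right hba.inv_right).inv_right
  · have key : a₀ * (x * (a₀ * x * a₀⁻¹)⁻¹) * a₀⁻¹ =
        (a₀ * x * a₀⁻¹) * (a₀ * a₀) * x⁻¹ * (a₀ * a₀)⁻¹ := by group
    rw [key, ha₀inv]
    group

end Cfsg.Agent.Helper10
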