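import Mathlib
import Cfsg.Agent.Helper87.SFDefs
import Cfsg.Agent.Helper46.Involves

/-!
# Helper10: piece HQI of CALL S2752 (helper87): a section of a quotient is a section of the group.
-/

set_option autoImplicit false

namespace Cfsg.Agent.Helper10

open Cfsg.Agent.Helper87.SF

theorem sf_hq_inv {G : Type*} [Group G] (N : Subgroup G) [N.Normal] {H : Type*} [Group H]
    (h : Cfsg.Involves H (G ⧸ N)) : Cfsg.Involves H G :=
  Cfsg.Agent.Helper46.involves_of_quotient N h

end Cfsg.Agent.Helper10
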