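import Mathlib
import Cfsg.Agent.Helper87.SFDefs

/-!
# Helper10: piece MN3 of CALL S2752 (helper87), abstract part: from a minimal `N`-invariant
subgroup `K₀` of a minimal normal subgroup `N` (output of MN1) and the structure statement MN2
(as a hypothesis) to a conjugate of `K₀` that is not centralized by `A`.
-/

set_option autoImplicit false

namespace Cfsg.Agent.Helper10

open Cfsg.Agent.Helper87.SF

theorem sf_mn_three_aux {G : Type*} [Group G] (N : Subgroup G) [N.Normal]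
    (A : Subgroup G) (hA : ¬ ∀ a ∈ A, ∀ x ∈ N, a * x = x * a)
    (K₀ : Subgroup G) (hK₀N : K₀ ≤ N) (hK₀1 : K₀ ≠ ⊥)
    (hnorm : ∀ n ∈ N, ∀ k ∈ K₀, n * k * n⁻¹ ∈ K₀)
    (hmin : ∀ L : Subgroup G, L ≤ K₀ → (∀ n ∈ N, ∀ l ∈ L, n * l * n⁻¹ ∈ L) → L = ⊥ ∨ L = K₀)
    (hcc : ∀ c : G, (∀ k ∈ K₀, c * k * c⁻¹ ∈ K₀) ∨
        (∀ k ∈ K₀, ∀ k' ∈ K₀, (c * k * c⁻¹) * k' = k' * (c * k * c⁻¹)))
    (hgen : ∀ H : Subgroup G, (∀ c : G, ∀ k ∈ K₀, c * k * c⁻¹ ∈ H) → N ≤ H)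
    (hMN2 : ∀ K₁ : Subgroup G, K₁ ≤ N → K₁ ≠ ⊥ → (∀ n ∈ N, ∀ k ∈ K₁, n * k * n⁻¹ ∈ K₁) →
      (∀ L : Subgroup G, L ≤ K₁ → (∀ n ∈ N, ∀ l ∈ L, n * l * n⁻¹ ∈ L) → L = ⊥ ∨ L = K₁) →
      (∀ c : G, (∀ k ∈ K₁, c * k * c⁻¹ ∈ K₁) ∨
        (∀ k ∈ K₁, ∀ k' ∈ K₁, (c * k * c⁻¹) * k' = k' * (c * k * c⁻¹))) →
      (∀ H : Subgroup G, (∀ c : G, ∀ k ∈ K₁, c * k * c⁻¹ ∈ H) → N ≤ H) →
      IsSimpleGroup ↥K₁ ∧ NC K₁ ∧ K₁.IsSubnormal) :
    ∃ K : Subgroup G, K ≤ N ∧ K.IsSubnormal ∧ IsSimpleGroup ↥K ∧ NC K ∧ CC K A ∧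
      ¬ ∀ a ∈ A, ∀ x ∈ K, a * x = x * a := by
  have hNn : N.Normal := inferInstance
  -- some conjugate of `K₀` is not centralized by `A`
  have hex : ∃ c0 : G, ∃ a ∈ A, ∃ k ∈ K₀, a * (c0 * k * c0⁻¹) ≠ (c0 * k * c0⁻¹) * a := by
    by_contra hcon
    push Not at hcon
    apply hA
    have hle : N ≤ Subgroup.centralizer (A : Set G) := by
      apply hgen
      intro c k hk
      rw [Subgroup.mem_centralizer_iff]
      intro a ha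
      exact hcon c a ha k hk
    intro a ha x hx
    have h1 := hle hx
    rw [Subgroup.mem_centralizer_iff] at h1
    exact h1 a ha
  obtain ⟨c0, a, ha, k, hk, hne⟩ := hex
  obtain ⟨K, hK⟩ : ∃ K : Subgroup G, ∀ x, x ∈ K ↔ c0⁻¹ * x * c0 ∈ K₀ :=
    ⟨K₀.comap (MulAut.conj c0⁻¹).toMonoidHom, fun x => by
      rw [Subgroup.mem_comap]
      simp⟩
  have hmemK : ∀ k ∈ K₀, c0 * k * c0⁻¹ ∈ K := by
    intro k hk
    rw [hK]
    have e : c0⁻¹ * (c0 * k * c0⁻¹) * c0 = k := by group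
    rw [e]
    exact hk
  have Q1 : K ≤ N := by
    intro x hx
    rw [hK] at hx
    have h1 := hNn.conj_mem _ (hK₀N hx) c0
    have e : c0 * (c0⁻¹ * x * c0) * c0⁻¹ = x := by group
    rw [e] at h1
    exact h1
  have Q2 : K ≠ ⊥ := by
    intro hbot
    apply hK₀1
    rw [Subgroup.eq_bot_iff_forall]
    intro k hk
    have h1 := hmemK k hk
    rw [hbot, Subgroup.mem_bot] at h1
    have e : k = c0⁻¹ * (c0 * k * c0⁻¹) * c0 := by group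
    rw [e, h1]
    group
  have Q3 : ∀ n ∈ N, ∀ k ∈ K, n * k * n⁻¹ ∈ K := by
    intro n hn x hx
    rw [hK] at hx ⊢
    have e : c0⁻¹ * (n * x * n⁻¹) * c0 =
        (c0⁻¹ * n * c0) * (c0⁻¹ * x * c0) * (c0⁻¹ * n * c0)⁻¹ := by group
    rw [e]
    have h1 := hNn.conj_mem n hn c0⁻¹
    rw [inv_inv] at h1
    exact hnorm _ h1 _ hx
  have Q4 : ∀ L : Subgroup G, L ≤ K → (∀ n ∈ N, ∀ l ∈ L, n * l * n⁻¹ ∈ L) → L = ⊥ ∨ L = K := by
    intro L hLK hLN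
    obtain ⟨L', hL'⟩ : ∃ L' : Subgroup G, ∀ x, x ∈ L' ↔ c0 * x * c0⁻¹ ∈ L :=
      ⟨L.comap (MulAut.conj c0).toMonoidHom, fun x => by
        rw [Subgroup.mem_comap]
        simp [MulAut.conj_apply]⟩
    have h1 : L' ≤ K₀ := by
      intro x hx
      rw [hL'] at hx
      have h3 := hLK hx
      rw [hK] at h3
      have e : c0⁻¹ * (c0 * x * c0⁻¹) * c0 = x := by group
      rw [e] at h3
      exact h3
    have h2 : ∀ n ∈ N, ∀ l ∈ L', n * l * n⁻¹ ∈ L' := by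
      intro n hn l hl
      rw [hL'] at hl ⊢
      have e : c0 * (n * l * n⁻¹) * c0⁻¹ =
          (c0 * n * c0⁻¹) * (c0 * l * c0⁻¹) * (c0 * n * c0⁻¹)⁻¹ := by group
      rw [e]
      exact hLN _ (hNn.conj_mem n hn c0) _ hl
    rcases hmin L' h1 h2 with h | h
    · left
      rw [Subgroup.eq_bot_iff_forall]
      intro x hx
      have hx' : c0⁻¹ * x * c0 ∈ L' := by
        rw [hL']
        have e : c0 * (c0⁻¹ * x * c0) * c0⁻¹ = x := by group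
        rw [e]
        exact hx
      rw [h, Subgroup.mem_bot] at hx'
      have e : x = c0 * (c0⁻¹ * x * c0) * c0⁻¹ := by group
      rw [e, hx']
      group
    · right
      apply le_antisymm hLK
      intro x hx
      rw [hK, ← h, hL'] at hx
      have e : c0 * (c0⁻¹ * x * c0) * c0⁻¹ = x := by group
      rw [e] at hx
      exact hx
  have Q5 : ∀ c : G, (∀ k ∈ K, c * k * c⁻¹ ∈ K) ∨
      (∀ k ∈ K, ∀ k' ∈ K, (c * k * c⁻¹) * k' = k' * (c * k * c⁻¹)) := by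
    intro c
    rcases hcc (c0⁻¹ * c * c0) with h | h
    · left
      intro x hx
      rw [hK] at hx ⊢
      have e : c0⁻¹ * (c * x * c⁻¹) * c0 =
          (c0⁻¹ * c * c0) * (c0⁻¹ * x * c0) * (c0⁻¹ * c * c0)⁻¹ := by group
      rw [e]
      exact h _ hx
    · right
      intro x hx x' hx'
      rw [hK] at hx hx'
      have h' := h _ hx _ hx'
      have e1 : c * x * c⁻¹ * x' = c0 * ((c0⁻¹ * c * c0) * (c0⁻¹ * x * c0) * (c0⁻¹ * c * c0)⁻¹ *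
          (c0⁻¹ * x' * c0)) * c0⁻¹ := by group
      have e2 : x' * (c * x * c⁻¹) = c0 * ((c0⁻¹ * x' * c0) *
          ((c0⁻¹ * c * c0) * (c0⁻¹ * x * c0) * (c0⁻¹ * c * c0)⁻¹)) * c0⁻¹ := by group
      rw [e1, e2, h']
  have Q6 : ∀ H : Subgroup G, (∀ c : G, ∀ k ∈ K, c * k * c⁻¹ ∈ H) → N ≤ H := by
    intro H hH
    apply hgen
    intro c k hk
    have h1 := hH (c * c0⁻¹) _ (hmemK k hk)
    have e : c * c0⁻¹ * (c0 * k * c0⁻¹) * (c * c0⁻¹)⁻¹ = c * k * c⁻¹ := by group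
    rw [e] at h1
    exact h1
  obtain ⟨hs, hn, hsub⟩ := hMN2 K Q1 Q2 Q3 Q4 Q5 Q6
  exact ⟨K, Q1, hsub, hs, hn, fun c _ => Q5 c, fun hall => hne (hall a ha _ (hmemK k hk))⟩

end Cfsg.Agent.Helper10
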