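import Mathlib
import Cfsg.Agent.Helper87.SFDefs
import Cfsg.Agent.Helper10.SFMN3Aux
import Cfsg.Agent.Helper51.SFMN1
import Cfsg.Agent.Helper51.SFMN2

/-!
# Helper10: piece MN3 of CALL S2752 (helper87): a non-abelian minimal normal subgroup `N` not
centralized by `A` contains a simple non-abelian subnormal subgroup `K` (a conjugate of the
minimal `N`-invariant subgroup of MN1), with `CC K A`, not centralized by `A`.
-/

set_option autoImplicit false

namespace Cfsg.Agent.Helper10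

open Cfsg.Agent.Helper87.SF

theorem sf_mn_three {G : Type*} [Group G] [Finite G] (N : Subgroup G) [N.Normal] (hN1 : N ≠ ⊥)
    (hmin : ∀ N' : Subgroup G, N'.Normal → N' ≤ N → N' = ⊥ ∨ N' = N) (hnab : NC N)
    (A : Subgroup G) (hA : ¬ ∀ a ∈ A, ∀ x ∈ N, a * x = x * a) :
    ∃ K : Subgroup G, K ≤ N ∧ K.IsSubnormal ∧ IsSimpleGroup ↥K ∧ NC K ∧ CC K A ∧
      ¬ ∀ a ∈ A, ∀ x ∈ K, a * x = x * a := by
  obtain ⟨K₀, h1, h2, h3, h4, h5, h6⟩ := Cfsg.Agent.Helper51.sf_mn_one N hN1 hmin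
  exact sf_mn_three_aux N A hA K₀ h1 h2 h3 h4 h5 h6
    (fun K₁ a b c d e f => Cfsg.Agent.Helper51.sf_mn_two N hnab K₁ a b c d e f)

end Cfsg.Agent.Helper10
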