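import Mathlib
import Cfsg.Agent.Helper87.SFDefs

/-!
# Helper10: piece MNAB of CALL S2752 (helper87): an abelian minimal normal subgroup of a group
with `O_2 = 1` has odd order.
-/

set_option autoImplicit false

namespace Cfsg.Agent.Helper10

open Cfsg.Agent.Helper87.SF

theorem sf_mn_ab {G : Type*} [Group G] [Finite G] (h : Cfsg.pCore 2 G = ⊥) (N : Subgroup G)
    [N.Normal] (hmin : ∀ N' : Subgroup G, N'.Normal → N' ≤ N → N' = ⊥ ∨ N' = N)
    (hNc : ∀ x ∈ N, ∀ y ∈ N, x * y = y * x) : Odd (Nat.card N) := by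
  by_contra hodd
  rw [Nat.not_odd_iff_even] at hodd
  have hNn : N.Normal := inferInstance
  obtain ⟨Ω, hΩ⟩ : ∃ Ω : Subgroup G, ∀ x, x ∈ Ω ↔ x ∈ N ∧ x * x = 1 :=
    ⟨{ carrier := {x | x ∈ N ∧ x * x = 1}
       mul_mem' := by
         rintro x y ⟨hx, hx2⟩ ⟨hy, hy2⟩
         refine ⟨N.mul_mem hx hy, ?_⟩
         calc x * y * (x * y) = x * (y * x) * y := by group
           _ = x * (x * y) * y := by rw [hNc y hy x hx]
           _ = (x * x) * (y * y) := by group
           _ = 1 := by rw [hx2, hy2, one_mul]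
       one_mem' := ⟨N.one_mem, one_mul 1⟩
       inv_mem' := by
         rintro x ⟨hx, hx2⟩
         refine ⟨N.inv_mem hx, ?_⟩
         rw [← mul_inv_rev, hx2, inv_one] }, fun x => Iff.rfl⟩
  have hΩn : Ω.Normal := by
    constructor
    intro x hx g
    rw [hΩ] at hx ⊢
    obtain ⟨hx, hx2⟩ := hx
    refine ⟨hNn.conj_mem x hx g, ?_⟩
    calc g * x * g⁻¹ * (g * x * g⁻¹) = g * (x * x) * g⁻¹ := by group
      _ = 1 := by rw [hx2, mul_one, mul_inv_cancel]
  have hΩN : Ω ≤ N := fun x hx => ((hΩ x).1 hx).1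
  have : Fact (Nat.Prime 2) := ⟨Nat.prime_two⟩
  obtain ⟨t, ht⟩ := exists_prime_orderOf_dvd_card' (G := N) 2 (even_iff_two_dvd.1 hodd)
  have ht1 : (t : G) ≠ 1 := by
    intro h1
    have h2 : t = 1 := Subtype.ext h1
    rw [h2, orderOf_one] at ht
    omega
  have htΩ : (t : G) ∈ Ω := by
    rw [hΩ]
    refine ⟨t.2, ?_⟩
    have h3 := pow_orderOf_eq_one t
    rw [ht, pow_two] at h3
    exact congrArg Subtype.val h3
  rcases hmin Ω hΩn hΩN with h0 | h1
  · rw [h0, Subgroup.mem_bot] at htΩ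
    exact ht1 htΩ
  · have hP : IsPGroup 2 N := by
      intro x
      refine ⟨1, ?_⟩
      have hx : (x : G) ∈ Ω := by rw [h1]; exact x.2
      rw [hΩ] at hx
      apply Subtype.ext
      rw [pow_one, pow_two]
      exact hx.2
    have hle : N ≤ Cfsg.pCore 2 G := le_sSup ⟨hNn, hP⟩
    rw [h] at hle
    exact ht1 ((Subgroup.mem_bot).1 (hle t.2))

end Cfsg.Agent.Helper10
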