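import Mathlib
import Cfsg.Prelude.Def_GeometricClasses
import Cfsg.Agent.Helper90.SFRDefs

set_option autoImplicit false

namespace Cfsg.Agent.Helper10

open Module Polynomial Cfsg.Agent.Helper90.SFR

section fin
variable {F : Type*} [Field F] [Fintype F]

/-! ## PIECE ARITHB -/
theorem val_lt_of_not_pow (r : ℕ) [Fact r.Prime] (z : F) (hz : ∀ b : F, b ^ r ≠ z) (s : ℕ)
    (hs : 0 < s) (hzs : z ^ s = 1) :
    padicValNat r (Fintype.card F - 1) < padicValNat r (r * s) := by
  classical
  have hr : r.Prime := Fact.out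
  have hz0 : z ≠ 0 := by
    rintro rfl
    rw [zero_pow (by omega)] at hzs
    exact zero_ne_one hzs
  obtain ⟨g, hg⟩ := IsCyclic.exists_monoid_generator (α := Fˣ)
  have hord : orderOf g = Fintype.card F - 1 := by
    rw [orderOf_eq_card_of_forall_mem_zpowers, Nat.card_units, Nat.card_eq_fintype_card]
    intro x
    obtain ⟨k, hk⟩ := hg x
    exact ⟨k, by simpa using hk⟩
  obtain ⟨a, ha⟩ := hg (Units.mk0 z hz0)
  have ha' : g ^ a = Units.mk0 z hz0 := ha
  have hzF : ((g ^ a : Fˣ) : F) = z := by rw [ha']; rfl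
  have hra : ¬ r ∣ a := by
    rintro ⟨c, rfl⟩
    apply hz ((g ^ c : Fˣ) : F)
    rw [← hzF, ← Units.val_pow_eq_pow_val, ← pow_mul, mul_comm]
  have ha0 : a ≠ 0 := by
    rintro rfl
    exact hra (dvd_zero r)
  have hdvd : Fintype.card F - 1 ∣ a * s := by
    rw [← hord]
    apply orderOf_dvd_of_pow_eq_one
    rw [pow_mul, ha']
    apply Units.ext
    rw [Units.val_pow_eq_pow_val]
    exact hzs
  have h1 : padicValNat r (Fintype.card F - 1) ≤ padicValNat r (a * s) := by
    rw [← padicValNat_dvd_iff_le (Nat.mul_ne_zero ha0 (by omega))]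
    exact dvd_trans pow_padicValNat_dvd hdvd
  have h2 : padicValNat r (a * s) = padicValNat r s := by
    rw [padicValNat.mul ha0 (by omega), padicValNat.eq_zero_of_not_dvd hra, zero_add]
  have h3 : padicValNat r (r * s) = 1 + padicValNat r s := by
    rw [padicValNat.mul hr.ne_zero (by omega), padicValNat_self]
  omega

end fin

end Cfsg.Agent.Helper10
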