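import Mathlib
import Cfsg.Prelude.Def_GeometricClasses
import Cfsg.Agent.Helper90.SFRDefs

set_option autoImplicit false

namespace Cfsg.Agent.Helper10

open Module Polynomial Cfsg.Agent.Helper90.SFR

section lin
variable {F : Type*} [Field F] {V : Type*} [AddCommGroup V] [Module F V] [FiniteDimensional F V]

/-! ## PIECE RATPAIR -/
theorem rat_pair (F₀ : Subfield F) (T : V →ₗ[F] V) (ζ : F) (hζ0 : ζ ≠ 0) (hζ : ζ + ζ⁻¹ ∈ F₀)
    (hζ2 : ζ ≠ ζ⁻¹) (b : Basis (Fin 2) F V) (h0 : T (b 0) = ζ • b 0) (h1 : T (b 1) = ζ⁻¹ • b 1) :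
    IsRat F₀ T := by
  classical
  have hb01 : ∀ x y : F, x • b 0 + y • b 1 = 0 → x = 0 ∧ y = 0 := by
    intro x y hxy
    have hli := b.linearIndependent
    rw [Fintype.linearIndependent_iff] at hli
    have h := hli ![x, y] (by simpa [Fin.sum_univ_two] using hxy)
    exact ⟨by simpa using h 0, by simpa using h 1⟩
  have hli : LinearIndependent F ![b 0 + b 1, ζ • b 0 + ζ⁻¹ • b 1] := by
    rw [LinearIndependent.pair_iff]
    intro s t hst
    have h : (s + t * ζ) • b 0 + (s + t * ζ⁻¹) • b 1 = 0 := by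
      rw [← hst]
      simp only [smul_add, add_smul, mul_smul]
      abel
    obtain ⟨hx, hy⟩ := hb01 _ _ h
    have ht : t * (ζ - ζ⁻¹) = 0 := by linear_combination hx - hy
    have ht0 : t = 0 := by
      rcases mul_eq_zero.mp ht with h | h
      · exact h
      · exact absurd (sub_eq_zero.mp h) hζ2
    refine ⟨?_, ht0⟩
    rw [ht0] at hx
    simpa using hx
  have hcard : Fintype.card (Fin 2) = finrank F V := by
    rw [finrank_eq_card_basis b]
  let u : Basis (Fin 2) F V := basisOfLinearIndependentOfCardEqFinrank hli hcard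
  have hu0 : u 0 = b 0 + b 1 := by
    simp [u]
  have hu1 : u 1 = ζ • b 0 + ζ⁻¹ • b 1 := by
    simp [u]
  have hT0 : T (u 0) = u 1 := by
    rw [hu0, hu1, map_add, h0, h1]
  have hT1 : T (u 1) = (-1 : F) • u 0 + (ζ + ζ⁻¹) • u 1 := by
    rw [hu0, hu1, map_add, map_smul, map_smul, h0, h1]
    simp only [smul_add, smul_smul]
    have e1 : ζ * ζ = -1 + (ζ + ζ⁻¹) * ζ := by field_simp; ring
    have e2 : ζ⁻¹ * ζ⁻¹ = -1 + (ζ + ζ⁻¹) * ζ⁻¹ := by field_simp; ring
    rw [e1, e2]
    simp only [add_smul]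
    abel
  refine ⟨Fin 2, inferInstance, u, ?_⟩
  intro i j
  fin_cases i
  · show u.repr (T (u 0)) j ∈ F₀
    rw [hT0, Basis.repr_self]
    by_cases hj : (1 : Fin 2) = j
    · rw [Finsupp.single_apply, if_pos hj]; exact F₀.one_mem
    · rw [Finsupp.single_apply, if_neg hj]; exact F₀.zero_mem
  · show u.repr (T (u 1)) j ∈ F₀
    rw [hT1, map_add, map_smul, map_smul, Basis.repr_self, Basis.repr_self]
    simp only [Finsupp.coe_add, Finsupp.coe_smul, Pi.add_apply, Pi.smul_apply, smul_eq_mul,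
      Finsupp.single_apply]
    apply F₀.add_mem
    · apply F₀.mul_mem (F₀.neg_mem F₀.one_mem)
      split_ifs
      · exact F₀.one_mem
      · exact F₀.zero_mem
    · apply F₀.mul_mem hζ
      split_ifs
      · exact F₀.one_mem
      · exact F₀.zero_mem

end lin

end Cfsg.Agent.Helper10
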