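import Mathlib
import Cfsg.Prelude.Def_GeometricClasses
import Cfsg.Agent.Helper90.SFRDefs

set_option autoImplicit false

namespace Cfsg.Agent.Helper10

open Module Polynomial Cfsg.Agent.Helper90.SFR

section lin
variable {F : Type*} [Field F] {V : Type*} [AddCommGroup V] [Module F V] [FiniteDimensional F V]

/-! ## PIECE RK -/
theorem rank_map_ge {K L : Type*} [Field K] [Field L] (f : K →+* L) {m n : ℕ}
    (M : Matrix (Fin m) (Fin n) K) : M.rank ≤ (M.map f).rank := by
  classical
  have hr : Module.finrank K (LinearMap.range M.mulVecLin) = M.rank := rfl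
  let e : Basis (Fin M.rank) K (LinearMap.range M.mulVecLin) := Module.finBasisOfFinrankEq K _ hr
  have hv : ∀ i, ∃ v : Fin n → K, M.mulVecLin v = (e i : Fin m → K) := fun i => (e i).2
  choose v hv using hv
  let ι : (Fin M.rank → K) →ₗ[K] (Fin n → K) := (Pi.basisFun K (Fin M.rank)).constr K v
  have hcomp : M.mulVecLin ∘ₗ ι =
      (LinearMap.range M.mulVecLin).subtype ∘ₗ (e.equivFun.symm : (Fin M.rank → K) →ₗ[K] _) := by
    apply (Pi.basisFun K (Fin M.rank)).ext
    intro i
    simp only [LinearMap.comp_apply, ι, Basis.constr_basis, hv]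
    simp [Basis.equivFun_symm_apply, Pi.basisFun_apply, Pi.single_apply]
  have hinj : LinearMap.ker (M.mulVecLin ∘ₗ ι) = ⊥ := by
    rw [hcomp, LinearMap.ker_eq_bot]
    exact Subtype.val_injective.comp e.equivFun.symm.injective
  obtain ⟨ρ, hρ⟩ := (M.mulVecLin ∘ₗ ι).exists_leftInverse_of_injective hinj
  have hmat : LinearMap.toMatrix' ρ * M * LinearMap.toMatrix' ι = 1 := by
    have h1 : LinearMap.toMatrix' (ρ ∘ₗ (M.mulVecLin ∘ₗ ι)) = 1 := by
      rw [hρ, LinearMap.toMatrix'_id]
    rw [LinearMap.toMatrix'_comp, LinearMap.toMatrix'_comp] at h1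
    have h2 : LinearMap.toMatrix' M.mulVecLin = M := by
      have : M.mulVecLin = Matrix.toLin' M := rfl
      rw [this, LinearMap.toMatrix'_toLin']
    rw [h2, ← Matrix.mul_assoc] at h1
    exact h1
  have hmap : (LinearMap.toMatrix' ρ).map f * M.map f * (LinearMap.toMatrix' ι).map f = 1 := by
    rw [← Matrix.map_mul, ← Matrix.map_mul, hmat, Matrix.map_one f (map_zero f) (map_one f)]
  have h1 : ((1 : Matrix (Fin M.rank) (Fin M.rank) L)).rank = M.rank := by
    rw [Matrix.rank_one, Fintype.card_fin]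
  calc M.rank = ((1 : Matrix (Fin M.rank) (Fin M.rank) L)).rank := h1.symm
    _ = ((LinearMap.toMatrix' ρ).map f * M.map f * (LinearMap.toMatrix' ι).map f).rank := by rw [hmap]
    _ ≤ ((LinearMap.toMatrix' ρ).map f * M.map f).rank := Matrix.rank_mul_le_left _ _
    _ ≤ (M.map f).rank := Matrix.rank_mul_le_right _ _

end lin

end Cfsg.Agent.Helper10
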