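import Mathlib
import Cfsg.Agent.Helper87.SFDefs
import Cfsg.Agent.Helper46.SFourF

/-!
# Helper10: piece S3F of CALL S2752 (helper87): an `S₃`-free group has no involution inverting an
element of order 3.
-/

set_option autoImplicit false

namespace Cfsg.Agent.Helper10

open Cfsg.Agent.Helper87.SF

theorem sf_s3free {G : Type*} [Group G] (h : ¬ Cfsg.Involves (Equiv.Perm (Fin 3)) G) : NoS3 G := by
  intro a y haa hy hinv
  apply h
  have hy1 : y ≠ 1 := by
    intro h1
    rw [h1, orderOf_one] at hy
    omega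
  obtain ⟨e⟩ := Cfsg.Agent.Helper46.dihedral_of_inverting a y (by rw [pow_two]; exact haa) hinv
    (by rw [hy]; decide) hy1
  rw [hy] at e
  obtain ⟨e'⟩ := Cfsg.Agent.Helper46.nonempty_dihedral_three_perm
  exact Cfsg.Agent.Helper46.involves_iff.mpr
    ⟨Subgroup.zpowers a ⊔ Subgroup.zpowers y, (e.trans e').toMonoidHom, (e.trans e').surjective⟩

end Cfsg.Agent.Helper10
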