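import Mathlib

/-! CALL SL2L (helper2, for row S1383): piece F1 (pure). -/

set_option autoImplicit false

namespace Cfsg.Agent.Helper10

open Subgroup

universe u

variable {Γ : Type u} [Group Γ] [Finite Γ]

/-- PIECE F1: `P/Z` has order `p²`, so it is abelian (commutators lie in `Z`); it is not cyclic (else
`P` would be abelian, and then `P = Z` by `hZeq`, against the orders), so it has exponent `p`. -/
theorem sl2l_quot {p : ℕ} (hp : p.Prime) {P Z : Subgroup Γ} (hPc : Nat.card P = p ^ 3)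
    (hZP : Z ≤ P) (hZc : Nat.card Z = p) (hZcen : ∀ z ∈ Z, ∀ a ∈ P, z * a = a * z)
    (hZeq : ∀ a ∈ P, (∀ b ∈ P, a * b = b * a) → a ∈ Z) :
    (∀ a ∈ P, a ^ p ∈ Z) ∧ ∀ a ∈ P, ∀ b ∈ P, a * b * a⁻¹ * b⁻¹ ∈ Z := by
  haveI := Fact.mk hp
  -- `Z` is central in `P`
  have hcenter : Z.subgroupOf P ≤ Subgroup.center ↥P := by
    intro n hn
    rw [Subgroup.mem_subgroupOf] at hn
    rw [Subgroup.mem_center_iff]
    intro g
    apply Subtype.ext
    show (g : Γ) * (n : Γ) = (n : Γ) * (g : Γ)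
    exact (hZcen _ hn _ g.2).symm
  haveI hZn : (Z.subgroupOf P).Normal := by
    refine ⟨fun n hn g => ?_⟩
    have h1 := Subgroup.mem_center_iff.mp (hcenter hn) g
    have h2 : g * n * g⁻¹ = n := by rw [h1, mul_inv_cancel_right]
    rw [h2]
    exact hn
  have hZ'c : Nat.card ↥(Z.subgroupOf P) = p := by
    rw [Nat.card_congr (Subgroup.subgroupOfEquivOfLe hZP).toEquiv, hZc]
  -- the quotient has order `p ^ 2`
  have hQc : Nat.card (↥P ⧸ Z.subgroupOf P) = p ^ 2 := by
    have h1 := Subgroup.card_eq_card_quotient_mul_card_subgroup (Z.subgroupOf P)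
    rw [hPc, hZ'c] at h1
    have h2 : p ^ 2 * p = Nat.card (↥P ⧸ Z.subgroupOf P) * p := by
      rw [← h1]
      ring
    exact (Nat.eq_of_mul_eq_mul_right hp.pos h2).symm
  have hQcomm : ∀ x y : ↥P ⧸ Z.subgroupOf P, x * y = y * x :=
    IsPGroup.commutative_of_card_eq_prime_sq hQc
  -- the quotient is not cyclic
  have hQnc : ¬ IsCyclic (↥P ⧸ Z.subgroupOf P) := by
    intro hcyc
    have hab : ∀ a b : ↥P, a * b = b * a := by
      apply commutative_of_cyclic_center_quotient (QuotientGroup.mk' (Z.subgroupOf P))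
      rw [QuotientGroup.ker_mk']
      exact hcenter
    have hPZ : P ≤ Z := by
      intro a ha
      apply hZeq a ha
      intro b hb
      exact congrArg Subtype.val (hab ⟨a, ha⟩ ⟨b, hb⟩)
    have h1 : Nat.card ↥P ≤ Nat.card ↥Z := Subgroup.card_le_of_le hPZ
    rw [hPc, hZc] at h1
    have h2 : p ^ 1 < p ^ 3 := Nat.pow_lt_pow_right hp.one_lt (by norm_num)
    rw [pow_one] at h2
    exact absurd h1 (Nat.not_le.mpr h2)
  constructor
  · intro a ha
    have hq : (QuotientGroup.mk' (Z.subgroupOf P) ⟨a, ha⟩) ^ p = 1 := by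
      rw [← orderOf_dvd_iff_pow_eq_one]
      have h1 : orderOf (QuotientGroup.mk' (Z.subgroupOf P) ⟨a, ha⟩) ∣ p ^ 2 := by
        rw [← hQc]
        exact orderOf_dvd_natCard _
      obtain ⟨k, hk, hk2⟩ := (Nat.dvd_prime_pow hp).mp h1
      have hk1 : k ≠ 2 := by
        intro h2
        rw [h2, ← hQc] at hk2
        exact hQnc (isCyclic_of_orderOf_eq_card _ hk2)
      have hk' : k ≤ 1 := by omega
      rw [hk2]
      calc p ^ k ∣ p ^ 1 := Nat.pow_dvd_pow p hk'
        _ = p := pow_one p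
    rw [← map_pow, QuotientGroup.mk'_apply, QuotientGroup.eq_one_iff, Subgroup.mem_subgroupOf] at hq
    exact hq
  · intro a ha b hb
    have h1 := hQcomm (QuotientGroup.mk' (Z.subgroupOf P) ⟨a, ha⟩)
      (QuotientGroup.mk' (Z.subgroupOf P) ⟨b, hb⟩)
    have h2 : QuotientGroup.mk' (Z.subgroupOf P)
        ((⟨a, ha⟩ : ↥P) * ⟨b, hb⟩ * (⟨a, ha⟩ : ↥P)⁻¹ * (⟨b, hb⟩ : ↥P)⁻¹) = 1 := by
      rw [map_mul, map_mul, map_mul, map_inv, map_inv, h1, mul_inv_cancel_right, mul_inv_cancel]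
    rw [QuotientGroup.mk'_apply, QuotientGroup.eq_one_iff, Subgroup.mem_subgroupOf] at h2
    exact h2

end Cfsg.Agent.Helper10
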