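import Mathlib

/-! CALL SL2L (helper2, for row S1383): piece G1 (pure). -/

set_option autoImplicit false

namespace Cfsg.Agent.Helper10

open Subgroup

universe u

variable {Γ : Type u} [Group Γ] [Finite Γ]

/-- PIECE G1: `K` acts by conjugation on the `p³ - p` elements of `P ∖ Z` without fixed points
(`k a k⁻¹ = a` forces `a ∈ Z`), so `|K|` divides `p (p² - 1)`; and `|K|` is prime to `p`. -/
theorem sl2l_card_dvd {p : ℕ} (hp : p.Prime) {P Z K : Subgroup Γ} (hPc : Nat.card P = p ^ 3)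
    (hZP : Z ≤ P) (hZc : Nat.card Z = p) (hKn : ∀ k ∈ K, ∀ a ∈ P, k * a * k⁻¹ ∈ P)
    (hKp : (Nat.card K).Coprime p)
    (hfix : ∀ k ∈ K, k ≠ 1 → ∀ a ∈ P, k * a = a * k → a ∈ Z)
    (hKZ : ∀ k ∈ K, ∀ z ∈ Z, k * z = z * k) : Nat.card K ∣ p ^ 2 - 1 := by
  have hS : ∀ k ∈ K, ∀ a ∈ (P : Set Γ) \ (Z : Set Γ), k * a * k⁻¹ ∈ (P : Set Γ) \ (Z : Set Γ) := by
    intro k hk a ha
    refine ⟨hKn k hk a ha.1, fun hz => ha.2 ?_⟩
    have h1 := hKZ k hk _ hz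
    have h2 : k * a * k⁻¹ = a := by
      have h3 : k * (k * a * k⁻¹) = k * a := by
        rw [h1]
        group
      exact mul_left_cancel h3
    rw [h2] at hz
    exact hz
  letI : MulAction ↥K ↥((P : Set Γ) \ (Z : Set Γ)) :=
    { smul := fun k a => ⟨(k : Γ) * (a : Γ) * (k : Γ)⁻¹, hS k k.2 a a.2⟩
      one_smul := fun a => Subtype.ext (by
        show ((1 : ↥K) : Γ) * (a : Γ) * ((1 : ↥K) : Γ)⁻¹ = (a : Γ)
        simp)
      mul_smul := fun k k' a => Subtype.ext (by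
        show ((k * k' : ↥K) : Γ) * (a : Γ) * ((k * k' : ↥K) : Γ)⁻¹
          = (k : Γ) * ((k' : Γ) * (a : Γ) * (k' : Γ)⁻¹) * (k : Γ)⁻¹
        simp [mul_assoc]) }
  have hsmul : ∀ (k : ↥K) (a : ↥((P : Set Γ) \ (Z : Set Γ))),
      ((k • a : ↥((P : Set Γ) \ (Z : Set Γ))) : Γ) = (k : Γ) * (a : Γ) * (k : Γ)⁻¹ :=
    fun _ _ => rfl
  have hfree : ∀ a : ↥((P : Set Γ) \ (Z : Set Γ)), MulAction.stabilizer ↥K a = ⊥ := by
    intro a
    rw [Subgroup.eq_bot_iff_forall]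
    intro k hk
    rw [MulAction.mem_stabilizer_iff] at hk
    by_contra hk1
    have h1 : (k : Γ) * (a : Γ) * (k : Γ)⁻¹ = (a : Γ) := by
      rw [← hsmul, hk]
    have h2 : (k : Γ) * (a : Γ) = (a : Γ) * (k : Γ) := by
      calc (k : Γ) * (a : Γ) = ((k : Γ) * (a : Γ) * (k : Γ)⁻¹) * (k : Γ) := by group
        _ = (a : Γ) * (k : Γ) := by rw [h1]
    exact a.2.2 (hfix k k.2 (fun h => hk1 (Subtype.ext h)) a a.2.1 h2)
  have e := MulAction.selfEquivOrbitsQuotientProd hfree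
  have hdvd : Nat.card ↥K ∣ Nat.card ↥((P : Set Γ) \ (Z : Set Γ)) := by
    rw [Nat.card_congr e, Nat.card_prod]
    exact dvd_mul_left _ _
  have hPn : (P : Set Γ).ncard = p ^ 3 := by
    rw [← _root_.Nat.card_coe_set_eq]
    exact hPc
  have hZn : (Z : Set Γ).ncard = p := by
    rw [← _root_.Nat.card_coe_set_eq]
    exact hZc
  have hScard : Nat.card ↥((P : Set Γ) \ (Z : Set Γ)) = p * (p ^ 2 - 1) := by
    rw [_root_.Nat.card_coe_set_eq, Set.ncard_diff (show (Z : Set Γ) ⊆ (P : Set Γ) from hZP), hPn, hZn,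
      Nat.mul_sub, mul_one]
    congr 1
    ring
  rw [hScard] at hdvd
  exact Nat.Coprime.dvd_of_dvd_mul_left hKp hdvd

end Cfsg.Agent.Helper10
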