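import Mathlib

/-! CALL SL2L (helper2, for row S1383): piece G5 (pure). -/

set_option autoImplicit false

namespace Cfsg.Agent.Helper10

open Subgroup

universe u

variable {Γ : Type u} [Group Γ] [Finite Γ]

/-- PIECE G5 (a line is `⟨d⟩ Z`): `⟨d⟩ ⊔ Z ≤ L` has order `> p` dividing `p²`, so equals `L`; its
elements are `d ^ i * z`. -/
theorem sl2l_line_gen {p : ℕ} (hp : p.Prime) {Z L : Subgroup Γ} (hZL : Z ≤ L)
    (hZc : Nat.card Z = p) (hLc : Nat.card L = p ^ 2)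
    (hZcen : ∀ z ∈ Z, ∀ a ∈ L, z * a = a * z) {d : Γ} (hd : d ∈ L) (hdZ : d ∉ Z) {b : Γ}
    (hb : b ∈ L) : ∃ (i : ℕ) (z : Γ), z ∈ Z ∧ b = d ^ i * z := by
  -- work inside `L`
  haveI hZn : (Z.subgroupOf L).Normal := by
    refine ⟨fun n hn g => ?_⟩
    rw [Subgroup.mem_subgroupOf] at hn ⊢
    have h1 : (n : Γ) * (g : Γ) = (g : Γ) * (n : Γ) := hZcen _ hn _ g.2
    have h2 : ((g * n * g⁻¹ : ↥L) : Γ) = (n : Γ) := by
      show (g : Γ) * (n : Γ) * (g : Γ)⁻¹ = (n : Γ)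
      rw [← h1, mul_inv_cancel_right]
    rw [h2]
    exact hn
  set D : Subgroup ↥L := Subgroup.zpowers (⟨d, hd⟩ : ↥L) with hD
  have hZ'c : Nat.card ↥(Z.subgroupOf L) = p := by
    rw [Nat.card_congr (Subgroup.subgroupOfEquivOfLe hZL).toEquiv, hZc]
  have hlt : Z.subgroupOf L < D ⊔ Z.subgroupOf L := by
    refine lt_of_le_of_ne le_sup_right ?_
    intro heq
    have h1 : (⟨d, hd⟩ : ↥L) ∈ D ⊔ Z.subgroupOf L :=
      (le_sup_left : D ≤ D ⊔ Z.subgroupOf L) (Subgroup.mem_zpowers _)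
    rw [← heq, Subgroup.mem_subgroupOf] at h1
    exact hdZ h1
  have hcardS : Nat.card ↥(D ⊔ Z.subgroupOf L) = p ^ 2 := by
    have h1 : Nat.card ↥(D ⊔ Z.subgroupOf L) ∣ p ^ 2 := by
      rw [← hLc]
      exact Subgroup.card_subgroup_dvd_card _
    obtain ⟨k, hk, hk2⟩ := (Nat.dvd_prime_pow hp).mp h1
    have h2 : p < Nat.card ↥(D ⊔ Z.subgroupOf L) := by
      rw [← hZ'c]
      by_contra h9
      exact hlt.ne (Subgroup.eq_of_le_of_card_ge hlt.le (not_lt.mp h9))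
    rw [hk2] at h2 ⊢
    have h3 : 1 < k := by
      by_contra h4
      have h5 : k ≤ 1 := Nat.le_of_not_lt h4
      have h6 : p ^ k ≤ p ^ 1 := Nat.pow_le_pow_right hp.pos h5
      rw [pow_one] at h6
      exact absurd h2 (Nat.not_lt.mpr h6)
    have h7 : k = 2 := le_antisymm hk h3
    rw [h7]
  have htop : D ⊔ Z.subgroupOf L = ⊤ := by
    apply Subgroup.eq_top_of_card_eq
    rw [hcardS, hLc]
  have hbm : (⟨b, hb⟩ : ↥L) ∈ D ⊔ Z.subgroupOf L := by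
    rw [htop]
    exact Subgroup.mem_top _
  obtain ⟨y, hy, z, hz, hyz⟩ := Subgroup.mem_sup_of_normal_right.mp hbm
  have hy' : y ∈ Submonoid.powers (⟨d, hd⟩ : ↥L) := mem_powers_iff_mem_zpowers.mpr hy
  obtain ⟨i, hi⟩ := (Submonoid.mem_powers_iff _ _).mp hy'
  refine ⟨i, (z : Γ), Subgroup.mem_subgroupOf.mp hz, ?_⟩
  have h1 : ((y * z : ↥L) : Γ) = b := congrArg Subtype.val hyz
  rw [← h1, ← hi]
  rfl

end Cfsg.Agent.Helper10
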