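import Mathlib

/-! CALL SL2L (helper2, for row S1383): piece G6 (pure). -/

set_option autoImplicit false

namespace Cfsg.Agent.Helper10

open Subgroup

universe u

variable {Γ : Type u} [Group Γ] [Finite Γ]

/-- PIECE G6 (bilinearity of the commutator in class 2): with `c = a b a⁻¹ b⁻¹` central,
`a b = c b a`, `a ^ i b = c ^ i b a ^ i`, `a ^ i b ^ j = c ^ (i j) b ^ j a ^ i`; central factors drop. -/
theorem sl2l_bilin {P Z : Subgroup Γ} (hZP : Z ≤ P) (hZcen : ∀ z ∈ Z, ∀ a ∈ P, z * a = a * z)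
    (hcomm : ∀ a ∈ P, ∀ b ∈ P, a * b * a⁻¹ * b⁻¹ ∈ Z) {a b z z' : Γ} (ha : a ∈ P) (hb : b ∈ P)
    (hz : z ∈ Z) (hz' : z' ∈ Z) (i j : ℕ) :
    (a ^ i * z) * (b ^ j * z') * (a ^ i * z)⁻¹ * (b ^ j * z')⁻¹ =
      (a * b * a⁻¹ * b⁻¹) ^ (i * j) := by
  -- multiplicativity in the first variable
  have mulL : ∀ u ∈ P, ∀ u' ∈ P, ∀ v ∈ P,
      u * u' * v * (u * u')⁻¹ * v⁻¹ = (u' * v * u'⁻¹ * v⁻¹) * (u * v * u⁻¹ * v⁻¹) := by
    intro u hu u' hu' v hv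
    have hc := hZcen _ (hcomm u' hu' v hv) u hu
    have h1 : u * u' * v * (u * u')⁻¹ * v⁻¹ = u * (u' * v * u'⁻¹ * v⁻¹) * v * u⁻¹ * v⁻¹ := by
      group
    rw [h1, ← hc]
    group
  -- multiplicativity in the second variable
  have mulR : ∀ u ∈ P, ∀ v ∈ P, ∀ v' ∈ P,
      u * (v * v') * u⁻¹ * (v * v')⁻¹ = (u * v' * u⁻¹ * v'⁻¹) * (u * v * u⁻¹ * v⁻¹) := by
    intro u hu v hv v' hv'
    have hP : u * v * u⁻¹ ∈ P := P.mul_mem (P.mul_mem hu hv) (P.inv_mem hu)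
    have hc := hZcen _ (hcomm u hu v' hv') _ hP
    have h1 : u * (v * v') * u⁻¹ * (v * v')⁻¹ = u * v * u⁻¹ * (u * v' * u⁻¹ * v'⁻¹) * v⁻¹ := by
      group
    rw [h1, ← hc]
    group
  -- powers in the first variable
  have powL : ∀ v ∈ P, ∀ n : ℕ, a ^ n * v * (a ^ n)⁻¹ * v⁻¹ = (a * v * a⁻¹ * v⁻¹) ^ n := by
    intro v hv n
    induction n with
    | zero => simp
    | succ n ih =>
      have h2 := mulL (a ^ n) (P.pow_mem ha n) a ha v hv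
      rw [pow_succ, h2, ih, pow_succ']
  -- powers in the second variable
  have powR : ∀ u ∈ P, ∀ n : ℕ, u * b ^ n * u⁻¹ * (b ^ n)⁻¹ = (u * b * u⁻¹ * b⁻¹) ^ n := by
    intro u hu n
    induction n with
    | zero => simp
    | succ n ih =>
      have h2 := mulR u hu (b ^ n) (P.pow_mem hb n) b hb
      rw [pow_succ, h2, ih, pow_succ']
  -- central factors drop
  have hai : a ^ i ∈ P := P.pow_mem ha i
  have hbj : b ^ j ∈ P := P.pow_mem hb j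
  have c1 : Commute z (b ^ j) := hZcen z hz _ hbj
  have c2 : Commute z z' := hZcen z hz _ (hZP hz')
  have c3 : Commute z' (a ^ i) := hZcen z' hz' _ hai
  have e1 : z * (b ^ j * z') * z⁻¹ = b ^ j * z' := by
    rw [(c1.mul_right c2).eq, mul_inv_cancel_right]
  have e2 : z' * (a ^ i)⁻¹ * z'⁻¹ = (a ^ i)⁻¹ := by
    rw [c3.inv_right.eq, mul_inv_cancel_right]
  have hdrop : (a ^ i * z) * (b ^ j * z') * (a ^ i * z)⁻¹ * (b ^ j * z')⁻¹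
      = a ^ i * b ^ j * (a ^ i)⁻¹ * (b ^ j)⁻¹ := by
    calc (a ^ i * z) * (b ^ j * z') * (a ^ i * z)⁻¹ * (b ^ j * z')⁻¹
        = a ^ i * (z * (b ^ j * z') * z⁻¹) * ((a ^ i)⁻¹ * z'⁻¹) * (b ^ j)⁻¹ := by group
      _ = a ^ i * (b ^ j * z') * ((a ^ i)⁻¹ * z'⁻¹) * (b ^ j)⁻¹ := by rw [e1]
      _ = a ^ i * b ^ j * (z' * (a ^ i)⁻¹ * z'⁻¹) * (b ^ j)⁻¹ := by group
      _ = a ^ i * b ^ j * (a ^ i)⁻¹ * (b ^ j)⁻¹ := by rw [e2]
  rw [hdrop, powR (a ^ i) hai j, powL b hb i, ← pow_mul]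

end Cfsg.Agent.Helper10
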