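import Mathlib
import Cfsg.Agent.Helper71.SODefs

/-!
# Helper10: piece IB of CALL S5843 (helper71) — structure of the unipotent radical elements.

`rad_struct`: a symplectic `ρ` fixing `F^2 ⊗ u` pointwise, moving `F^2 ⊗ u^⊥` by elements of
`F^2 ⊗ u`, and commuting with all root elements `1 ⊗ r_{u,w}` is `(1 ⊗ r_{u,w₀}) (1 + C ⊗ u(Su)ᵀ)`.
-/

set_option autoImplicit false

namespace Cfsg.Agent.Helper10.SOIB

open Matrix Cfsg.Agent.Helper71.T4 Cfsg.Agent.Helper71.SO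
open scoped Kronecker

variable {F : Type*} [Field F] {n : ℕ}

theorem ib_bl_comm (S : Matrix (Fin n) (Fin n) F) (hS : Sᵀ = S) (x y : Fin n → F) :
    bl S x y = bl S y x := by
  unfold bl
  rw [Matrix.dotProduct_mulVec, ← Matrix.mulVec_transpose, hS, dotProduct_comm]

theorem ib_bl_add_left (S : Matrix (Fin n) (Fin n) F) (x y z : Fin n → F) :
    bl S (x + y) z = bl S x z + bl S y z := by
  unfold bl; rw [add_dotProduct]

theorem ib_bl_sub_left (S : Matrix (Fin n) (Fin n) F) (x y z : Fin n → F) :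
    bl S (x - y) z = bl S x z - bl S y z := by
  unfold bl; rw [sub_dotProduct]

theorem ib_bl_smul_left (S : Matrix (Fin n) (Fin n) F) (c : F) (x z : Fin n → F) :
    bl S (c • x) z = c * bl S x z := by
  unfold bl; rw [smul_dotProduct, smul_eq_mul]

theorem ib_bl_add_right (S : Matrix (Fin n) (Fin n) F) (x y z : Fin n → F) :
    bl S x (y + z) = bl S x y + bl S x z := by
  unfold bl; rw [Matrix.mulVec_add, dotProduct_add]

theorem ib_bl_sub_right (S : Matrix (Fin n) (Fin n) F) (x y z : Fin n → F) :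
    bl S x (y - z) = bl S x y - bl S x z := by
  unfold bl; rw [Matrix.mulVec_sub, dotProduct_sub]

theorem ib_bl_smul_right (S : Matrix (Fin n) (Fin n) F) (c : F) (x z : Fin n → F) :
    bl S x (c • z) = c * bl S x z := by
  unfold bl; rw [Matrix.mulVec_smul, dotProduct_smul, smul_eq_mul]

theorem ib_Nuw_mulVec (S : Matrix (Fin n) (Fin n) F) (u w x : Fin n → F) :
    Nuw S u w *ᵥ x = bl S x w • u - bl S x u • w := by
  unfold Nuw bl
  rw [Matrix.sub_mulVec, Matrix.vecMulVec_mulVec, Matrix.vecMulVec_mulVec,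
    dotProduct_comm (S *ᵥ w) x, dotProduct_comm (S *ᵥ u) x]
  ext l
  simp

theorem ib_ruw_mulVec (S : Matrix (Fin n) (Fin n) F) (hS : Sᵀ = S)
    (u w x : Fin n → F) (huu : bl S u u = 0) (huw : bl S u w = 0) :
    ruw S u w *ᵥ x = x + (bl S x w - 2⁻¹ * bl S w w * bl S x u) • u - bl S x u • w := by
  have hwu : bl S w u = 0 := by rw [ib_bl_comm S hS]; exact huw
  unfold ruw
  rw [Matrix.add_mulVec, Matrix.add_mulVec, Matrix.one_mulVec, Matrix.smul_mulVec,
    ← Matrix.mulVec_mulVec, ib_Nuw_mulVec, ib_Nuw_mulVec]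
  rw [ib_bl_sub_left, ib_bl_sub_left, ib_bl_smul_left, ib_bl_smul_left, ib_bl_smul_left,
    ib_bl_smul_left, huu, huw, hwu]
  ext l
  simp only [Pi.add_apply, Pi.sub_apply, Pi.smul_apply, smul_eq_mul]
  ring

theorem ib_one_kron_mulVec (B : Matrix (Fin n) (Fin n) F) (v : Fin 2 × Fin n → F) (i : Fin 2)
    (vi : Fin n → F) (hvi : ∀ l, v (i, l) = vi l) (l : Fin n) :
    (((1 : Matrix (Fin 2) (Fin 2) F) ⊗ₖ B) *ᵥ v) (i, l) = (B *ᵥ vi) l := by
  simp only [Matrix.mulVec, dotProduct, Fintype.sum_prod_type, Matrix.kronecker_apply,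
    Matrix.one_apply]
  rw [Finset.sum_eq_single i]
  · simp [hvi]
  · intro j _ hj
    simp [Ne.symm hj]
  · intro h
    exact absurd (Finset.mem_univ _) h

theorem ib_om_pt (S : Matrix (Fin n) (Fin n) F) (v : Fin 2 × Fin n → F) (b : Fin 2 → F)
    (y : Fin n → F) (v0 v1 : Fin n → F) (h0 : ∀ l, v (0, l) = v0 l) (h1 : ∀ l, v (1, l) = v1 l) :
    v ⬝ᵥ Om S *ᵥ pt b y = b 1 * bl S v0 y - b 0 * bl S v1 y := by
  unfold Om
  rw [kron_mulVec_pt]
  have hJ0 : (J2 F *ᵥ b) 0 = b 1 := by simp [J2, Matrix.mulVec, dotProduct, Fin.sum_univ_two]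
  have hJ1 : (J2 F *ᵥ b) 1 = - b 0 := by simp [J2, Matrix.mulVec, dotProduct, Fin.sum_univ_two]
  simp only [dotProduct, pt, Fintype.sum_prod_type, Fin.sum_univ_two, hJ0, hJ1, bl, h0, h1]
  rw [Finset.mul_sum, Finset.mul_sum, ← Finset.sum_sub_distrib, ← Finset.sum_add_distrib]
  refine Finset.sum_congr rfl fun l _ => ?_
  ring

theorem ib_pt_apply (a : Fin 2 → F) (x : Fin n → F) (i : Fin 2) (l : Fin n) :
    pt a x (i, l) = a i * x l := rfl

theorem ib_om_pt_pt (S : Matrix (Fin n) (Fin n) F) (a b : Fin 2 → F) (x y : Fin n → F) :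
    pt a x ⬝ᵥ Om S *ᵥ pt b y = (a 0 * b 1 - a 1 * b 0) * bl S x y := by
  rw [ib_om_pt S (pt a x) b y (a 0 • x) (a 1 • x) (fun l => rfl) (fun l => rfl),
    ib_bl_smul_left, ib_bl_smul_left]
  ring

theorem ib_sp (S : Matrix (Fin n) (Fin n) F) (ρ : Matrix (Fin 2 × Fin n) (Fin 2 × Fin n) F)
    (hρ : IsSpM S ρ) (x z : Fin 2 × Fin n → F) :
    (ρ *ᵥ x) ⬝ᵥ Om S *ᵥ (ρ *ᵥ z) = x ⬝ᵥ Om S *ᵥ z := by
  unfold IsSpM at hρ
  conv_rhs => rw [← hρ]
  rw [← Matrix.mulVec_mulVec, ← Matrix.mulVec_mulVec, Matrix.dotProduct_mulVec x ρᵀ,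
    Matrix.vecMul_transpose]

theorem ib_pt_add (a : Fin 2 → F) (x y : Fin n → F) : pt a (x + y) = pt a x + pt a y := by
  ext ⟨i, l⟩
  simp [pt, mul_add]

theorem ib_pt_sub (a : Fin 2 → F) (x y : Fin n → F) : pt a (x - y) = pt a x - pt a y := by
  ext ⟨i, l⟩
  simp [pt, mul_sub]

theorem ib_pt_smul (a : Fin 2 → F) (c : F) (x : Fin n → F) : pt a (c • x) = c • pt a x := by
  ext ⟨i, l⟩
  simp only [pt, Pi.smul_apply, smul_eq_mul]
  ring

theorem ib_perp (S : Matrix (Fin n) (Fin n) F) (hdet : S.det ≠ 0) (u x₁ : Fin n → F)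
    (hux : bl S u x₁ = 1) (d : Fin n → F) (hd : ∀ w, bl S u w = 0 → bl S d w = 0) :
    d = bl S d x₁ • u := by
  have key : ∀ y, bl S (d - bl S d x₁ • u) y = 0 := by
    intro y
    have h0 : bl S u (y - bl S u y • x₁) = 0 := by
      rw [ib_bl_sub_right, ib_bl_smul_right, hux]; ring
    have h1 := hd _ h0
    rw [ib_bl_sub_right, ib_bl_smul_right] at h1
    rw [ib_bl_sub_left, ib_bl_smul_left]
    linear_combination h1
  have h3 : (d - bl S d x₁ • u) ᵥ* S = 0 := by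
    ext l
    have h5 : (d - bl S d x₁ • u) ⬝ᵥ S *ᵥ Pi.single l 1 = 0 := key (Pi.single l 1)
    rw [Matrix.dotProduct_mulVec, dotProduct_single_one] at h5
    simpa using h5
  have h4 := Matrix.eq_zero_of_vecMul_eq_zero hdet h3
  exact sub_eq_zero.mp h4

theorem ib_ext (S : Matrix (Fin n) (Fin n) F) (u x₁ : Fin n → F) (hux : bl S u x₁ = 1)
    (M M' : Matrix (Fin 2 × Fin n) (Fin 2 × Fin n) F)
    (hperp : ∀ (a : Fin 2 → F) (y : Fin n → F), bl S u y = 0 → M *ᵥ pt a y = M' *ᵥ pt a y)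
    (hx : ∀ a : Fin 2 → F, M *ᵥ pt a x₁ = M' *ᵥ pt a x₁) : M = M' := by
  have key : ∀ (a : Fin 2 → F) (y : Fin n → F), M *ᵥ pt a y = M' *ᵥ pt a y := by
    intro a y
    have h0 : bl S u (y - bl S u y • x₁) = 0 := by
      rw [ib_bl_sub_right, ib_bl_smul_right, hux]; ring
    have hy : pt a y = pt a (y - bl S u y • x₁) + bl S u y • pt a x₁ := by
      rw [← ib_pt_smul, ← ib_pt_add]
      congr 1
      abel
    rw [hy, Matrix.mulVec_add, Matrix.mulVec_add, Matrix.mulVec_smul, Matrix.mulVec_smul,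
      hperp a _ h0, hx a]
  ext p q
  have h := congrFun (key (Pi.single q.1 1) (Pi.single q.2 1)) p
  have hpt : pt (Pi.single q.1 (1 : F)) (Pi.single q.2 (1 : F)) = Pi.single q 1 := by
    obtain ⟨q1, q2⟩ := q
    ext ⟨i, l⟩
    simp only [pt, Pi.single_apply, Prod.mk.injEq]
    split_ifs <;> simp_all
  rw [hpt, Matrix.mulVec_single_one, Matrix.mulVec_single_one] at h
  exact h

theorem rad_struct (h2 : (2 : F) ≠ 0) (S : Matrix (Fin n) (Fin n) F) (hS : Sᵀ = S)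
    (hdet : S.det ≠ 0) (u : Fin n → F) (hu : u ≠ 0) (huu : bl S u u = 0)
    (ρ : Matrix (Fin 2 × Fin n) (Fin 2 × Fin n) F) (hρ : IsSpM S ρ)
    (h1 : ∀ a : Fin 2 → F, ρ *ᵥ pt a u = pt a u)
    (h2' : ∀ (a : Fin 2 → F) (y : Fin n → F), bl S u y = 0 → ∃ a' : Fin 2 → F,
      ρ *ᵥ pt a y = pt a y + pt a' u)
    (hc : ∀ w : Fin n → F, bl S u w = 0 →
      ρ * ((1 : Matrix (Fin 2) (Fin 2) F) ⊗ₖ ruw S u w)
        = ((1 : Matrix (Fin 2) (Fin 2) F) ⊗ₖ ruw S u w) * ρ) :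
    ∃ w₀ : Fin n → F, bl S u w₀ = 0 ∧ ∃ C : Matrix (Fin 2) (Fin 2) F,
      ρ = ((1 : Matrix (Fin 2) (Fin 2) F) ⊗ₖ ruw S u w₀) * (1 + C ⊗ₖ vecMulVec u (S *ᵥ u)) := by
  -- a vector `x₁` with `bl u x₁ = 1`
  have huS : u ᵥ* S ≠ 0 := fun h => hu (Matrix.eq_zero_of_vecMul_eq_zero hdet h)
  obtain ⟨x₁, hx₁⟩ := exists_dot_eq_one (u ᵥ* S) huS
  have hux : bl S u x₁ = 1 := by
    unfold bl
    rw [Matrix.dotProduct_mulVec]
    exact hx₁
  have hxu : bl S x₁ u = 1 := by rw [ib_bl_comm S hS]; exact hux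
  obtain ⟨l₀, hl₀⟩ : ∃ l, u l ≠ 0 := by
    by_contra h
    push Not at h
    exact hu (funext h)
  -- the components of `ρ (a ⊗ x₁)`
  obtain ⟨p, hp⟩ : ∃ p : (Fin 2 → F) → Fin 2 → Fin n → F,
      ∀ a i l, (ρ *ᵥ pt a x₁) (i, l) = p a i l :=
    ⟨fun a i l => (ρ *ᵥ pt a x₁) (i, l), fun _ _ _ => rfl⟩
  -- `bl (p a i) u = a i`
  have hpu : ∀ (a : Fin 2 → F) (i : Fin 2), bl S (p a i) u = a i := by
    intro a
    have key : ∀ b : Fin 2 → F,
        b 1 * bl S (p a 0) u - b 0 * bl S (p a 1) u = a 0 * b 1 - a 1 * b 0 := by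
      intro b
      have h := ib_sp S ρ hρ (pt a x₁) (pt b u)
      rw [h1 b, ib_om_pt S (ρ *ᵥ pt a x₁) b u (p a 0) (p a 1) (hp a 0) (hp a 1), ib_om_pt_pt,
        hxu, mul_one] at h
      exact h
    refine Fin.forall_fin_two.2 ⟨?_, ?_⟩
    · have := key ![0, 1]
      simpa using this
    · have := key ![1, 0]
      simpa using this
  -- the action on `a ⊗ w`, `w ⟂ u`
  have hΛ : ∀ (w : Fin n → F), bl S u w = 0 → ∀ a : Fin 2 → F,
      ρ *ᵥ pt a w = pt a w + pt (fun i => a i * bl S x₁ w - bl S (p a i) w) u := by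
    intro w huw a
    obtain ⟨a', ha'⟩ := h2' a w huw
    have ha'eq : a' = fun i => a i * bl S x₁ w - bl S (p a i) w := by
      funext i
      have hcw := congrArg (fun M => (M *ᵥ pt a x₁) (i, l₀)) (hc w huw)
      simp only at hcw
      rw [← Matrix.mulVec_mulVec, ← Matrix.mulVec_mulVec, kron_mulVec_pt, Matrix.one_mulVec,
        ib_ruw_mulVec S hS u w x₁ huu huw,
        ib_one_kron_mulVec (ruw S u w) (ρ *ᵥ pt a x₁) i (p a i) (hp a i),
        ib_ruw_mulVec S hS u w (p a i) huu huw, hxu, hpu a i] at hcw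
      rw [ib_pt_sub, ib_pt_add, ib_pt_smul, ib_pt_smul, Matrix.mulVec_sub, Matrix.mulVec_add,
        Matrix.mulVec_smul, Matrix.mulVec_smul, h1 a, ha'] at hcw
      simp only [Pi.add_apply, Pi.sub_apply, Pi.smul_apply, smul_eq_mul, ib_pt_apply, hp] at hcw
      have h3 : (a' i - (a i * bl S x₁ w - bl S (p a i) w)) * u l₀ = 0 := by
        linear_combination -hcw
      rcases mul_eq_zero.1 h3 with h | h
      · exact sub_eq_zero.1 h
      · exact absurd h hl₀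
    rw [ha', ha'eq]
  -- the symplectic pairing of `ρ (a ⊗ x₁)` and `ρ (b ⊗ w)`
  have hsym : ∀ (w : Fin n → F), bl S u w = 0 → ∀ a b : Fin 2 → F,
      b 1 * bl S (p a 0) w - b 0 * bl S (p a 1) w
        - a 0 * bl S (p b 1) w + a 1 * bl S (p b 0) w = 0 := by
    intro w huw a b
    have h := ib_sp S ρ hρ (pt a x₁) (pt b w)
    rw [hΛ w huw b, Matrix.mulVec_add, dotProduct_add,
      ib_om_pt S (ρ *ᵥ pt a x₁) b w (p a 0) (p a 1) (hp a 0) (hp a 1),
      ib_om_pt S (ρ *ᵥ pt a x₁) _ u (p a 0) (p a 1) (hp a 0) (hp a 1),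
      ib_om_pt_pt, hpu a 0, hpu a 1] at h
    linear_combination h
  have q1 : ∀ w : Fin n → F, bl S u w = 0 → bl S (p ![1, 0] 1) w = 0 := by
    intro w huw
    have h := hsym w huw ![1, 0] ![1, 0]
    simp only [Matrix.cons_val_zero, Matrix.cons_val_one] at h
    have h' : (2 : F) * bl S (p ![1, 0] 1) w = 0 := by linear_combination -h
    rcases mul_eq_zero.1 h' with h'' | h''
    · exact absurd h'' h2
    · exact h''
  have q2 : ∀ w : Fin n → F, bl S u w = 0 → bl S (p ![0, 1] 0) w = 0 := by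
    intro w huw
    have h := hsym w huw ![0, 1] ![0, 1]
    simp only [Matrix.cons_val_zero, Matrix.cons_val_one] at h
    have h' : (2 : F) * bl S (p ![0, 1] 0) w = 0 := by linear_combination h
    rcases mul_eq_zero.1 h' with h'' | h''
    · exact absurd h'' h2
    · exact h''
  have q3 : ∀ w : Fin n → F, bl S u w = 0 → bl S (p ![0, 1] 1) w = bl S (p ![1, 0] 0) w := by
    intro w huw
    have h := hsym w huw ![1, 0] ![0, 1]
    simp only [Matrix.cons_val_zero, Matrix.cons_val_one] at h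
    linear_combination -h
  have hpw : ∀ w : Fin n → F, bl S u w = 0 → ∀ (a : Fin 2 → F) (i : Fin 2),
      bl S (p a i) w = a i * bl S (p ![1, 0] 0) w := by
    intro w huw a
    refine Fin.forall_fin_two.2 ⟨?_, ?_⟩
    · have h := hsym w huw a ![0, 1]
      simp only [Matrix.cons_val_zero, Matrix.cons_val_one] at h
      linear_combination h + a 0 * q3 w huw - a 1 * q2 w huw
    · have h := hsym w huw a ![1, 0]
      simp only [Matrix.cons_val_zero, Matrix.cons_val_one] at h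
      linear_combination -h - a 0 * q1 w huw
  -- linearity in `a`
  have hlin : ∀ (a : Fin 2 → F) (i : Fin 2) (l : Fin n),
      p a i l = a 0 * p ![1, 0] i l + a 1 * p ![0, 1] i l := by
    intro a i l
    have hdec : pt a x₁ = a 0 • pt ![1, 0] x₁ + a 1 • pt ![0, 1] x₁ := by
      ext ⟨j, k⟩
      fin_cases j <;> simp [pt]
    rw [← hp a i l, hdec, Matrix.mulVec_add, Matrix.mulVec_smul, Matrix.mulVec_smul]
    simp only [Pi.add_apply, Pi.smul_apply, smul_eq_mul, hp]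
  -- the vector `w₀`
  obtain ⟨w₀, hw₀⟩ : ∃ w₀ : Fin n → F, w₀ = x₁ - p ![1, 0] 0 := ⟨_, rfl⟩
  have huw₀ : bl S u w₀ = 0 := by
    rw [hw₀, ib_bl_sub_right, hux, ib_bl_comm S hS u, hpu ![1, 0] 0]
    simp
  have hP01 := ib_perp S hdet u x₁ hux (p ![0, 1] 0) q2
  have hP10 := ib_perp S hdet u x₁ hux (p ![1, 0] 1) q1
  have hP11 := ib_perp S hdet u x₁ hux (p ![0, 1] 1 - p ![1, 0] 0) (by
    intro w huw
    rw [ib_bl_sub_left, q3 w huw, sub_self])
  have hru : ruw S u w₀ *ᵥ u = u := by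
    rw [ib_ruw_mulVec S hS u w₀ u huu huw₀, huu, huw₀]
    simp
  have hN0 : ∀ y : Fin n → F, vecMulVec u (S *ᵥ u) *ᵥ y = bl S y u • u := by
    intro y
    rw [Matrix.vecMulVec_mulVec, dotProduct_comm]
    ext l
    simp [bl, mul_comm]
  obtain ⟨κ, hκ⟩ : ∃ κ : F, κ = bl S x₁ w₀ - 2⁻¹ * bl S w₀ w₀ := ⟨_, rfl⟩
  refine ⟨w₀, huw₀, !![-κ, bl S (p ![0, 1] 0) x₁; bl S (p ![1, 0] 1) x₁,
    bl S (p ![0, 1] 1 - p ![1, 0] 0) x₁ - κ], ?_⟩
  have hRHS : ∀ (C : Matrix (Fin 2) (Fin 2) F) (a : Fin 2 → F) (y : Fin n → F),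
      (((1 : Matrix (Fin 2) (Fin 2) F) ⊗ₖ ruw S u w₀) * (1 + C ⊗ₖ vecMulVec u (S *ᵥ u)))
        *ᵥ pt a y = pt a (ruw S u w₀ *ᵥ y) + bl S y u • pt (C *ᵥ a) u := by
    intro C a y
    rw [← Matrix.mulVec_mulVec, Matrix.add_mulVec, Matrix.one_mulVec, kron_mulVec_pt C, hN0,
      Matrix.mulVec_add, kron_mulVec_pt, kron_mulVec_pt, Matrix.one_mulVec, Matrix.one_mulVec,
      Matrix.mulVec_smul, hru, ib_pt_smul]
  apply ib_ext S u x₁ hux
  · intro a y huy
    have hyu : bl S y u = 0 := by rw [ib_bl_comm S hS]; exact huy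
    have hyw₀ : bl S y w₀ = bl S x₁ y - bl S (p ![1, 0] 0) y := by
      rw [hw₀, ib_bl_sub_right, ib_bl_comm S hS y x₁, ib_bl_comm S hS y]
    rw [hΛ y huy a, hRHS, ib_ruw_mulVec S hS u w₀ y huu huw₀, hyu, hyw₀]
    ext ⟨i, l⟩
    simp only [Pi.add_apply, Pi.sub_apply, Pi.smul_apply, smul_eq_mul, ib_pt_apply]
    rw [hpw y huy a i]
    ring
  · intro a
    rw [hRHS, ib_ruw_mulVec S hS u w₀ x₁ huu huw₀, hxu]
    ext ⟨i, l⟩
    simp only [Pi.add_apply, Pi.sub_apply, Pi.smul_apply, smul_eq_mul, ib_pt_apply, hp]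
    rw [hlin a i l, mul_one, ← hκ, hw₀]
    have e01 := congrFun hP01 l
    have e10 := congrFun hP10 l
    have e11 := congrFun hP11 l
    simp only [Pi.sub_apply, Pi.smul_apply, smul_eq_mul] at e01 e10 e11
    fin_cases i
    · simp only [Matrix.mulVec, dotProduct, Fin.sum_univ_two, Matrix.of_apply, Matrix.cons_val',
        Matrix.cons_val_zero, Matrix.cons_val_one, Pi.sub_apply, Fin.zero_eta]
      linear_combination a 1 * e01
    · simp only [Matrix.mulVec, dotProduct, Fin.sum_univ_two, Matrix.of_apply, Matrix.cons_val',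
        Matrix.cons_val_zero, Matrix.cons_val_one, Pi.sub_apply, Fin.mk_one]
      linear_combination a 0 * e10 + a 1 * e11

end Cfsg.Agent.Helper10.SOIB
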