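import Mathlib
import Cfsg.Agent.Helper44.SPCDefs

/-!
# CALL S2676, piece CAY (helper10)
-/

set_option autoImplicit false

namespace Cfsg.Agent.Helper10.SPCCAY

open Matrix Cfsg.Agent.Helper21.JCent Cfsg.Agent.Helper44.UC Cfsg.Agent.Helper44.SPC

/-- CAY: Cayley transform: `(1 + N)`-invariant forms are the skew forms of `N (1 + N/2)⁻¹`, and
the centralisers agree. -/
theorem spc_cay {F : Type*} [Field F] {ι : Type*} [Fintype ι] [DecidableEq ι] (h2 : (2 : F) ≠ 0)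
    (N : Matrix ι ι F) (hN : IsUnit (1 + (2 : F)⁻¹ • N).det) :
    Nat.card (Quot (invRel (1 + N)))
      = Nat.card (Quot (skRel (N * (1 + (2 : F)⁻¹ • N)⁻¹))) := by
  classical
  obtain ⟨B, hB⟩ : ∃ B, B = 1 + (2 : F)⁻¹ • N := ⟨_, rfl⟩
  rw [← hB] at hN ⊢
  have hBi : B⁻¹ * B = 1 := Matrix.nonsing_inv_mul B hN
  have hBi' : B * B⁻¹ = 1 := Matrix.mul_nonsing_inv B hN
  have hBN : B * N = N * B := by
    rw [hB, Matrix.add_mul, Matrix.mul_add, Matrix.one_mul, Matrix.mul_one, Matrix.smul_mul,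
      Matrix.mul_smul]
  have hMB : N * B⁻¹ * B = N := by rw [Matrix.mul_assoc, hBi, Matrix.mul_one]
  have hBM : B * (N * B⁻¹) = N := by
    rw [← Matrix.mul_assoc, hBN, Matrix.mul_assoc, hBi', Matrix.mul_one]
  have hBinv : B⁻¹ = 1 - (2 : F)⁻¹ • (N * B⁻¹) := by
    apply Matrix.inv_eq_right_inv
    rw [Matrix.mul_sub, Matrix.mul_one, Matrix.mul_smul, hBM, hB]
    abel
  have h22 : (2 : F)⁻¹ + 2⁻¹ = 1 := by field_simp; norm_num
  have hBT : Bᵀ = 1 + (2 : F)⁻¹ • Nᵀ := by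
    rw [hB, Matrix.transpose_add, Matrix.transpose_one, Matrix.transpose_smul]
  have hE : ∀ ψ : Matrix ι ι F,
      Bᵀ * ((N * B⁻¹)ᵀ * ψ + ψ * (N * B⁻¹)) * B = (1 + N)ᵀ * ψ * (1 + N) - ψ := by
    intro ψ
    have e1 : Bᵀ * (N * B⁻¹)ᵀ = Nᵀ := by rw [← Matrix.transpose_mul, hMB]
    have e2 : Bᵀ * ((N * B⁻¹)ᵀ * ψ + ψ * (N * B⁻¹)) * B = Nᵀ * ψ * B + Bᵀ * ψ * N := by
      rw [Matrix.mul_add, Matrix.add_mul, ← Matrix.mul_assoc, e1, Matrix.mul_assoc Bᵀ (ψ * _) B,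
        Matrix.mul_assoc ψ _ B, hMB, ← Matrix.mul_assoc]
    rw [e2, hBT, hB]
    have h3 : (2 : F)⁻¹ • (Nᵀ * ψ * N) + (2 : F)⁻¹ • (Nᵀ * ψ * N) = Nᵀ * ψ * N := by
      rw [← add_smul, h22, one_smul]
    simp only [Matrix.mul_add, Matrix.add_mul, Matrix.mul_one, Matrix.one_mul, Matrix.smul_mul,
      Matrix.mul_smul, Matrix.transpose_add, Matrix.transpose_one]
    generalize Nᵀ * ψ * N = T at h3 ⊢
    generalize (2 : F)⁻¹ • T = H at h3 ⊢
    rw [← h3]
    abel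
  have ha : ∀ ψ : Matrix ι ι F, IsInvF (1 + N) ψ ↔ IsSkF (N * B⁻¹) ψ := by
    intro ψ
    unfold IsInvF IsSkF
    refine and_congr_right (fun _ => and_congr_right (fun _ => ?_))
    constructor
    · intro h
      have h0 : Bᵀ * ((N * B⁻¹)ᵀ * ψ + ψ * (N * B⁻¹)) * B = 0 := by rw [hE, h, sub_self]
      have hBTi : (Bᵀ)⁻¹ * Bᵀ = 1 :=
        Matrix.nonsing_inv_mul _ (by rwa [Matrix.det_transpose])
      calc (N * B⁻¹)ᵀ * ψ + ψ * (N * B⁻¹)
          = (Bᵀ)⁻¹ * (Bᵀ * ((N * B⁻¹)ᵀ * ψ + ψ * (N * B⁻¹)) * B) * B⁻¹ := by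
            rw [Matrix.mul_assoc Bᵀ _ B, ← Matrix.mul_assoc (Bᵀ)⁻¹ Bᵀ _, hBTi, Matrix.one_mul,
              Matrix.mul_assoc, hBi', Matrix.mul_one]
        _ = 0 := by rw [h0]; simp
    · intro h
      have h5 := hE ψ
      rw [h, Matrix.mul_zero, Matrix.zero_mul] at h5
      exact sub_eq_zero.mp h5.symm
  have hb : ∀ c : Matrix ι ι F,
      c * (1 + N) = (1 + N) * c ↔ c * (N * B⁻¹) = (N * B⁻¹) * c := by
    intro c
    constructor
    · intro h
      have hcN : c * N = N * c := by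
        rw [Matrix.mul_add, Matrix.add_mul, Matrix.mul_one, Matrix.one_mul] at h
        exact add_left_cancel h
      have hcB : c * B = B * c := by
        rw [hB, Matrix.mul_add, Matrix.add_mul, Matrix.mul_one, Matrix.one_mul, Matrix.mul_smul,
          Matrix.smul_mul, hcN]
      have hcBi : c * B⁻¹ = B⁻¹ * c := by
        calc c * B⁻¹ = B⁻¹ * (B * c) * B⁻¹ := by rw [← Matrix.mul_assoc, hBi, Matrix.one_mul]
          _ = B⁻¹ * (c * B) * B⁻¹ := by rw [hcB]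
          _ = B⁻¹ * c := by rw [Matrix.mul_assoc, Matrix.mul_assoc, hBi', Matrix.mul_one]
      rw [← Matrix.mul_assoc, hcN, Matrix.mul_assoc, hcBi, Matrix.mul_assoc]
    · intro h
      have hcBi : c * B⁻¹ = B⁻¹ * c := by
        rw [hBinv, Matrix.mul_sub, Matrix.sub_mul, Matrix.mul_one, Matrix.one_mul,
          Matrix.mul_smul, Matrix.smul_mul, h]
      have hcB : c * B = B * c := by
        calc c * B = B * (B⁻¹ * c) * B := by rw [← Matrix.mul_assoc, hBi', Matrix.one_mul]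
          _ = B * (c * B⁻¹) * B := by rw [hcBi]
          _ = B * c := by rw [Matrix.mul_assoc, Matrix.mul_assoc, hBi, Matrix.mul_one]
      have hcN : c * N = N * c := by
        calc c * N = c * (N * B⁻¹ * B) := by rw [hMB]
          _ = (N * B⁻¹) * c * B := by rw [← Matrix.mul_assoc, h]
          _ = N * B⁻¹ * (B * c) := by rw [Matrix.mul_assoc, hcB]
          _ = N * c := by rw [← Matrix.mul_assoc, hMB]
      rw [Matrix.mul_add, Matrix.add_mul, Matrix.mul_one, Matrix.one_mul, hcN]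
  refine Nat.card_congr (Quot.congr (Equiv.subtypeEquivRight ha) ?_)
  intro ψ₁ ψ₂
  unfold invRel skRel
  simp only [Equiv.subtypeEquivRight_apply_coe]
  exact exists_congr (fun c => and_congr_right (fun _ => and_congr (hb c) Iff.rfl))

end Cfsg.Agent.Helper10.SPCCAY
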