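import Mathlib
import Cfsg.Agent.Helper44.SPCDefs

/-!
# CALL S2676, piece ENUM (helper10, double)
-/

set_option autoImplicit false

namespace Cfsg.Agent.Helper10.SPCENUM

open Matrix Cfsg.Agent.Helper21.JCent Cfsg.Agent.Helper44.UC Cfsg.Agent.Helper44.SPC

/-- ENUM: enumeration of the parts of a partition. -/
theorem spc_enum (n : ℕ) (μ : Nat.Partition n) :
    ∃ (t : ℕ) (d : Fin t → ℕ), (∀ k, 1 ≤ d k) ∧ Multiset.map d Finset.univ.val = μ.parts := by
  refine ⟨μ.parts.toList.length, fun k => μ.parts.toList.get k, ?_, ?_⟩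
  · intro k
    have hmem : μ.parts.toList.get k ∈ μ.parts := Multiset.mem_toList.mp (List.get_mem _ _)
    exact μ.parts_pos hmem
  · rw [Fin.univ_val_map, List.ofFn_get, Multiset.coe_toList]

end Cfsg.Agent.Helper10.SPCENUM
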