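import Mathlib
import Cfsg.Agent.Helper44.SPCDefs

/-!
# CALL S2676, piece FIBRE (helper10, double)
-/

set_option autoImplicit false

namespace Cfsg.Agent.Helper10.SPCFIBRE

open Matrix Cfsg.Agent.Helper21.JCent Cfsg.Agent.Helper44.UC Cfsg.Agent.Helper44.SPC

/-- FIBRE: counting by fibres of a functional relation. -/
theorem spc_fibre {X : Type*} [Finite X] {I : Type*} [DecidableEq I] (S : Finset I)
    (T : X → I → Prop) (hex : ∀ x, ∃ i ∈ S, T x i) (huniq : ∀ x i j, T x i → T x j → i = j) :
    Nat.card X = ∑ i ∈ S, Nat.card {x // T x i} := by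
  classical
  choose f hfS hfT using hex
  have e : X ≃ Σ i : S, {x // T x i} :=
    { toFun := fun x => ⟨⟨f x, hfS x⟩, x, hfT x⟩
      invFun := fun y => y.2.1
      left_inv := fun x => rfl
      right_inv := by
        rintro ⟨⟨i, hi⟩, x, hx⟩
        have hfi : f x = i := huniq x _ _ (hfT x) hx
        subst hfi
        rfl }
  rw [Nat.card_congr e, Nat.card_sigma, ← Finset.sum_coe_sort S (fun i => Nat.card {x // T x i})]

end Cfsg.Agent.Helper10.SPCFIBRE
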