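import Mathlib
import Cfsg.Agent.Helper44.SPCDefs

/-!
# CALL S2676, piece LIFT (helper10)
-/

set_option autoImplicit false

namespace Cfsg.Agent.Helper10.SPCLIFT

open Matrix Cfsg.Agent.Helper21.JCent Cfsg.Agent.Helper44.UC Cfsg.Agent.Helper44.SPC

/-- LIFT: two skew forms `ψ`, `ψ'` of `N` with `ψ⁻¹ ψ'` a square of a polynomial in itself are
congruent under the centraliser of `N`. -/
theorem spc_lift {F : Type*} [Field F] {ι : Type*} [Fintype ι] [DecidableEq ι]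
    (N ψ ψ' : Matrix ι ι F) (hψ : ψᵀ = -ψ) (hψ' : ψ'ᵀ = -ψ') (hu : IsUnit ψ.det)
    (hu' : IsUnit ψ'.det) (hs : Nᵀ * ψ + ψ * N = 0) (hs' : Nᵀ * ψ' + ψ' * N = 0)
    (hsq : ∃ f : Polynomial F, (Polynomial.aeval (ψ⁻¹ * ψ' - 1) f) ^ 2 = 1 + (ψ⁻¹ * ψ' - 1)) :
    ∃ a : Matrix ι ι F, IsUnit a.det ∧ a * N = N * a ∧ ψ' = aᵀ * ψ * a := by
  classical
  obtain ⟨f, hf⟩ := hsq
  have hψi : ψ⁻¹ * ψ = 1 := Matrix.nonsing_inv_mul ψ hu
  have hψi' : ψ * ψ⁻¹ = 1 := Matrix.mul_nonsing_inv ψ hu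
  have hdy : IsUnit (ψ⁻¹ * ψ').det := by
    rw [Matrix.det_mul]
    exact (Matrix.isUnit_nonsing_inv_det ψ hu).mul hu'
  obtain ⟨y, hy⟩ : ∃ y, y = ψ⁻¹ * ψ' := ⟨_, rfl⟩
  rw [← hy] at hf hdy
  have hψy : ψ * y = ψ' := by rw [hy, ← Matrix.mul_assoc, hψi', Matrix.one_mul]
  have h1 : Nᵀ * ψ = -(ψ * N) := eq_neg_of_add_eq_zero_left hs
  have h1' : Nᵀ * ψ' = -(ψ' * N) := eq_neg_of_add_eq_zero_left hs'
  have hyN : y * N = N * y := by
    have h3 : ψ * (y * N) = ψ * (N * y) := by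
      rw [← Matrix.mul_assoc, hψy, ← Matrix.mul_assoc]
      have h4 : ψ * N = -(Nᵀ * ψ) := by rw [h1, neg_neg]
      rw [h4, Matrix.neg_mul, Matrix.mul_assoc, hψy, h1', neg_neg]
    calc y * N = ψ⁻¹ * (ψ * (y * N)) := by rw [← Matrix.mul_assoc, hψi, Matrix.one_mul]
      _ = ψ⁻¹ * (ψ * (N * y)) := by rw [h3]
      _ = N * y := by rw [← Matrix.mul_assoc, hψi, Matrix.one_mul]
  have hyT : yᵀ * ψ = ψ * y := by
    have h := congrArg Matrix.transpose hψy
    rw [Matrix.transpose_mul, hψ, hψ', Matrix.mul_neg, neg_inj] at h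
    rw [h, hψy]
  have hzN : (y - 1) * N = N * (y - 1) := by
    rw [Matrix.sub_mul, Matrix.mul_sub, hyN, Matrix.one_mul, Matrix.mul_one]
  have hzT : (y - 1)ᵀ * ψ = ψ * (y - 1) := by
    rw [Matrix.transpose_sub, Matrix.transpose_one, Matrix.sub_mul, Matrix.mul_sub, hyT,
      Matrix.one_mul, Matrix.mul_one]
  have hpowN : ∀ n : ℕ, (y - 1) ^ n * N = N * (y - 1) ^ n := by
    intro n
    induction n with
    | zero => simp
    | succ n ih => rw [pow_succ, Matrix.mul_assoc, hzN, ← Matrix.mul_assoc, ih, Matrix.mul_assoc]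
  have hpowT : ∀ n : ℕ, ((y - 1) ^ n)ᵀ * ψ = ψ * (y - 1) ^ n := by
    intro n
    induction n with
    | zero => simp
    | succ n ih =>
      rw [pow_succ, Matrix.transpose_mul, Matrix.mul_assoc, ih, ← Matrix.mul_assoc, hzT,
        Matrix.mul_assoc, ← pow_succ, ← pow_succ']
  have key : ∀ g : Polynomial F,
      (Polynomial.aeval (y - 1) g) * N = N * (Polynomial.aeval (y - 1) g) ∧
      (Polynomial.aeval (y - 1) g)ᵀ * ψ = ψ * (Polynomial.aeval (y - 1) g) := by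
    intro g
    induction g using Polynomial.induction_on' with
    | add p q hp hq =>
      rw [map_add]
      exact ⟨by rw [Matrix.add_mul, Matrix.mul_add, hp.1, hq.1],
        by rw [Matrix.transpose_add, Matrix.add_mul, Matrix.mul_add, hp.2, hq.2]⟩
    | monomial n c =>
      rw [Polynomial.aeval_monomial, ← Algebra.smul_def]
      exact ⟨by rw [Matrix.smul_mul, Matrix.mul_smul, hpowN],
        by rw [Matrix.transpose_smul, Matrix.smul_mul, Matrix.mul_smul, hpowT]⟩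
  obtain ⟨hA1, hA2⟩ := key f
  have hy2 : (Polynomial.aeval (y - 1) f) ^ 2 = y := by rw [hf]; abel
  refine ⟨Polynomial.aeval (y - 1) f, ?_, hA1, ?_⟩
  · have h5 : IsUnit ((Polynomial.aeval (y - 1) f).det ^ 2) := by
      rw [← Matrix.det_pow, hy2]; exact hdy
    exact (isUnit_pow_iff two_ne_zero).mp h5
  · rw [hA2, Matrix.mul_assoc, ← pow_two, hy2, hψy]

end Cfsg.Agent.Helper10.SPCLIFT
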