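import Mathlib
import Cfsg.Agent.Helper44.SPCDefs

/-!
# CALL S2676, piece UNIP (helper10, double)
-/

set_option autoImplicit false

namespace Cfsg.Agent.Helper10.SPCUNIP

open Matrix Cfsg.Agent.Helper21.JCent Cfsg.Agent.Helper44.UC Cfsg.Agent.Helper44.SPC

/-- UNIP: a matrix of `p`-power order `p` in characteristic `p` is unipotent. -/
theorem spc_unip {F : Type*} [Field F] {p : ℕ} [Fact p.Prime] [CharP F p] {ι : Type*} [Fintype ι]
    [DecidableEq ι] (A : Matrix ι ι F) (h : A ^ p = 1) : IsNilpotent (A - 1) := by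
  classical
  rcases isEmpty_or_nonempty ι with hι | hι
  · have h0 : A - 1 = 0 := Subsingleton.elim _ _
    rw [h0]
    exact IsNilpotent.zero
  · haveI : CharP (Matrix ι ι F) p := Matrix.charP p
    refine ⟨p, ?_⟩
    rw [sub_pow_char_of_commute (p := p) (h := Commute.one_right A), h, one_pow, sub_self]

end Cfsg.Agent.Helper10.SPCUNIP
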