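import Mathlib
import Cfsg.Agent.Helper3.SU2Defs

set_option autoImplicit false

namespace Cfsg.Agent.Helper10

open Cfsg.Agent.Helper3.SU2 Cfsg.Agent.Helper13

variable {F : Type*} [Field F] [Fintype F] {n : ℕ}

-- === PIECE EALL ===
theorem su2c_eall (hn : 2 ≤ n) {Φ : Set (Fin n → F)}
    (htr : ∀ i j l : Fin n, Edge Φ i j → Edge Φ j l → Edge Φ i l)
    (hadj : ∀ i : Fin n, Edge Φ i (finRotate n i)) : ∀ i j : Fin n, Edge Φ i j := by
  have hcyc : (finRotate n).IsCycle := isCycle_finRotate_of_le hn
  have hmov : ∀ x : Fin n, finRotate n x ≠ x := by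
    intro x
    exact Equiv.Perm.mem_support.mp (by rw [support_finRotate_of_le hn]; exact Finset.mem_univ _)
  have hpow : ∀ (k : ℕ) (i : Fin n), Edge Φ i ((finRotate n ^ (k + 1)) i) := by
    intro k
    induction k with
    | zero => intro i; simpa using hadj i
    | succ k ih =>
      intro i
      have h1 := ih i
      have h2 := hadj ((finRotate n ^ (k + 1)) i)
      have e : (finRotate n ^ (k + 1 + 1)) i = finRotate n ((finRotate n ^ (k + 1)) i) := by
        rw [pow_succ' (finRotate n) (k + 1)]
        rfl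
      rw [e]
      exact htr _ _ _ h1 h2
  intro i j
  obtain ⟨k, hk⟩ := hcyc.exists_pow_eq (hmov (finRotate n i)) (hmov j)
  have e : (finRotate n ^ (k + 1)) i = j := by
    rw [pow_succ]
    exact hk
  rw [← e]
  exact hpow k i

end Cfsg.Agent.Helper10
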