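import Mathlib
import Cfsg.Agent.Helper3.SU2Defs

set_option autoImplicit false

namespace Cfsg.Agent.Helper10

open Cfsg.Agent.Helper3.SU2 Cfsg.Agent.Helper13

variable {F : Type*} [Field F] [Fintype F] {n : ℕ}

-- === PIECE EXTRACT ===
theorem su2c_extract {G : Type*} [Group G] (t g : G) (htg : t * g = g * t) (ht : t ^ 2 = 1)
    (hg : g ^ 3 = 1) : (t * g) ^ 3 = t := by
  have hc : Commute t g := htg
  rw [hc.mul_pow, hg, mul_one, pow_succ, ht, one_mul]

end Cfsg.Agent.Helper10
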