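import Mathlib
import Cfsg.Agent.Helper3.SU2Defs

set_option autoImplicit false

namespace Cfsg.Agent.Helper10

open Cfsg.Agent.Helper3.SU2 Cfsg.Agent.Helper13

variable {F : Type*} [Field F] [Fintype F] {n : ℕ}

-- === PIECE TPOW ===
theorem su2c_tpow {Φ : Set (Fin n → F)} (σ : Equiv.Perm (Fin n))
    (hσ : ∀ v ∈ Φ, (fun i => v (σ.symm i)) ∈ Φ) (k : ℕ) :
    ∀ v ∈ Φ, (fun i => v ((σ ^ k).symm i)) ∈ Φ := by
  induction k with
  | zero =>
    intro v hv
    have e : (fun i => v ((σ ^ 0).symm i)) = v := by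
      funext i
      rw [pow_zero]
      rfl
    rw [e]
    exact hv
  | succ k ih =>
    intro v hv
    have h := ih _ (hσ v hv)
    have e : (fun i => v ((σ ^ (k + 1)).symm i)) =
        fun i => (fun i => v (σ.symm i)) ((σ ^ k).symm i) := by
      funext i
      rw [pow_succ]
      rfl
    rw [e]
    exact h

end Cfsg.Agent.Helper10
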