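import Mathlib
import Cfsg.Prelude.Def_Local
import Cfsg.Agent.Helper24.PLen

/-!
Piece P10 of helper32's CALL for S3797: Frattini argument — if `S O(G)` is normal and all
involutions of `G` are conjugate, then the image of `N_G(S)` in `Aut S` is a solvable group
transitive on the involutions of `S`.
-/

set_option autoImplicit false

universe u

namespace Cfsg.Agent.Helper10

open Cfsg

variable {G : Type u} [Group G] [Finite G]

theorem shaw_frat (hsol : Group.IsSolvable G) (S : Sylow 2 G)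
    (hN : ((S : Subgroup G) ⊔ Cfsg.pPrimeCore 2 G).Normal)
    (hconj : ∀ x y : G, x ≠ 1 → x ^ 2 = 1 → y ≠ 1 → y ^ 2 = 1 → IsConj x y) :
    ∃ Y : Subgroup (MulAut ↥(S : Subgroup G)), Group.IsSolvable Y ∧
      ∀ x y : ↥(S : Subgroup G), x ≠ 1 → x ^ 2 = 1 → y ≠ 1 → y ^ 2 = 1 → ∃ a ∈ Y, a x = y := by
  classical
  have : Fact (Nat.Prime 2) := ⟨Nat.prime_two⟩
  have hfr : Subgroup.normalizer ((S : Subgroup G) : Set G) ⊔
      ((S : Subgroup G) ⊔ pPrimeCore 2 G) = ⊤ :=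
    Sylow.normalizer_sup_eq_top' S le_sup_left
  have hfr2 : Subgroup.normalizer ((S : Subgroup G) : Set G) ⊔ pPrimeCore 2 G = ⊤ := by
    rw [← hfr, ← sup_assoc, sup_of_le_left Subgroup.le_normalizer]
  -- `S ⊓ O = ⊥`
  have hSO : ∀ z : G, z ∈ (S : Subgroup G) → z ∈ pPrimeCore 2 G → z = 1 := by
    intro z hz hzO
    obtain ⟨k, hk⟩ := S.isPGroup' ⟨z, hz⟩
    have hk' : z ^ 2 ^ k = 1 := by
      have h5 : ((⟨z, hz⟩ : ↥(S : Subgroup G)) : G) ^ 2 ^ k = 1 := by
        rw [← Subgroup.coe_pow, hk, Subgroup.coe_one]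
      exact h5
    have h3 : z ^ Nat.card (pPrimeCore 2 G) = 1 := by
      have := pow_card_eq_one' (G := ↥(pPrimeCore 2 G)) (x := ⟨z, hzO⟩)
      exact congrArg Subtype.val this
    have hco : (2 ^ k).Coprime (Nat.card (pPrimeCore 2 G)) :=
      Nat.Coprime.pow_left k (Cfsg.Agent.Helper24.coprime_card_pPrimeCore 2).symm
    have h4 := (pow_gcd_eq_one (a := z)).mpr ⟨hk', h3⟩
    rw [Nat.Coprime.gcd_eq_one hco, pow_one] at h4
    exact h4
  refine ⟨(Subgroup.normalizerMonoidHom (S : Subgroup G)).range, ?_, ?_⟩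
  · exact Group.isSolvable_of_surjective (MonoidHom.rangeRestrict_surjective _)
  · intro x y hx1 hx2 hy1 hy2
    have hx1' : (x : G) ≠ 1 := fun h => hx1 (Subtype.ext h)
    have hy1' : (y : G) ≠ 1 := fun h => hy1 (Subtype.ext h)
    have hx2' : (x : G) ^ 2 = 1 := by
      rw [← Subgroup.coe_pow, hx2, Subgroup.coe_one]
    have hy2' : (y : G) ^ 2 = 1 := by
      rw [← Subgroup.coe_pow, hy2, Subgroup.coe_one]
    obtain ⟨g, hg⟩ := isConj_iff.mp (hconj (x : G) (y : G) hx1' hx2' hy1' hy2')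
    have hgmem : g ∈ Subgroup.normalizer ((S : Subgroup G) : Set G) ⊔ pPrimeCore 2 G := by
      rw [hfr2]; exact Subgroup.mem_top g
    obtain ⟨n, hn, o, ho, rfl⟩ := Subgroup.mem_sup_of_normal_right.mp hgmem
    -- `y' := n⁻¹ y n ∈ S`
    have hninv : n⁻¹ ∈ Subgroup.normalizer ((S : Subgroup G) : Set G) := Subgroup.inv_mem _ hn
    have hy' : n⁻¹ * (y : G) * n ∈ (S : Subgroup G) := by
      have := (Subgroup.mem_normalizer_iff.mp hninv (y : G)).mp y.2
      rwa [inv_inv] at this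
    have hoxo : o * (x : G) * o⁻¹ = n⁻¹ * (y : G) * n := by
      rw [← hg]; group
    have h1 : (x : G)⁻¹ * (n⁻¹ * (y : G) * n) ∈ pPrimeCore 2 G := by
      rw [← hoxo]
      have h2 : (x : G)⁻¹ * (o * (x : G) * o⁻¹) = ((x : G)⁻¹ * o * (x : G)⁻¹⁻¹) * o⁻¹ := by group
      rw [h2]
      exact Subgroup.mul_mem _ (Subgroup.Normal.conj_mem inferInstance o ho _)
        (Subgroup.inv_mem _ ho)
    have h3 : (x : G)⁻¹ * (n⁻¹ * (y : G) * n) ∈ (S : Subgroup G) :=
      Subgroup.mul_mem _ (Subgroup.inv_mem _ x.2) hy'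
    have h4 := hSO _ h3 h1
    have h5 : (y : G) = n * (x : G) * n⁻¹ := by
      have h6 : n⁻¹ * (y : G) * n = (x : G) := by
        have := congrArg (fun t => (x : G) * t) h4
        simpa using this
      rw [← h6]; group
    refine ⟨Subgroup.normalizerMonoidHom (S : Subgroup G) ⟨n, hn⟩, ⟨⟨n, hn⟩, rfl⟩, ?_⟩
    apply Subtype.ext
    rw [h5]
    rfl

end Cfsg.Agent.Helper10
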