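import Mathlib
import Cfsg.Prelude.Def_Local
import Cfsg.Agent.Helper63.PLength
import Cfsg.Agent.Helper24.PLen

/-!
Piece P12 of helper32's CALL for S3797: if every 2-element of `G / O(G)` lies in
`O_2(G / O(G))`, then `S O(G)` is normal in `G` and `G` has 2-length at most 1.
-/

set_option autoImplicit false

universe u

namespace Cfsg.Agent.Helper10

open Cfsg Cfsg.Agent.Helper63.PLen

variable {G : Type u} [Group G] [Finite G]

theorem shaw_plen (S : Sylow 2 G)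
    (h : ∀ x : G ⧸ Cfsg.pPrimeCore 2 G, (∃ k : ℕ, x ^ 2 ^ k = 1) →
      x ∈ Cfsg.pCore 2 (G ⧸ Cfsg.pPrimeCore 2 G)) :
    ((S : Subgroup G) ⊔ Cfsg.pPrimeCore 2 G).Normal ∧ Cfsg.PLengthLE 2 1 G := by
  classical
  have : Fact (Nat.Prime 2) := ⟨Nat.prime_two⟩
  have hp : (2 : ℕ).Prime := Nat.prime_two
  have hf : Function.Surjective (QuotientGroup.mk' (pPrimeCore 2 G)) :=
    QuotientGroup.mk'_surjective _
  have hQbar : ((S.mapSurjective hf : Sylow 2 (G ⧸ pPrimeCore 2 G)) :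
      Subgroup (G ⧸ pPrimeCore 2 G)) = (S : Subgroup G).map (QuotientGroup.mk' _) :=
    Sylow.coe_mapSurjective hf S
  -- the image of `S` lies in `O_2`
  have hle : ((S.mapSurjective hf : Sylow 2 (G ⧸ pPrimeCore 2 G)) :
      Subgroup (G ⧸ pPrimeCore 2 G)) ≤ pCore 2 (G ⧸ pPrimeCore 2 G) := by
    intro x hx
    apply h x
    obtain ⟨k, hk⟩ := (S.mapSurjective hf).isPGroup' ⟨x, hx⟩
    refine ⟨k, ?_⟩
    have h5 : ((⟨x, hx⟩ : ↥((S.mapSurjective hf : Sylow 2 (G ⧸ pPrimeCore 2 G)) :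
        Subgroup (G ⧸ pPrimeCore 2 G))) : G ⧸ pPrimeCore 2 G) ^ 2 ^ k = 1 := by
      rw [← Subgroup.coe_pow, hk, Subgroup.coe_one]
    exact h5
  have hge : pCore 2 (G ⧸ pPrimeCore 2 G) ≤
      ((S.mapSurjective hf : Sylow 2 (G ⧸ pPrimeCore 2 G)) :
        Subgroup (G ⧸ pPrimeCore 2 G)) :=
    Cfsg.Agent.Helper24.normal_isPGroup_le_sylow inferInstance
      (Cfsg.Agent.Helper24.isPGroup_pCore 2 _) _
  have heq : (S : Subgroup G) ⊔ pPrimeCore 2 G =
      (pCore 2 (G ⧸ pPrimeCore 2 G)).comap (QuotientGroup.mk' (pPrimeCore 2 G)) := by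
    apply le_antisymm
    · apply sup_le
      · intro s hs
        rw [Subgroup.mem_comap]
        apply hle
        rw [hQbar]
        exact ⟨s, hs, rfl⟩
      · intro o ho
        rw [Subgroup.mem_comap]
        have h1 : QuotientGroup.mk' (pPrimeCore 2 G) o = 1 :=
          (QuotientGroup.eq_one_iff _).mpr ho
        rw [h1]
        exact Subgroup.one_mem _
    · intro x hx
      rw [Subgroup.mem_comap] at hx
      have h1 := hge hx
      rw [hQbar] at h1
      obtain ⟨s, hs, hsx⟩ := h1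
      have h2 : s⁻¹ * x ∈ pPrimeCore 2 G := by
        rw [← QuotientGroup.eq_one_iff, QuotientGroup.mk_mul, QuotientGroup.mk_inv]
        have h3 : (QuotientGroup.mk s : G ⧸ pPrimeCore 2 G) = QuotientGroup.mk x := hsx
        rw [h3, inv_mul_cancel]
      have h4 : x = s * (s⁻¹ * x) := by group
      rw [h4]
      exact Subgroup.mul_mem _ (Subgroup.mem_sup_left hs) (Subgroup.mem_sup_right h2)
  refine ⟨?_, ?_⟩
  · rw [heq]
    infer_instance
  · have hmain : (Nat.card ((G ⧸ pPrimeCore 2 G) ⧸ pCore 2 (G ⧸ pPrimeCore 2 G))).Coprime 2 := by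
      rw [← Subgroup.index_eq_card]
      have h1 : (pCore 2 (G ⧸ pPrimeCore 2 G)).index ∣
          ((S.mapSurjective hf : Sylow 2 (G ⧸ pPrimeCore 2 G)) :
            Subgroup (G ⧸ pPrimeCore 2 G)).index := Subgroup.index_dvd_of_le hle
      have h2 : ¬ 2 ∣ ((S.mapSurjective hf : Sylow 2 (G ⧸ pPrimeCore 2 G)) :
          Subgroup (G ⧸ pPrimeCore 2 G)).index := (S.mapSurjective hf).not_dvd_index
      rw [Nat.coprime_comm, Nat.Prime.coprime_iff_not_dvd hp]
      intro h3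
      exact h2 (h3.trans h1)
    have h0 : PLengthLE 2 0 ((G ⧸ pPrimeCore 2 G) ⧸ pCore 2 (G ⧸ pPrimeCore 2 G)) :=
      pLengthLE_of_coprime 2 hmain
    have h1 : PLengthLE 2 1 ↥(pCore 2 (G ⧸ pPrimeCore 2 G)) :=
      pLengthLE_one_of_isPGroup 2 (Cfsg.Agent.Helper24.isPGroup_pCore 2 _)
    have h2 := pLengthLE_extension 2 (pCore 2 (G ⧸ pPrimeCore 2 G)) h1 h0
    have h3 : PLengthLE 2 0 ↥(pPrimeCore 2 G) :=
      pLengthLE_of_coprime 2 (Cfsg.Agent.Helper24.coprime_card_pPrimeCore 2)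
    have h4 := pLengthLE_extension 2 (pPrimeCore 2 G) h3 h2
    exact h4

end Cfsg.Agent.Helper10
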