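import Mathlib

/-!
# Piece B1 of CALL S5970 (helper69): a diagonal element of order `n` with a 2-dimensional fixed space
-/

set_option autoImplicit false

namespace Cfsg.Agent.Helper10

theorem sng_bad_split {F : Type*} [Field F] [Fintype F] {n : ℕ} [Fact n.Prime] (hn : 5 ≤ n)
    (hdvd : n ∣ Fintype.card F - 1) :
    ∃ x : Matrix.SpecialLinearGroup (Fin n) F,
      ((x ^ n : Matrix.SpecialLinearGroup (Fin n) F) : Matrix (Fin n) (Fin n) F) = 1 ∧
      (∀ c : F, (x : Matrix (Fin n) (Fin n) F) ≠ c • (1 : Matrix (Fin n) (Fin n) F)) ∧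
      2 ≤ Module.finrank F ↥(LinearMap.ker (Matrix.toLin' (x : Matrix (Fin n) (Fin n) F) - 1)) := by
  classical
  have hnp : n.Prime := Fact.out
  have hcard : Nat.card Fˣ = Fintype.card F - 1 := by
    rw [Nat.card_eq_fintype_card, Fintype.card_units]
  obtain ⟨w, hw⟩ := exists_prime_orderOf_dvd_card' (G := Fˣ) n (by rw [hcard]; exact hdvd)
  have hwn : w ^ n = 1 := by rw [← hw]; exact pow_orderOf_eq_one w
  have hw1 : w ≠ 1 := by
    rintro rfl
    rw [orderOf_one] at hw
    exact hnp.one_lt.ne hw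
  obtain ⟨i0, hi0⟩ : ∃ i : Fin n, i = ⟨0, by omega⟩ := ⟨_, rfl⟩
  obtain ⟨i1, hi1⟩ : ∃ i : Fin n, i = ⟨1, by omega⟩ := ⟨_, rfl⟩
  obtain ⟨i2, hi2⟩ : ∃ i : Fin n, i = ⟨2, by omega⟩ := ⟨_, rfl⟩
  obtain ⟨i3, hi3⟩ : ∃ i : Fin n, i = ⟨3, by omega⟩ := ⟨_, rfl⟩
  have h01 : i0 ≠ i1 := by simp [hi0, hi1, Fin.ext_iff]
  have h02 : i0 ≠ i2 := by simp [hi0, hi2, Fin.ext_iff]
  have h03 : i0 ≠ i3 := by simp [hi0, hi3, Fin.ext_iff]
  have h12 : i1 ≠ i2 := by simp [hi1, hi2, Fin.ext_iff]
  have h13 : i1 ≠ i3 := by simp [hi1, hi3, Fin.ext_iff]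
  have h23 : i2 ≠ i3 := by simp [hi2, hi3, Fin.ext_iff]
  obtain ⟨d, hd⟩ : ∃ d : Fin n → F, d = fun j =>
      if j = i0 then (w : F) else if j = i1 then ((w⁻¹ : Fˣ) : F) else 1 := ⟨_, rfl⟩
  have hd0 : d i0 = (w : F) := by rw [hd]; simp
  have hd1 : d i1 = ((w⁻¹ : Fˣ) : F) := by rw [hd]; simp [h01.symm]
  have hd2 : d i2 = 1 := by rw [hd]; simp [h02.symm, h12.symm]
  have hd3 : d i3 = 1 := by rw [hd]; simp [h03.symm, h13.symm]
  have hdet : (Matrix.diagonal d).det = 1 := by
    rw [Matrix.det_diagonal]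
    have h1 : ∏ j, d j = d i0 * ∏ j ∈ Finset.univ.erase i0, d j :=
      (Finset.mul_prod_erase Finset.univ d (Finset.mem_univ i0)).symm
    have h2 : ∏ j ∈ Finset.univ.erase i0, d j
        = d i1 * ∏ j ∈ (Finset.univ.erase i0).erase i1, d j :=
      (Finset.mul_prod_erase _ d (Finset.mem_erase.mpr ⟨h01.symm, Finset.mem_univ i1⟩)).symm
    have h3 : ∏ j ∈ (Finset.univ.erase i0).erase i1, d j = 1 := by
      apply Finset.prod_eq_one
      intro j hj
      rw [Finset.mem_erase, Finset.mem_erase] at hj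
      rw [hd]
      simp [hj.1, hj.2.1]
    rw [h1, h2, h3, mul_one, hd0, hd1, ← Units.val_mul, mul_inv_cancel, Units.val_one]
  have hdn : ∀ j, d j ^ n = 1 := by
    intro j
    rw [hd]
    by_cases hj0 : j = i0
    · simp only [hj0, if_true]
      rw [← Units.val_pow_eq_pow_val, hwn, Units.val_one]
    · by_cases hj1 : j = i1
      · simp only [hj1, if_neg h01.symm, if_true]
        rw [← Units.val_pow_eq_pow_val, inv_pow, hwn, inv_one, Units.val_one]
      · simp [hj0, hj1]
  obtain ⟨x, hx⟩ : ∃ x : Matrix.SpecialLinearGroup (Fin n) F,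
      (x : Matrix (Fin n) (Fin n) F) = Matrix.diagonal d := ⟨⟨Matrix.diagonal d, hdet⟩, rfl⟩
  refine ⟨x, ?_, ?_, ?_⟩
  · rw [Matrix.SpecialLinearGroup.coe_pow, hx, Matrix.diagonal_pow]
    have : (d ^ n) = fun _ => (1 : F) := by
      funext j
      exact hdn j
    rw [this]
    exact Matrix.diagonal_one
  · intro c hc
    have hc' : Matrix.diagonal d = c • (1 : Matrix (Fin n) (Fin n) F) := by rw [← hx]; exact hc
    have h0 := congrFun (congrFun hc' i0) i0
    have h2 := congrFun (congrFun hc' i2) i2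
    rw [Matrix.diagonal_apply_eq, Matrix.smul_apply, Matrix.one_apply_eq, smul_eq_mul, mul_one] at h0 h2
    rw [hd0] at h0
    rw [hd2] at h2
    apply hw1
    apply Units.ext
    rw [h0, ← h2, Units.val_one]
  · rw [hx]
    have hmem : ∀ i : Fin n, d i = 1 → (Pi.single i 1 : Fin n → F)
        ∈ LinearMap.ker (Matrix.toLin' (Matrix.diagonal d) - 1) := by
      intro i hi
      rw [LinearMap.mem_ker, LinearMap.sub_apply, Matrix.toLin'_apply, Matrix.mulVec_single_one]
      funext j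
      simp only [Pi.sub_apply, Module.End.one_apply, Pi.zero_apply, Matrix.col_apply]
      by_cases hji : j = i
      · subst hji
        simp [hi]
      · simp [hji]
    have hli : LinearIndependent F ![(⟨Pi.single i2 1, hmem i2 hd2⟩ :
        ↥(LinearMap.ker (Matrix.toLin' (Matrix.diagonal d) - 1))), ⟨Pi.single i3 1, hmem i3 hd3⟩] := by
      rw [LinearIndependent.pair_iff]
      intro s t hst
      have h1 := congrArg Subtype.val hst
      simp only [Submodule.coe_add, Submodule.coe_smul, Submodule.coe_zero] at h1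
      have h2 := congrFun h1 i2
      have h3 := congrFun h1 i3
      simp [h23, h23.symm] at h2 h3
      exact ⟨h2, h3⟩
    have := hli.fintype_card_le_finrank
    simpa using this
end Cfsg.Agent.Helper10
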