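import Mathlib
import Cfsg.Prelude.Def_GeometricClasses

/-!
# Piece N of CALL S5970 (helper69): a non-scalar element of the normaliser of a field subalgebra
of prime degree `n` in `GL_n(F)` has eigenspaces of dimension at most one.
-/

set_option autoImplicit false
open Matrix

namespace Cfsg.Agent.Helper10

theorem sng_normalizer_ker {F : Type*} [Field F] [Fintype F] {n : ℕ} (hn : n.Prime)
    (K : Subalgebra F (Matrix (Fin n) (Fin n) F)) (hK : Cfsg.Geo.IsFieldSubalgebra n K)
    (g : GL (Fin n) F) (hg : g ∈ Cfsg.Geo.subalgebraNormalizer K)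
    (hns : ∀ z : F, (g : Matrix (Fin n) (Fin n) F) ≠ z • (1 : Matrix (Fin n) (Fin n) F)) (c : F) :
    Module.finrank F ↥(LinearMap.ker (Matrix.toLin' (g : Matrix (Fin n) (Fin n) F) - c • 1)) ≤ 1 := by
  classical
  obtain ⟨G, hG⟩ : ∃ G : Matrix (Fin n) (Fin n) F, G = (g : Matrix (Fin n) (Fin n) F) := ⟨_, rfl⟩
  obtain ⟨Gi, hGi⟩ : ∃ Gi : Matrix (Fin n) (Fin n) F,
      Gi = ((g⁻¹ : GL (Fin n) F) : Matrix (Fin n) (Fin n) F) := ⟨_, rfl⟩
  have hGGi : G * Gi = 1 := by rw [hG, hGi, ← Units.val_mul, mul_inv_cancel, Units.val_one]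
  have hGiG : Gi * G = 1 := by rw [hG, hGi, ← Units.val_mul, inv_mul_cancel, Units.val_one]
  have hnorm : ∀ k : Matrix (Fin n) (Fin n) F, k ∈ K → G * k * Gi ∈ K := by
    intro k hk
    rw [hG, hGi]
    exact (hg k).mp hk
  rw [← hG]
  have hn2 : 2 ≤ n := hn.two_le
  haveI : Nonempty (Fin n) := ⟨⟨0, by omega⟩⟩
  -- `K` is a domain
  haveI hnt : Nontrivial ↥K := by
    refine ⟨⟨0, 1, fun h => ?_⟩⟩
    have h1 : (0 : Matrix (Fin n) (Fin n) F) = 1 := congrArg Subtype.val h
    exact zero_ne_one h1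
  have hinv' : ∀ x ∈ K, x ≠ 0 → ∃ y ∈ K, x * y = 1 ∧ y * x = 1 := by
    intro x hx hx0
    obtain ⟨y, hy, hxy⟩ := hK.inv x hx hx0
    exact ⟨y, hy, hxy, by rw [hK.comm y hy x hx]; exact hxy⟩
  haveI hnzd : NoZeroDivisors ↥K := by
    refine ⟨fun {a b} hab => ?_⟩
    by_cases ha : a = 0
    · exact Or.inl ha
    · right
      have ha' : (a : Matrix (Fin n) (Fin n) F) ≠ 0 := fun h => ha (Subtype.ext h)
      obtain ⟨y, hy, -, hya⟩ := hinv' a.1 a.2 ha'
      have hab' : (a : Matrix (Fin n) (Fin n) F) * (b : Matrix (Fin n) (Fin n) F) = 0 :=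
        congrArg Subtype.val hab
      apply Subtype.ext
      show (b : Matrix (Fin n) (Fin n) F) = 0
      calc (b : Matrix (Fin n) (Fin n) F) = (y * a) * b := by rw [hya, one_mul]
        _ = y * (a * b) := by rw [mul_assoc]
        _ = 0 := by rw [hab', mul_zero]
  haveI hdom : IsDomain ↥K := NoZeroDivisors.to_isDomain _
  have hsimple : IsSimpleOrder (Subalgebra F ↥K) :=
    Subalgebra.isSimpleOrder_of_finrank_prime F ↥K (by rw [hK.finrank_eq]; exact hn)
  -- the centraliser of `G` in `K`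
  let L : Subalgebra F ↥K :=
    { carrier := {k | G * (k : Matrix (Fin n) (Fin n) F) = (k : Matrix (Fin n) (Fin n) F) * G}
      mul_mem' := by
        intro a b ha hb
        show G * ((a : Matrix (Fin n) (Fin n) F) * (b : Matrix (Fin n) (Fin n) F))
          = (a : Matrix (Fin n) (Fin n) F) * (b : Matrix (Fin n) (Fin n) F) * G
        have ha' : G * (a : Matrix (Fin n) (Fin n) F) = (a : Matrix (Fin n) (Fin n) F) * G := ha
        have hb' : G * (b : Matrix (Fin n) (Fin n) F) = (b : Matrix (Fin n) (Fin n) F) * G := hb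
        rw [← mul_assoc, ha', mul_assoc, hb', mul_assoc]
      add_mem' := by
        intro a b ha hb
        show G * ((a : Matrix (Fin n) (Fin n) F) + (b : Matrix (Fin n) (Fin n) F))
          = ((a : Matrix (Fin n) (Fin n) F) + (b : Matrix (Fin n) (Fin n) F)) * G
        have ha' : G * (a : Matrix (Fin n) (Fin n) F) = (a : Matrix (Fin n) (Fin n) F) * G := ha
        have hb' : G * (b : Matrix (Fin n) (Fin n) F) = (b : Matrix (Fin n) (Fin n) F) * G := hb
        rw [mul_add, add_mul, ha', hb']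
      algebraMap_mem' := by
        intro a
        show G * (algebraMap F (Matrix (Fin n) (Fin n) F) a)
          = (algebraMap F (Matrix (Fin n) (Fin n) F) a) * G
        rw [Algebra.algebraMap_eq_smul_one, Matrix.mul_smul, Matrix.smul_mul, mul_one, one_mul] }
  have hLmem : ∀ k : ↥K, k ∈ L ↔
      G * (k : Matrix (Fin n) (Fin n) F) = (k : Matrix (Fin n) (Fin n) F) * G := fun k => Iff.rfl
  by_cases hker : LinearMap.ker (Matrix.toLin' G - c • 1) = ⊥
  · rw [hker, finrank_bot]
    exact Nat.zero_le 1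
  obtain ⟨v, hvker, hv0⟩ := (Submodule.ne_bot_iff _).mp hker
  have hkermem : ∀ w : Fin n → F, w ∈ LinearMap.ker (Matrix.toLin' G - c • 1) ↔ G *ᵥ w = c • w := by
    intro w
    rw [LinearMap.mem_ker, LinearMap.sub_apply, Matrix.toLin'_apply, LinearMap.smul_apply,
      Module.End.one_apply, sub_eq_zero]
  have hGv : G *ᵥ v = c • v := (hkermem v).mp hvker
  have hc0 : c ≠ 0 := by
    rintro rfl
    rw [zero_smul] at hGv
    apply hv0
    have h1 : Gi *ᵥ (G *ᵥ v) = v := by rw [Matrix.mulVec_mulVec, hGiG, Matrix.one_mulVec]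
    rw [hGv, Matrix.mulVec_zero] at h1
    exact h1.symm
  -- `k ↦ k v` is injective on `K`
  have hinj : ∀ k ∈ K, k *ᵥ v = 0 → k = 0 := by
    intro k hk hkv
    by_contra hk0
    obtain ⟨y, hy, -, hyk⟩ := hinv' k hk hk0
    apply hv0
    have h1 : y *ᵥ (k *ᵥ v) = v := by rw [Matrix.mulVec_mulVec, hyk, Matrix.one_mulVec]
    rw [hkv, Matrix.mulVec_zero] at h1
    exact h1.symm
  -- and surjective
  let φ : ↥K →ₗ[F] (Fin n → F) :=
    { toFun := fun k => (k : Matrix (Fin n) (Fin n) F) *ᵥ v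
      map_add' := fun a b => by
        show ((a : Matrix (Fin n) (Fin n) F) + (b : Matrix (Fin n) (Fin n) F)) *ᵥ v = _
        rw [Matrix.add_mulVec]
      map_smul' := fun a k => by
        show (a • (k : Matrix (Fin n) (Fin n) F)) *ᵥ v = _
        rw [Matrix.smul_mulVec]
        rfl }
  have hφinj : Function.Injective φ := by
    rw [← LinearMap.ker_eq_bot, LinearMap.ker_eq_bot']
    intro k hk
    exact Subtype.ext (hinj k.1 k.2 hk)
  have hφsurj : Function.Surjective φ := by
    have hfr : Module.finrank F ↥K = Module.finrank F (Fin n → F) := by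
      rw [hK.finrank_eq, Module.finrank_fintype_fun_eq_card, Fintype.card_fin]
    haveI : FiniteDimensional F ↥K := Module.finite_of_finrank_pos (by rw [hK.finrank_eq]; exact hn.pos)
    exact (LinearMap.injective_iff_surjective_of_finrank_eq_finrank hfr).mp hφinj
  have hsurj : ∀ w : Fin n → F, ∃ k ∈ K, k *ᵥ v = w := by
    intro w
    obtain ⟨k, hk⟩ := hφsurj w
    exact ⟨k.1, k.2, hk⟩
  rcases hsimple.eq_bot_or_eq_top L with hL | hL
  · -- `L = ⊥`: the eigenspace is the line through `v`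
    apply finrank_le_one (⟨v, hvker⟩ : ↥(LinearMap.ker (Matrix.toLin' G - c • 1)))
    rintro ⟨w, hw⟩
    have hGw : G *ᵥ w = c • w := (hkermem w).mp hw
    obtain ⟨k, hk, rfl⟩ := hsurj w
    have hk' : G * k * Gi ∈ K := hnorm k hk
    have h1 : G *ᵥ (k *ᵥ v) = c • ((G * k * Gi) *ᵥ v) := by
      have h2 : G *ᵥ (k *ᵥ v) = (G * k * Gi) *ᵥ (G *ᵥ v) := by
        rw [Matrix.mulVec_mulVec, Matrix.mulVec_mulVec, mul_assoc, mul_assoc, hGiG, mul_one]
      rw [h2, hGv, Matrix.mulVec_smul]
    rw [h1] at hGw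
    have h3 : (G * k * Gi) *ᵥ v = k *ᵥ v := by
      have h4 := congrArg (fun x => c⁻¹ • x) hGw
      simp only [smul_smul, inv_mul_cancel₀ hc0, one_smul] at h4
      exact h4
    have h5 : G * k * Gi - k = 0 := by
      apply hinj _ (K.sub_mem hk' hk)
      rw [Matrix.sub_mulVec, h3, sub_self]
    have h6 : G * k = k * G := by
      have h7 : G * k * Gi = k := sub_eq_zero.mp h5
      calc G * k = G * k * (Gi * G) := by rw [hGiG, mul_one]
        _ = (G * k * Gi) * G := by rw [mul_assoc, mul_assoc, mul_assoc]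
        _ = k * G := by rw [h7]
    have hkL : (⟨k, hk⟩ : ↥K) ∈ L := (hLmem _).mpr h6
    rw [hL, Algebra.mem_bot] at hkL
    obtain ⟨a, ha⟩ := hkL
    have ha' : k = a • (1 : Matrix (Fin n) (Fin n) F) := by
      have h8 := congrArg Subtype.val ha
      rw [← Algebra.algebraMap_eq_smul_one]
      exact h8.symm
    refine ⟨a, ?_⟩
    apply Subtype.ext
    show a • v = k *ᵥ v
    rw [ha', Matrix.smul_mulVec, Matrix.one_mulVec]
  · -- `L = ⊤`: `G` is scalar
    exfalso
    apply hns c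
    rw [← hG]
    apply Matrix.toLin'.injective
    apply LinearMap.ext
    intro w
    obtain ⟨k, hk, rfl⟩ := hsurj w
    have hkL : (⟨k, hk⟩ : ↥K) ∈ L := by rw [hL]; exact Algebra.mem_top
    have h6 : G * k = k * G := (hLmem _).mp hkL
    rw [Matrix.toLin'_apply, Matrix.toLin'_apply, Matrix.mulVec_mulVec, h6, ← Matrix.mulVec_mulVec,
      hGv, Matrix.mulVec_smul, Matrix.smul_mulVec, Matrix.one_mulVec]

end Cfsg.Agent.Helper10
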