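import Cfsg.Agent.Helper96.Sp4Q3
import Cfsg.Agent.Helper97.OSubfield

/-!
# Piece T of CALL S5787 (helper96): transport of the `C6` data along conjugation by `P`
-/

set_option autoImplicit false
open Cfsg Cfsg.Geo Matrix Cfsg.Agent.Helper96.Q3

namespace Cfsg.Agent.Helper10

variable {F : Type*} [Field F]

/-- A group isomorphism transports "characteristic abelian subgroups are cyclic". -/
theorem sp4q3_char_cyclic_of_equiv {G H : Type*} [Group G] [Group H] (e : G ≃* H)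
    (hchar : ∀ A : Subgroup G, A.Characteristic → IsMulCommutative A → IsCyclic A)
    (A : Subgroup H) (hA : A.Characteristic) (hAc : IsMulCommutative A) : IsCyclic A := by
  have hchar0 : (A.comap e.toMonoidHom).Characteristic := by
    rw [Subgroup.characteristic_iff_comap_eq]
    intro φ
    have h1 := hA.fixed (e.symm.trans (φ.trans e))
    ext x
    constructor
    · intro hx
      have hx' : e (φ x) ∈ A := hx
      have h2 : e x ∈ A.comap (e.symm.trans (φ.trans e)).toMonoidHom := by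
        show e (φ (e.symm (e x))) ∈ A
        rw [MulEquiv.symm_apply_apply]
        exact hx'
      rw [h1] at h2
      exact h2
    · intro hx
      have hx' : e x ∈ A := hx
      have h2 : e x ∈ A.comap (e.symm.trans (φ.trans e)).toMonoidHom := by rw [h1]; exact hx'
      have h3 : e (φ (e.symm (e x))) ∈ A := h2
      rw [MulEquiv.symm_apply_apply] at h3
      exact h3
  have hcomm0 : IsMulCommutative (A.comap e.toMonoidHom) := by
    refine ⟨⟨fun a b => ?_⟩⟩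
    apply Subtype.ext
    apply e.injective
    have ha : e (a : G) ∈ A := a.2
    have hb : e (b : G) ∈ A := b.2
    have h1 := hAc.is_comm.comm (⟨e (a : G), ha⟩ : A) ⟨e (b : G), hb⟩
    have h2 := congrArg Subtype.val h1
    simp only [Subgroup.coe_mul] at h2
    simp only [Subgroup.coe_mul, map_mul]
    exact h2
  haveI hcyc : IsCyclic (A.comap e.toMonoidHom) := hchar _ hchar0 hcomm0
  exact isCyclic_of_surjective (e.toMonoidHom.subgroupComap A)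
    (e.toMonoidHom.subgroupComap_surjective_of_surjective A e.surjective)

/-- **Piece T of CALL S5787.** -/
theorem conj_pkg (P : GL (Fin 2 ⊕ Fin 2) F) (hP : P ∈ spGL 2 F) (R : Subgroup (GL (Fin 2 ⊕ Fin 2) F))
    (hsp : R ≤ spGL 2 F)
    (hsq : ∀ x ∈ R, (x : Matrix (Fin 2 ⊕ Fin 2) (Fin 2 ⊕ Fin 2) F) * (x : Matrix _ _ F) = 1 ∨
      (x : Matrix (Fin 2 ⊕ Fin 2) (Fin 2 ⊕ Fin 2) F) * (x : Matrix _ _ F) = -1)
    (hcl : ∀ a ∈ R, ∀ b ∈ R, a * b * a⁻¹ * b⁻¹ ∈ scalars (Fin 2 ⊕ Fin 2) F)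
    (habs : ActsAbsolutelyIrreducibly (matrixSet R))
    (hcard : Nat.card R = 32)
    (hchar : ∀ A : Subgroup R, A.Characteristic → IsMulCommutative A → IsCyclic A) :
    R.map (MulAut.conj P).toMonoidHom ≤ spGL 2 F ∧
    (∀ x ∈ R.map (MulAut.conj P).toMonoidHom,
      (x : Matrix (Fin 2 ⊕ Fin 2) (Fin 2 ⊕ Fin 2) F) * (x : Matrix _ _ F) = 1 ∨
      (x : Matrix (Fin 2 ⊕ Fin 2) (Fin 2 ⊕ Fin 2) F) * (x : Matrix _ _ F) = -1) ∧
    (∀ a ∈ R.map (MulAut.conj P).toMonoidHom, ∀ b ∈ R.map (MulAut.conj P).toMonoidHom,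
      a * b * a⁻¹ * b⁻¹ ∈ scalars (Fin 2 ⊕ Fin 2) F) ∧
    ActsAbsolutelyIrreducibly (matrixSet (R.map (MulAut.conj P).toMonoidHom)) ∧
    Nat.card (R.map (MulAut.conj P).toMonoidHom) = 32 ∧
    (∀ A : Subgroup (R.map (MulAut.conj P).toMonoidHom), A.Characteristic → IsMulCommutative A →
      IsCyclic A) := by
  have hmem : ∀ x, x ∈ R.map (MulAut.conj P).toMonoidHom ↔ ∃ y ∈ R, P * y * P⁻¹ = x := by
    intro x
    rw [Subgroup.mem_map]
    rfl
  have hmem' : ∀ y ∈ R, P * y * P⁻¹ ∈ R.map (MulAut.conj P).toMonoidHom :=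
    fun y hy => (hmem _).mpr ⟨y, hy, rfl⟩
  refine ⟨?_, ?_, ?_, ⟨?_, ?_⟩, ?_, ?_⟩
  · intro x hx
    obtain ⟨y, hy, rfl⟩ := (hmem x).mp hx
    exact (spGL 2 F).mul_mem ((spGL 2 F).mul_mem hP (hsp hy)) ((spGL 2 F).inv_mem hP)
  · intro x hx
    obtain ⟨y, hy, rfl⟩ := (hmem x).mp hx
    have h1 : (P * y * P⁻¹) * (P * y * P⁻¹) = P * (y * y) * P⁻¹ := by group
    have h2 : ((P * y * P⁻¹ : GL (Fin 2 ⊕ Fin 2) F) : Matrix (Fin 2 ⊕ Fin 2) (Fin 2 ⊕ Fin 2) F)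
        * ((P * y * P⁻¹ : GL (Fin 2 ⊕ Fin 2) F) : Matrix (Fin 2 ⊕ Fin 2) (Fin 2 ⊕ Fin 2) F)
        = (P : Matrix (Fin 2 ⊕ Fin 2) (Fin 2 ⊕ Fin 2) F)
          * ((y : Matrix (Fin 2 ⊕ Fin 2) (Fin 2 ⊕ Fin 2) F) * (y : Matrix _ _ F))
          * ((P⁻¹ : GL (Fin 2 ⊕ Fin 2) F) : Matrix (Fin 2 ⊕ Fin 2) (Fin 2 ⊕ Fin 2) F) := by
      rw [← Units.val_mul, h1, Units.val_mul, Units.val_mul, Units.val_mul]
    rw [h2]
    rcases hsq y hy with h | h
    · left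
      rw [h, mul_one, ← Units.val_mul, mul_inv_cancel, Units.val_one]
    · right
      rw [h, mul_neg, mul_one, neg_mul, ← Units.val_mul, mul_inv_cancel, Units.val_one]
  · intro a ha b hb
    obtain ⟨a₀, ha₀, rfl⟩ := (hmem a).mp ha
    obtain ⟨b₀, hb₀, rfl⟩ := (hmem b).mp hb
    have hz := hcl a₀ ha₀ b₀ hb₀
    have h1 : P * a₀ * P⁻¹ * (P * b₀ * P⁻¹) * (P * a₀ * P⁻¹)⁻¹ * (P * b₀ * P⁻¹)⁻¹
        = P * (a₀ * b₀ * a₀⁻¹ * b₀⁻¹) * P⁻¹ := by group
    have h2 : P * (a₀ * b₀ * a₀⁻¹ * b₀⁻¹) * P⁻¹ = a₀ * b₀ * a₀⁻¹ * b₀⁻¹ := by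
      rw [← Cfsg.Agent.Helper97.Gen.scalars_comm hz P, mul_assoc, mul_inv_cancel, mul_one]
    rw [h1, h2]
    exact hz
  · -- irreducibility
    intro W hW
    have hW' : ∀ s ∈ matrixSet R,
        (W.comap (Matrix.toLin' (P : Matrix (Fin 2 ⊕ Fin 2) (Fin 2 ⊕ Fin 2) F))).map (Matrix.toLin' s)
          ≤ W.comap (Matrix.toLin' (P : Matrix (Fin 2 ⊕ Fin 2) (Fin 2 ⊕ Fin 2) F)) := by
      rintro _ ⟨y, hy, rfl⟩ _ ⟨v, hv, rfl⟩
      have hv' : (P : Matrix (Fin 2 ⊕ Fin 2) (Fin 2 ⊕ Fin 2) F) *ᵥ v ∈ W := by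
        have := Submodule.mem_comap.mp hv
        rwa [Matrix.toLin'_apply] at this
      rw [Submodule.mem_comap, Matrix.toLin'_apply, Matrix.toLin'_apply]
      have h1 := hW _ ⟨P * y * P⁻¹, hmem' y hy, rfl⟩
      have h2 : Matrix.toLin' ((P * y * P⁻¹ : GL (Fin 2 ⊕ Fin 2) F) :
          Matrix (Fin 2 ⊕ Fin 2) (Fin 2 ⊕ Fin 2) F)
          ((P : Matrix (Fin 2 ⊕ Fin 2) (Fin 2 ⊕ Fin 2) F) *ᵥ v) ∈ W :=
        h1 ⟨_, hv', rfl⟩
      rw [Matrix.toLin'_apply, Units.val_mul, Units.val_mul, Matrix.mulVec_mulVec, mul_assoc,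
        mul_assoc, ← Units.val_mul P⁻¹ P, inv_mul_cancel, Units.val_one, mul_one,
        ← Matrix.mulVec_mulVec] at h2
      exact h2
    rcases habs.1 _ hW' with h | h
    · left
      rw [eq_bot_iff]
      intro w hw
      have h1 : ((P⁻¹ : GL (Fin 2 ⊕ Fin 2) F) : Matrix (Fin 2 ⊕ Fin 2) (Fin 2 ⊕ Fin 2) F) *ᵥ w
          ∈ W.comap (Matrix.toLin' (P : Matrix (Fin 2 ⊕ Fin 2) (Fin 2 ⊕ Fin 2) F)) := by
        rw [Submodule.mem_comap, Matrix.toLin'_apply, Cfsg.Agent.Helper97.Gen.mulVec_cancel_inv]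
        exact hw
      rw [h, Submodule.mem_bot] at h1
      have h2 := congrArg (fun x => (P : Matrix (Fin 2 ⊕ Fin 2) (Fin 2 ⊕ Fin 2) F) *ᵥ x) h1
      simp only [Cfsg.Agent.Helper97.Gen.mulVec_cancel_inv, Matrix.mulVec_zero] at h2
      rw [Submodule.mem_bot]
      exact h2
    · right
      rw [eq_top_iff]
      intro w _
      have h1 : ((P⁻¹ : GL (Fin 2 ⊕ Fin 2) F) : Matrix (Fin 2 ⊕ Fin 2) (Fin 2 ⊕ Fin 2) F) *ᵥ w
          ∈ W.comap (Matrix.toLin' (P : Matrix (Fin 2 ⊕ Fin 2) (Fin 2 ⊕ Fin 2) F)) := by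
        rw [h]; exact Submodule.mem_top
      rw [Submodule.mem_comap, Matrix.toLin'_apply, Cfsg.Agent.Helper97.Gen.mulVec_cancel_inv] at h1
      exact h1
  · -- commutant
    intro M hM
    exact Cfsg.Agent.Helper97.Gen.commutant_conj R habs P M
      (fun g hg => hM _ ⟨P * g * P⁻¹, hmem' g hg, rfl⟩)
  · rw [← hcard]
    exact Nat.card_congr
      (R.equivMapOfInjective (MulAut.conj P).toMonoidHom (MulAut.conj P).injective).toEquiv.symm
  · intro A hA hAc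
    exact sp4q3_char_cyclic_of_equiv
      (R.equivMapOfInjective (MulAut.conj P).toMonoidHom (MulAut.conj P).injective) hchar A hA hAc

end Cfsg.Agent.Helper10
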