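import Mathlib
import Cfsg.Agent.Helper45.StDDefs

/-!
# Helper10: piece CENTD of CALL S2548 (helper45): the centre of `Ω(Q)` lies in the Borel subgroup.
-/

set_option autoImplicit false

universe u

namespace Cfsg.Agent.Helper10.StCENTD

open Cfsg Cfsg.Agent.Helper13 Cfsg.Agent.Helper95.SpBN Cfsg.Agent.Helper45 Cfsg.Agent.Helper45.St
open Cfsg.Agent.Helper45.StD

variable {ι : Type} [Fintype ι] [DecidableEq ι] {F : Type u} [Field F]
  {Q : QuadraticForm F (ι → F)} {m : ℕ} {L R : Fin m → ι}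

-- === PIECE CENTD ===
theorem p_CENTD [Fintype F] (hQ : (QuadraticMap.polarBilin Q).Nondegenerate)
    (H : HypPairs Q m L R) (hm : 3 ≤ m) (z : ↥(Omega F ⇑Q))
    (hz : z ∈ Subgroup.center ↥(Omega F ⇑Q)) :
    (z : ↥(isometryGroup F ⇑Q)) ∈ borelO Q L := by
  have hcard : 2 ≤ Fintype.card ι := by
    have h1 := Fintype.card_le_of_injective L H.hL
    rw [Fintype.card_fin] at h1
    omega
  rcases H.center_cases hm hQ hcard z hz with h | h
  · rw [h]
    exact Subgroup.one_mem _
  · rw [h]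
    have hneg : ∀ (k : ℕ) (x : ι → F), FlagP L k x → FlagP L k (-x) := by
      intro k x hx c hc
      apply hx c
      intro h0
      apply hc
      rw [Pi.neg_apply, h0, neg_zero]
    change ∀ (k : ℕ) (x : ι → F), FlagP L k x →
      FlagP L k (mv ⇑Q (negO Q) x) ∧ FlagP L k (mv ⇑Q (negO Q)⁻¹ x)
    intro k x hx
    refine ⟨?_, ?_⟩
    · rw [mv_negO]
      exact hneg k x hx
    · have e : mv ⇑Q (negO Q)⁻¹ x = -x := by
        have h1 := mv_inv_cancel' Q (negO Q) (-x)
        rw [mv_negO, neg_neg] at h1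
        exact h1
      rw [e]
      exact hneg k x hx

end Cfsg.Agent.Helper10.StCENTD
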