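import Mathlib
import Cfsg.Agent.Helper45.StDDefs

/-!
# Helper10: piece CNED of CALL S2548 (helper45): `s x(1) s ∉ B` for the last node of type `D`.
-/

set_option autoImplicit false
set_option linter.unusedSimpArgs false

universe u

namespace Cfsg.Agent.Helper10.StCNED

open Cfsg Cfsg.Agent.Helper13 Cfsg.Agent.Helper95.SpBN Cfsg.Agent.Helper45 Cfsg.Agent.Helper45.St
open Cfsg.Agent.Helper45.StD

variable {ι : Type} [Fintype ι] [DecidableEq ι] {F : Type u} [Field F]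
  {Q : QuadraticForm F (ι → F)} {m : ℕ} {L R : Fin m → ι}

-- === PIECE CNED ===
theorem p_CNED (H : HypPairs Q m L R) (hm : 2 ≤ m) (j : Fin m) (hj : ¬ (j : ℕ) + 1 < m) :
    sigD Q L R j * xD Q L R j 1 * sigD Q L R j ∉ borelO Q L := by
  intro hg
  have hne : jp j ≠ j := by
    intro h
    have h1 := congrArg Fin.val h
    rw [jp_val] at h1
    have := j.2
    omega
  have hLne : L (jp j) ≠ L j := fun h => hne (H.hL h)
  have hRne : R (jp j) ≠ R j := fun h => hne (H.hR h)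
  have hRL : ∀ a b, R b ≠ L a := fun a b h => H.hLR a b h.symm
  have hLR : ∀ a b, L a ≠ R b := H.hLR
  have cX : ∀ (t : F) (x : ι → F),
      mv ⇑Q (xD Q L R j t) x (L (jp j)) = x (L (jp j)) + t * x (R j) ∧
      mv ⇑Q (xD Q L R j t) x (L j) = x (L j) - t * x (R (jp j)) ∧
      mv ⇑Q (xD Q L R j t) x (R j) = x (R j) ∧
      mv ⇑Q (xD Q L R j t) x (R (jp j)) = x (R (jp j)) := by
    intro t x
    rw [mv_xD_last H j hj]
    refine ⟨?_, ?_, ?_, ?_⟩ <;>
      simp [ev_apply, idx_inl, hLne, hLne.symm, hRL, hLR]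
  have cY : ∀ (t : F) (x : ι → F),
      mv ⇑Q (yD Q L R j t) x (L (jp j)) = x (L (jp j)) ∧
      mv ⇑Q (yD Q L R j t) x (L j) = x (L j) ∧
      mv ⇑Q (yD Q L R j t) x (R j) = x (R j) + t * x (L (jp j)) ∧
      mv ⇑Q (yD Q L R j t) x (R (jp j)) = x (R (jp j)) - t * x (L j) := by
    intro t x
    rw [mv_yD_last H j hj]
    refine ⟨?_, ?_, ?_, ?_⟩ <;>
      simp [ev_apply, idx_inl, idx_inr, hRne, hRne.symm, hRL, hLR]
  obtain ⟨c, hc⟩ : ∃ c : (ι → F) → F × F × F × F,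
      ∀ x, c x = (x (L (jp j)), x (L j), x (R j), x (R (jp j))) := ⟨_, fun x => rfl⟩
  have hX : ∀ (t : F) (x : ι → F), c (mv ⇑Q (xD Q L R j t) x)
      = ((c x).1 + t * (c x).2.2.1, (c x).2.1 - t * (c x).2.2.2, (c x).2.2.1, (c x).2.2.2) := by
    intro t x
    obtain ⟨h1, h2, h3, h4⟩ := cX t x
    rw [hc, hc, h1, h2, h3, h4]
  have hY : ∀ (t : F) (x : ι → F), c (mv ⇑Q (yD Q L R j t) x)
      = ((c x).1, (c x).2.1, (c x).2.2.1 + t * (c x).1, (c x).2.2.2 - t * (c x).2.1) := by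
    intro t x
    obtain ⟨h1, h2, h3, h4⟩ := cY t x
    rw [hc, hc, h1, h2, h3, h4]
  have hc0 : c (ev L R F (Sum.inl (jp j))) = (1, 0, 0, 0) := by
    rw [hc]
    simp [ev_apply, idx_inl, hLne.symm, hRL]
  have hfin : c (mv ⇑Q (sigD Q L R j * xD Q L R j 1 * sigD Q L R j)
      (ev L R F (Sum.inl (jp j)))) = (-1, 0, 1, 0) := by
    unfold StD.sigD
    simp only [mv_mul, hX, hY, hc0]
    norm_num
  have hflag := flag_of_mem_borelO (R := R) _ hg (jp j)
  have h3 : mv ⇑Q (sigD Q L R j * xD Q L R j 1 * sigD Q L R j)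
      (ev L R F (Sum.inl (jp j))) (R j) = 1 := by
    have h := hfin
    rw [hc] at h
    exact (Prod.mk.inj (Prod.mk.inj (Prod.mk.inj h).2).2).1
  obtain ⟨i, _, hi⟩ := hflag (R j) (by rw [h3]; exact one_ne_zero)
  exact H.hLR i j hi.symm

end Cfsg.Agent.Helper10.StCNED
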