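import Mathlib
import Cfsg.Prelude.Def_GeometricClasses
import Cfsg.Agent.Helper71.T4Defs
import Cfsg.Agent.Helper71.T4Main
import Cfsg.Agent.Helper97.OForm
import Cfsg.Agent.Helper96.T5Defs
import Cfsg.Agent.Helper45.DicksonRank
import Cfsg.Agent.Helper98.OPar

/-!
# CALL S5704, piece OEV (helper10)
-/

set_option autoImplicit false
set_option linter.unusedVariables false

namespace Cfsg.Agent.Helper10.T5OEV

open Matrix Cfsg Cfsg.Geo Cfsg.Agent.Helper71.T4 Cfsg.Agent.Helper96.T5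
open scoped Kronecker

/-- PIECE OEV: characteristic two: an isometry `g` with `rank (g - 1)` even lies in `Ω`. -/
theorem oev {ι : Type} [Fintype ι] [DecidableEq ι] {F : Type*} [Field F] [Fintype F]
    (h2 : (2 : F) = 0) (Q : (ι → F) → F) (hQ : IsNondegenerateQuadraticForm Q)
    (hex : (∃ t : F, t ≠ 0 ∧ t ≠ 1) ∨ Fintype.card ι ≠ 4) (g : GL ι F)
    (hg : g ∈ isometryGroup F Q) (hr : Even ((g : Matrix ι ι F) - 1).rank) :
    g ∈ omegaGL Q := by
  have : CharP F 2 := CharTwo.of_one_ne_zero_of_two_eq_zero one_ne_zero h2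
  have h := (Cfsg.Agent.Helper45.mem_omega_iff_even_rank (Cfsg.Agent.Helper98.op_qf Q hQ)
    (Cfsg.Agent.Helper98.op_qf_nondeg Q hQ) hex ⟨g, hg⟩).mpr hr
  exact Subgroup.mem_map.mpr ⟨⟨g, hg⟩, h, rfl⟩

end Cfsg.Agent.Helper10.T5OEV
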