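import Mathlib
import Cfsg.Agent.Helper13.TLDefs

set_option autoImplicit false

/-!
# S5954 piece PC2 (helper10)
-/

namespace Cfsg.Agent.Helper10.TI5954

open Module Polynomial
open Cfsg.Agent.Helper13.TIu Cfsg.Agent.Helper13.TIsp

/-- the sum of a multiset of `1`s and `2`s -/
theorem pc2_sum (μ : Multiset ℕ) (h : ∀ a ∈ μ, 0 < a ∧ a ≤ 2) :
    μ.sum = μ.count 1 + 2 * μ.count 2 := by
  induction μ using Multiset.induction_on with
  | empty => simp
  | cons c μ ih =>
    have hc := h c (Multiset.mem_cons_self c μ)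
    have ih' := ih (fun a ha => h a (Multiset.mem_cons_of_mem ha))
    rw [Multiset.sum_cons, ih']
    obtain ⟨h1, h2⟩ := hc
    interval_cases c
    · simp; omega
    · simp; omega

/-- PC2 (case A, `p = 2`): partitions into parts `1, 2`. -/
theorem pc_two (n m : ℕ) (hmn : m ≤ n) :
    (∀ μ : Multiset ℕ, (∀ a ∈ μ, 0 < a ∧ a ≤ 2) → μ.sum = n →
      ∃ ν : Multiset ℕ, ν ≤ μ ∧ ν.sum = m) ↔ (Odd n ∨ Even m) := by
  constructor
  · intro h
    by_contra hcon
    have hn : Even n := by
      by_contra h1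
      exact hcon (Or.inl (Nat.not_even_iff_odd.mp h1))
    have hm : Odd m := by
      by_contra h1
      exact hcon (Or.inr (Nat.not_odd_iff_even.mp h1))
    obtain ⟨k, hk⟩ := hn
    obtain ⟨ν, hν, hsum⟩ := h (Multiset.replicate k 2)
      (fun a ha => by rw [Multiset.eq_of_mem_replicate ha]; omega)
      (by rw [Multiset.sum_replicate, smul_eq_mul]; omega)
    obtain ⟨j, hj, rfl⟩ := Multiset.le_replicate_iff.mp hν
    rw [Multiset.sum_replicate, smul_eq_mul] at hsum
    obtain ⟨t, ht⟩ := hm
    omega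
  · intro hpar μ hμ hsum
    have hs := pc2_sum μ hμ
    obtain ⟨a, ha⟩ : ∃ a, a = μ.count 1 := ⟨_, rfl⟩
    obtain ⟨b, hb⟩ : ∃ b, b = μ.count 2 := ⟨_, rfl⟩
    rw [← ha, ← hb, hsum] at hs
    obtain ⟨x, y, hx, hy, hxy⟩ : ∃ x y, x ≤ a ∧ y ≤ b ∧ x + 2 * y = m := by
      by_cases hle : m / 2 ≤ b
      · refine ⟨m % 2, m / 2, ?_, hle, by omega⟩
        rcases hpar with hn | hm
        · obtain ⟨t, ht⟩ := hn; omega
        · obtain ⟨t, ht⟩ := hm; omega
      · exact ⟨m - 2 * b, b, by omega, le_refl _, by omega⟩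
    refine ⟨Multiset.replicate x 1 + Multiset.replicate y 2, ?_, ?_⟩
    · rw [Multiset.le_iff_count]
      intro c
      rw [Multiset.count_add, Multiset.count_replicate, Multiset.count_replicate]
      by_cases h1 : c = 1
      · subst h1
        simp
        omega
      · by_cases h2 : c = 2
        · subst h2
          simp
          omega
        · simp [Ne.symm h1, Ne.symm h2]
    · rw [Multiset.sum_add, Multiset.sum_replicate, Multiset.sum_replicate]
      simp only [smul_eq_mul]
      omega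

end Cfsg.Agent.Helper10.TI5954
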