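import Mathlib
import Cfsg.Agent.Helper13.TLDefs

set_option autoImplicit false

/-!
# S5954 piece UFIXCONGR (helper10)
-/

namespace Cfsg.Agent.Helper10.TI5954

open Module Polynomial
open Cfsg.Agent.Helper13.TIu Cfsg.Agent.Helper13.TIsp

section std

variable {F : Type*} [Field F] {σ : F →+* F}

/-- UFIXCONGR (case D): mirror `Cfsg.Agent.Helper37.TI5956.fix_congr`. -/
theorem u_fix_congr [Fintype F] (n m : ℕ) (r : ℕ) [Fact r.Prime]
    (T : Module.End F (Fin n → F)) (hT : UPres (stdH σ n) T) (hTr : T ^ r = 1) :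
    Nat.card {W : Submodule F (Fin n → F) // finrank F W = m ∧ UNd (stdH σ n) W} ≡
      Nat.card {W : Submodule F (Fin n → F) //
        (finrank F W = m ∧ UNd (stdH σ n) W) ∧ W.map T ≤ W} [MOD r] := by
  classical
  have hr : 0 < r := (Fact.out : r.Prime).pos
  have hTS : T ^ (r - 1) * T = 1 := by
    rw [← pow_succ, Nat.sub_add_cancel hr, hTr]
  have hinj : Function.Injective T := by
    intro x y hxy
    have hx : (T ^ (r - 1) * T) x = x := by rw [hTS]; rfl
    have hy : (T ^ (r - 1) * T) y = y := by rw [hTS]; rfl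
    rw [Module.End.mul_apply] at hx hy
    rw [← hx, ← hy, hxy]
  have hfr : ∀ W : Submodule F (Fin n → F), finrank F ↥(W.map T) = finrank F W :=
    fun W => (Submodule.equivMapOfInjective T hinj W).finrank_eq.symm
  have hnd : ∀ W : Submodule F (Fin n → F), UNd (stdH σ n) W →
      UNd (stdH σ n) (W.map T) := by
    intro W hW v hv hvw
    obtain ⟨w, hw, rfl⟩ := Submodule.mem_map.mp hv
    have hw0 : w = 0 := by
      apply hW w hw
      intro w₂ hw₂
      rw [← hT w w₂]
      exact hvw _ (Submodule.mem_map_of_mem hw₂)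
    rw [hw0, map_zero]
  let Ω := {W : Submodule F (Fin n → F) // finrank F W = m ∧ UNd (stdH σ n) W}
  let f : Function.End Ω := fun W => ⟨W.1.map T, (hfr W.1).trans W.2.1, hnd W.1 W.2.2⟩
  have hfk : ∀ (k : ℕ) (W : Ω), ((f ^ k) W).1 = W.1.map (T ^ k) := by
    intro k
    induction k with
    | zero =>
      intro W
      rw [pow_zero, pow_zero]
      change W.1 = Submodule.map LinearMap.id W.1
      exact (Submodule.map_id _).symm
    | succ k ih =>
      intro W
      rw [pow_succ', pow_succ']
      change (f ((f ^ k) W)).1 = _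
      change ((f ^ k) W).1.map T = _
      rw [ih W, ← Submodule.map_comp]
      rfl
  have hf : f ^ r ^ 1 = 1 := by
    rw [pow_one]
    funext W
    apply Subtype.ext
    rw [hfk r W, hTr]
    change Submodule.map LinearMap.id W.1 = W.1
    exact Submodule.map_id _
  haveI : Fintype Ω := Fintype.ofFinite Ω
  have key := Equiv.Perm.card_fixedPoints_modEq (p := r) (n := 1) hf
  rw [← Nat.card_eq_fintype_card, ← Nat.card_eq_fintype_card] at key
  have e : ↥(Function.fixedPoints f) ≃ {W : Submodule F (Fin n → F) //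
        (finrank F W = m ∧ UNd (stdH σ n) W) ∧ W.map T ≤ W} :=
    { toFun := fun x => ⟨x.1.1, x.1.2, le_of_eq (congrArg Subtype.val x.2)⟩
      invFun := fun y => ⟨⟨y.1, y.2.1⟩, Subtype.ext
        (Submodule.eq_of_le_of_finrank_eq y.2.2 (hfr y.1))⟩
      left_inv := fun x => rfl
      right_inv := fun y => rfl }
  rw [Nat.card_congr e] at key
  exact key

end std

end Cfsg.Agent.Helper10.TI5954
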