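import Mathlib

/-!
# Piece CombAllEven of CALL S5994 (helper43)
-/

set_option autoImplicit false

namespace Cfsg.Agent.Helper10

theorem u5994_sum_erase_ite (s : Multiset ℕ) (a : ℕ) :
    s.sum = (if a ∈ s then a else 0) + (s.erase a).sum := by
  by_cases h : a ∈ s
  · rw [if_pos h, Multiset.sum_erase h]
  · rw [if_neg h, Multiset.erase_of_notMem h, zero_add]

theorem u5994_even_sum (s : Multiset ℕ) (h : ∀ x ∈ s, Even x) : Even s.sum := by
  rw [even_iff_two_dvd]
  exact Multiset.dvd_sum (fun x hx => even_iff_two_dvd.mp (h x hx))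

theorem comb_all_even (p : ℕ) (hp : Odd p) (μ : Multiset ℕ) (hpos : ∀ e ∈ μ, 0 < e ∧ e ≤ p)
    (hall : ∀ e ∈ μ, Even e) (hpar : ∀ e, Even e → Even (μ.count e)) (hne : μ ≠ 0) (m : ℕ)
    (hm : Even m) :
    ∃ μ' : Multiset ℕ, (∀ e ∈ μ', 0 < e ∧ e ≤ p) ∧ (∀ e, Even e → Even (μ'.count e)) ∧
      μ'.sum = μ.sum ∧ (∃ e ∈ μ', Odd e ∧ 3 ≤ e) ∧
      ∀ ν' : Multiset ℕ, ν' ≤ μ' → ν'.sum = m → (∀ e, Even e → Even (ν'.count e)) →
        (∃ e ∈ ν', Odd e) → ∃ ν : Multiset ℕ, ν ≤ μ ∧ ν.sum = m ∧ ∀ e, Even e → Even (ν.count e) := by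
  obtain ⟨e, he⟩ := Multiset.exists_mem_of_ne_zero hne
  have hee : Even e := hall e he
  have he0 : 0 < e := (hpos e he).1
  have hep : e ≤ p := (hpos e he).2
  have he2 : 2 ≤ e := by
    obtain ⟨c, hc⟩ := hee
    omega
  have hep' : e + 1 ≤ p := by
    obtain ⟨c, hc⟩ := hee
    obtain ⟨d, hd⟩ := hp
    omega
  have hcnt : 2 ≤ μ.count e := by
    have h1 : 0 < μ.count e := Multiset.count_pos.mpr he
    obtain ⟨c, hc⟩ := hpar e hee
    omega
  have he' : e ∈ μ.erase e := by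
    rw [← Multiset.count_pos, Multiset.count_erase_self]
    omega
  obtain ⟨μ₀, hμ₀⟩ : ∃ μ₀ : Multiset ℕ, μ₀ = (μ.erase e).erase e := ⟨_, rfl⟩
  have hμ : μ = e ::ₘ e ::ₘ μ₀ := by
    rw [hμ₀, Multiset.cons_erase he', Multiset.cons_erase he]
  have hμ₀mem : ∀ x ∈ μ₀, x ∈ μ := by
    intro x hx
    rw [hμ]
    exact Multiset.mem_cons_of_mem (Multiset.mem_cons_of_mem hx)
  have hodd1 : Odd (e + 1) := hee.add_one
  have hodd2 : Odd (e - 1) := by
    obtain ⟨c, hc⟩ := hee
    exact ⟨c - 1, by omega⟩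
  have hne12 : e - 1 ≠ e + 1 := by omega
  refine ⟨(e + 1) ::ₘ (e - 1) ::ₘ μ₀, ?_, ?_, ?_, ⟨e + 1, Multiset.mem_cons_self _ _, hodd1, by omega⟩, ?_⟩
  · intro x hx
    rw [Multiset.mem_cons, Multiset.mem_cons] at hx
    rcases hx with rfl | rfl | hx
    · exact ⟨by omega, hep'⟩
    · exact ⟨by omega, by omega⟩
    · exact hpos x (hμ₀mem x hx)
  · intro x hx
    have hx1 : x ≠ e + 1 := by
      rintro rfl
      exact (Nat.not_even_iff_odd.mpr hodd1) hx
    have hx2 : x ≠ e - 1 := by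
      rintro rfl
      exact (Nat.not_even_iff_odd.mpr hodd2) hx
    rw [Multiset.count_cons_of_ne hx1, Multiset.count_cons_of_ne hx2]
    have h1 := hpar x hx
    rw [hμ] at h1
    by_cases hxe : x = e
    · subst hxe
      rw [Multiset.count_cons_self, Multiset.count_cons_self] at h1
      obtain ⟨c, hc⟩ := h1
      exact ⟨c - 1, by omega⟩
    · rwa [Multiset.count_cons_of_ne hxe, Multiset.count_cons_of_ne hxe] at h1
  · rw [hμ, Multiset.sum_cons, Multiset.sum_cons, Multiset.sum_cons, Multiset.sum_cons]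
    omega
  · intro ν' hν' hsum hpar' hodd
    obtain ⟨ν'', hν''⟩ : ∃ ν'' : Multiset ℕ, ν'' = (ν'.erase (e + 1)).erase (e - 1) := ⟨_, rfl⟩
    have hν''le : ν'' ≤ μ₀ := by
      have h1 : (ν'.erase (e + 1)).erase (e - 1)
          ≤ (((e + 1) ::ₘ (e - 1) ::ₘ μ₀).erase (e + 1)).erase (e - 1) :=
        Multiset.erase_le_erase _ (Multiset.erase_le_erase _ hν')
      rw [Multiset.erase_cons_head, Multiset.erase_cons_head] at h1
      rw [hν'']
      exact h1
    have hν''even : Even ν''.sum :=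
      u5994_even_sum ν'' (fun x hx => hall x (hμ₀mem x (Multiset.mem_of_le hν''le hx)))
    have hs1 := u5994_sum_erase_ite ν' (e + 1)
    have hs2 := u5994_sum_erase_ite (ν'.erase (e + 1)) (e - 1)
    rw [← hν''] at hs2
    -- an odd member is `e + 1` or `e - 1`
    have hmem : e + 1 ∈ ν' ∨ e - 1 ∈ ν'.erase (e + 1) := by
      obtain ⟨x, hx, hxo⟩ := hodd
      have hx' := Multiset.mem_of_le hν' hx
      rw [Multiset.mem_cons, Multiset.mem_cons] at hx'
      rcases hx' with rfl | rfl | hx'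
      · exact Or.inl hx
      · exact Or.inr ((Multiset.mem_erase_of_ne hne12).mpr hx)
      · exact absurd (hall x (hμ₀mem x hx')) (Nat.not_even_iff_odd.mpr hxo)
    obtain ⟨c, hc⟩ := hν''even
    obtain ⟨d, hd⟩ := hm
    obtain ⟨a1, ha1⟩ := hodd1
    obtain ⟨a2, ha2⟩ := hodd2
    have hboth : e + 1 ∈ ν' ∧ e - 1 ∈ ν'.erase (e + 1) := by
      by_cases h1 : e + 1 ∈ ν'
      · by_cases h2 : e - 1 ∈ ν'.erase (e + 1)
        · exact ⟨h1, h2⟩
        · exfalso
          rw [if_pos h1] at hs1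
          rw [if_neg h2] at hs2
          omega
      · have h2 : e - 1 ∈ ν'.erase (e + 1) := hmem.resolve_left h1
        exfalso
        rw [if_neg h1] at hs1
        rw [if_pos h2] at hs2
        omega
    rw [if_pos hboth.1] at hs1
    rw [if_pos hboth.2] at hs2
    refine ⟨e ::ₘ e ::ₘ ν'', ?_, ?_, ?_⟩
    · rw [hμ]
      exact Multiset.cons_le_cons _ (Multiset.cons_le_cons _ hν''le)
    · rw [Multiset.sum_cons, Multiset.sum_cons]
      omega
    · intro x hx
      have hx1 : x ≠ e + 1 := by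
        rintro rfl
        exact (Nat.not_even_iff_odd.mpr ⟨a1, ha1⟩) hx
      have hx2 : x ≠ e - 1 := by
        rintro rfl
        exact (Nat.not_even_iff_odd.mpr ⟨a2, ha2⟩) hx
      have hcnt'' : ν''.count x = ν'.count x := by
        rw [hν'', Multiset.count_erase_of_ne hx2, Multiset.count_erase_of_ne hx1]
      have h1 := hpar' x hx
      by_cases hxe : x = e
      · subst hxe
        rw [Multiset.count_cons_self, Multiset.count_cons_self, hcnt'']
        obtain ⟨c', hc'⟩ := h1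
        exact ⟨c' + 1, by omega⟩
      · rw [Multiset.count_cons_of_ne hxe, Multiset.count_cons_of_ne hxe, hcnt'']
        exact h1

end Cfsg.Agent.Helper10
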