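import Mathlib

/-!
# Piece Mod4 of CALL S5994 (helper43)
-/

set_option autoImplicit false

namespace Cfsg.Agent.Helper10

/-- A submultiset of `o ::ₘ replicate k 2` is determined by two counts. -/
theorem u5994_sub_cons_replicate (k o : ℕ) (ho : o ≠ 2) (ν : Multiset ℕ)
    (hν : ν ≤ o ::ₘ Multiset.replicate k 2) :
    ν = Multiset.replicate (ν.count o) o + Multiset.replicate (ν.count 2) 2 := by
  ext e
  rw [Multiset.count_add, Multiset.count_replicate, Multiset.count_replicate]
  by_cases h1 : e = o
  · subst h1
    rw [if_pos rfl, if_neg (fun h => ho h.symm), add_zero]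
  · by_cases h2 : e = 2
    · subst h2
      rw [if_neg (fun h => h1 h.symm), if_pos rfl, zero_add]
    · rw [if_neg (fun h => h1 h.symm), if_neg (fun h => h2 h.symm), add_zero]
      have h3 := Multiset.count_le_of_le e hν
      rw [Multiset.count_cons_of_ne h1, Multiset.count_replicate, if_neg (fun h => h2 h.symm)] at h3
      omega

theorem mod4_zero_of_sub (k : ℕ) (o : ℕ) (ho : Odd o) (m : ℕ) (hm : Even m)
    (ν : Multiset ℕ) (hν : ν ≤ o ::ₘ Multiset.replicate k 2) (hsum : ν.sum = m)
    (hpar : ∀ e, Even e → Even (ν.count e)) : m % 4 = 0 := by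
  have ho2 : o ≠ 2 := by
    rintro rfl
    exact absurd ho (by decide)
  have h1 := u5994_sub_cons_replicate k o ho2 ν hν
  have hco : ν.count o ≤ 1 := by
    have h3 := Multiset.count_le_of_le o hν
    rw [Multiset.count_cons_self, Multiset.count_replicate, if_neg (fun h => ho2 h.symm)] at h3
    exact h3
  have hsum' : ν.sum = ν.count o * o + ν.count 2 * 2 := by
    conv_lhs => rw [h1]
    rw [Multiset.sum_add, Multiset.sum_replicate, Multiset.sum_replicate, smul_eq_mul, smul_eq_mul]
  obtain ⟨b, hb⟩ := hpar 2 (by decide)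
  obtain ⟨c, hc⟩ := ho
  obtain ⟨d, hd⟩ := hm
  rw [hsum] at hsum'
  have hcases : ν.count o = 0 ∨ ν.count o = 1 := by omega
  rcases hcases with h0 | h0
  · rw [h0, hb] at hsum'
    omega
  · rw [h0, hb] at hsum'
    omega

theorem mod4_two_of_sub (k : ℕ) (m : ℕ) (hm : Even m)
    (ν : Multiset ℕ) (hν : ν ≤ 1 ::ₘ 1 ::ₘ Multiset.replicate k 2) (hsum : ν.sum = m)
    (hpar : ∀ e, Even e → Even (ν.count e)) (hodd : ∃ e ∈ ν, Odd e) : m % 4 = 2 := by
  have h1 : ν = Multiset.replicate (ν.count 1) 1 + Multiset.replicate (ν.count 2) 2 := by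
    ext e
    rw [Multiset.count_add, Multiset.count_replicate, Multiset.count_replicate]
    by_cases h1 : e = 1
    · subst h1
      rw [if_pos rfl, if_neg (by decide), add_zero]
    · by_cases h2 : e = 2
      · subst h2
        rw [if_neg (by decide), if_pos rfl, zero_add]
      · rw [if_neg (fun h => h1 h.symm), if_neg (fun h => h2 h.symm), add_zero]
        have h3 := Multiset.count_le_of_le e hν
        rw [Multiset.count_cons_of_ne h1, Multiset.count_cons_of_ne h1, Multiset.count_replicate,
          if_neg (fun h => h2 h.symm)] at h3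
        omega
  have hco : ν.count 1 ≤ 2 := by
    have h3 := Multiset.count_le_of_le 1 hν
    rw [Multiset.count_cons_self, Multiset.count_cons_self, Multiset.count_replicate,
      if_neg (by decide)] at h3
    exact h3
  have hsum' : ν.sum = ν.count 1 * 1 + ν.count 2 * 2 := by
    conv_lhs => rw [h1]
    rw [Multiset.sum_add, Multiset.sum_replicate, Multiset.sum_replicate, smul_eq_mul, smul_eq_mul]
  obtain ⟨b, hb⟩ := hpar 2 (by decide)
  obtain ⟨d, hd⟩ := hm
  rw [hsum] at hsum'
  -- an odd element of `ν` is `1`
  have hpos : 0 < ν.count 1 := by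
    obtain ⟨e, he, heo⟩ := hodd
    have he' := Multiset.mem_of_le hν he
    rw [Multiset.mem_cons, Multiset.mem_cons] at he'
    rcases he' with rfl | rfl | he'
    · exact Multiset.count_pos.mpr he
    · exact Multiset.count_pos.mpr he
    · have := Multiset.eq_of_mem_replicate he'
      subst this
      exact absurd heo (by decide)
  rw [hb] at hsum'
  omega

end Cfsg.Agent.Helper10
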