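import Mathlib
import Cfsg.Agent.Helper95.UBNDefs

/-!
# Helper10: piece STABD of CALL S2546 (helper95): an upper triangular `c` whose conjugate by a
monomial matrix with the pattern of `Fin.revPerm` is again upper triangular is diagonal.
-/

set_option autoImplicit false

namespace Cfsg.Agent.Helper10.UBN

open Matrix Cfsg.Agent.Helper95.UBN

variable {F : Type*} [Field F] {n : ℕ}

theorem p_STABD (c n₀ : Matrix.SpecialLinearGroup (Fin n) F) (hp : Pat n₀.1 Fin.revPerm)
    (hc : IsUp c.1) (hd : IsUp (n₀⁻¹ * c * n₀).1) : Pat c.1 1 := by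
  intro a b hab
  show a = b
  by_contra hne
  rcases lt_or_gt_of_ne hne with hlt | hgt
  · apply hab
    have hcol : ∀ y : Fin n, n₀.1 (Fin.rev y) y ≠ 0 := by
      intro y h0
      have hz : n₀.1.det = 0 := by
        apply Matrix.det_eq_zero_of_column_eq_zero y
        intro i
        by_contra hi
        have h1 := hp i y hi
        rw [Fin.revPerm_apply] at h1
        rw [h1] at hi
        exact hi h0
      rw [n₀.2] at hz
      exact one_ne_zero hz
    have heq : n₀.1 * (n₀⁻¹ * c * n₀).1 = c.1 * n₀.1 := by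
      show (n₀ * (n₀⁻¹ * c * n₀)).1 = (c * n₀).1
      congr 1
      rw [mul_assoc n₀⁻¹ c n₀, mul_inv_cancel_left]
    have h1 := congrFun (congrFun heq a) (Fin.rev b)
    rw [Matrix.mul_apply, Matrix.mul_apply] at h1
    have e1 : ∑ k, n₀.1 a k * (n₀⁻¹ * c * n₀).1 k (Fin.rev b)
        = n₀.1 a (Fin.rev a) * (n₀⁻¹ * c * n₀).1 (Fin.rev a) (Fin.rev b) := by
      apply Finset.sum_eq_single
      · intro k _ hk
        by_contra hne0
        have hn : n₀.1 a k ≠ 0 := fun h => hne0 (by rw [h, zero_mul])
        have h2 := hp a k hn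
        rw [Fin.revPerm_apply] at h2
        apply hk
        rw [h2, Fin.rev_rev]
      · intro h
        exact absurd (Finset.mem_univ _) h
    have e2 : ∑ k, c.1 a k * n₀.1 k (Fin.rev b) = c.1 a b * n₀.1 b (Fin.rev b) := by
      apply Finset.sum_eq_single
      · intro k _ hk
        by_contra hne0
        have hn : n₀.1 k (Fin.rev b) ≠ 0 := fun h => hne0 (by rw [h, mul_zero])
        have h2 := hp k (Fin.rev b) hn
        rw [Fin.revPerm_apply, Fin.rev_rev] at h2
        exact hk h2
      · intro h
        exact absurd (Finset.mem_univ _) h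
    rw [e1, e2, hd (Fin.rev a) (Fin.rev b) (Fin.rev_lt_rev.mpr hlt), mul_zero] at h1
    have h3 := hcol (Fin.rev b)
    rw [Fin.rev_rev] at h3
    rcases mul_eq_zero.mp h1.symm with h | h
    · exact h
    · exact absurd h h3
  · exact hab (hc a b hgt)

end Cfsg.Agent.Helper10.UBN
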