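import Mathlib
import Cfsg.Agent.Helper44.UCDefs
import Cfsg.Agent.S2587
import Cfsg.Agent.S2581
import Cfsg.Agent.Helper44.UnitaryOrder

/-!
# Helper10: piece FIX of CALL S2646 (helper44): the fixed points of a semilinear involution of
`R → K` (`|K| = q ^ 2`) number `q ^ |R|`.
-/

set_option autoImplicit false

namespace Cfsg.Agent.Helper10.UCFIX

open Matrix Cfsg.Agent.Helper21.JCent Cfsg.Agent.Helper44.UC

/-- FIX: fixed points of a semilinear involution of `R → K`. -/
theorem uc_fix {K : Type*} [Field K] [Fintype K] {q : ℕ} (hK : Fintype.card K = q ^ 2)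
    {R : Type*} [Fintype R] (θ : R → R) (hθ : ∀ a, θ (θ a) = a) (ε : R → ℕ)
    (hε : ∀ a, ε (θ a) = ε a) :
    Nat.card {r : R → K // ∀ a, r a = (-1) ^ ε a * (r (θ a)) ^ q} = q ^ Fintype.card R := by
  classical
  have hadd := Cfsg.Agent.Helper43.NormH90.add_pow_q hK
  have hsub := Cfsg.Agent.Helper43.NormH90.sub_pow_q hK
  have hqq := Cfsg.Agent.Helper43.NormH90.pow_q_q hK
  have hq2 := Cfsg.Agent.Helper43.NormH90.two_le_q hK
  obtain ⟨μ, hμ⟩ := Cfsg.Agent.Helper43.NormH90.exists_not_fixed hK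
  have hneg1 : ((-1 : K)) ^ q = -1 := by
    have h := hsub 0 1
    rw [zero_sub, zero_pow (by omega), one_pow, zero_sub] at h
    exact h
  obtain ⟨s, hs⟩ : ∃ s : R → K, ∀ a, s a = (-1) ^ ε a := ⟨fun a => (-1) ^ ε a, fun a => rfl⟩
  have hs1 : ∀ a, s (θ a) = s a := fun a => by rw [hs, hs, hε]
  have hs2 : ∀ a, (s a) ^ q = s a := fun a => by
    rw [hs, ← pow_mul, mul_comm, pow_mul, hneg1]
  have hs3 : ∀ a, s a * s a = 1 := fun a => by
    rw [hs, ← mul_pow]
    norm_num
  simp only [← hs]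
  have hc : μ - μ ^ q ≠ 0 := sub_ne_zero.mpr (Ne.symm hμ)
  obtain ⟨c, hcdef⟩ : ∃ c : K, c = (μ - μ ^ q)⁻¹ := ⟨_, rfl⟩
  have hc1 : c * (μ - μ ^ q) = 1 := by
    rw [hcdef]
    exact inv_mul_cancel₀ hc
  have hcq : c ^ q = -c := by
    have h1 : c ^ q * (μ ^ q - μ) = 1 := by
      have h0 : (c * (μ - μ ^ q)) ^ q = 1 := by rw [hc1, one_pow]
      rw [mul_pow, hsub, hqq] at h0
      exact h0
    calc c ^ q = c ^ q * (c * (μ - μ ^ q)) := by rw [hc1, mul_one]
      _ = -(c ^ q * (μ ^ q - μ)) * c := by ring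
      _ = -c := by rw [h1]; ring
  have key : (R → K) ≃ {r : R → K // ∀ a, r a = s a * (r (θ a)) ^ q} ×
      {r : R → K // ∀ a, r a = s a * (r (θ a)) ^ q} :=
    { toFun := fun r => (⟨fun a => r a + s a * (r (θ a)) ^ q, fun a => by
          show r a + s a * (r (θ a)) ^ q
            = s a * (r (θ a) + s (θ a) * (r (θ (θ a))) ^ q) ^ q
          rw [hθ, hs1, hadd, mul_pow, hqq, hs2]
          linear_combination (-(r a)) * hs3 a⟩,
        ⟨fun a => μ * r a + μ ^ q * (s a * (r (θ a)) ^ q), fun a => by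
          show μ * r a + μ ^ q * (s a * (r (θ a)) ^ q)
            = s a * (μ * r (θ a) + μ ^ q * (s (θ a) * (r (θ (θ a))) ^ q)) ^ q
          rw [hθ, hs1, hadd, mul_pow, mul_pow, mul_pow, hqq, hqq, hs2]
          linear_combination (-(μ * r a)) * hs3 a⟩)
      invFun := fun p => fun a => c * (p.2.1 a - μ ^ q * p.1.1 a)
      left_inv := by
        intro r
        funext a
        show c * ((μ * r a + μ ^ q * (s a * (r (θ a)) ^ q))
          - μ ^ q * (r a + s a * (r (θ a)) ^ q)) = r a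
        linear_combination (r a) * hc1
      right_inv := by
        rintro ⟨⟨a', ha⟩, ⟨b', hb⟩⟩
        refine Prod.ext (Subtype.ext ?_) (Subtype.ext ?_)
        · funext x
          show c * (b' x - μ ^ q * a' x)
            + s x * (c * (b' (θ x) - μ ^ q * a' (θ x))) ^ q = a' x
          rw [mul_pow, hsub, mul_pow, hqq, hcq]
          linear_combination (-(c * μ)) * ha x + c * hb x + (a' x) * hc1
        · funext x
          show μ * (c * (b' x - μ ^ q * a' x))
            + μ ^ q * (s x * (c * (b' (θ x) - μ ^ q * a' (θ x))) ^ q) = b' x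
          rw [mul_pow, hsub, mul_pow, hqq, hcq]
          linear_combination (-(μ ^ q * c * μ)) * ha x + (μ ^ q * c) * hb x + (b' x) * hc1 }
  have h1 := Nat.card_congr key
  rw [Nat.card_prod, Nat.card_fun, Nat.card_eq_fintype_card, Nat.card_eq_fintype_card, hK] at h1
  have h2 : (Nat.card {r : R → K // ∀ a, r a = s a * (r (θ a)) ^ q}) ^ 2
      = (q ^ Fintype.card R) ^ 2 := by
    rw [sq, ← h1, ← pow_mul, ← pow_mul, mul_comm]
  exact Nat.pow_left_injective (by norm_num) h2

end Cfsg.Agent.Helper10.UCFIX
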