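import Mathlib
import Cfsg.Agent.Helper44.UCDefs
import Cfsg.Agent.S2587
import Cfsg.Agent.S2581
import Cfsg.Agent.Helper44.UnitaryOrder

/-!
# Helper10: piece SKEWCONJ of CALL S2646 (helper44): skew forms of similar matrices.
-/

set_option autoImplicit false

namespace Cfsg.Agent.Helper10.UCSKEWCONJ

open Matrix Cfsg.Agent.Helper21.JCent Cfsg.Agent.Helper44.UC

/-- `H ↦ hT P * H * P` maps the skew forms of `M` to those of `N` when `P * N = M * P`. -/
theorem skew_map_mem {K : Type*} [Field K] [Fintype K] {q : ℕ} (hK : Fintype.card K = q ^ 2)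
    {ι : Type*} [Fintype ι] [DecidableEq ι] (M N P : Matrix ι ι K) (hP : IsUnit P.det)
    (h : P * N = M * P) (H : Matrix ι ι K) (hH : H ∈ skewForms q M) :
    hT q P * H * P ∈ skewForms q N := by
  obtain ⟨h1, h2, h3⟩ := hH
  refine ⟨?_, ?_, ?_⟩
  · rw [Matrix.det_mul, Matrix.det_mul]
    exact ((isUnit_det_hT hK P hP).mul h1).mul hP
  · rw [hT_mul hK, hT_mul hK, hT_hT hK, h2, Matrix.mul_assoc]
  · have e1 : hT q N * (hT q P * H * P) = hT q (P * N) * H * P := by
      rw [hT_mul hK]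
      simp only [Matrix.mul_assoc]
    have e2 : hT q P * H * P * N = hT q P * H * (P * N) := by
      simp only [Matrix.mul_assoc]
    rw [e1, e2, h, hT_mul hK]
    have e3 : hT q P * hT q M * H * P + hT q P * H * (M * P)
        = hT q P * (hT q M * H + H * M) * P := by
      simp only [Matrix.mul_add, Matrix.add_mul, Matrix.mul_assoc]
    rw [e3, h3, Matrix.mul_zero, Matrix.zero_mul]

/-- SKEWCONJ: skew forms of similar matrices (`H ↦ hT P * H * P`). -/
theorem uc_skewconj {K : Type*} [Field K] [Fintype K] {q : ℕ} (hK : Fintype.card K = q ^ 2)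
    {ι : Type*} [Fintype ι] [DecidableEq ι] (M N P : Matrix ι ι K) (hP : IsUnit P.det)
    (h : P * N = M * P) :
    Nat.card ↥(skewForms q M) = Nat.card ↥(skewForms q N) := by
  have hPinv : IsUnit (P⁻¹).det := Matrix.isUnit_nonsing_inv_det P hP
  have h' : P⁻¹ * M = N * P⁻¹ := by
    have e : P⁻¹ * M = P⁻¹ * (M * P) * P⁻¹ := by
      rw [Matrix.mul_assoc, Matrix.mul_assoc, Matrix.mul_nonsing_inv P hP, Matrix.mul_one]
    rw [e, ← h, ← Matrix.mul_assoc, Matrix.nonsing_inv_mul P hP, Matrix.one_mul]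
  refine Nat.card_congr ⟨fun H => ⟨hT q P * H.1 * P, skew_map_mem hK M N P hP h H.1 H.2⟩,
    fun H => ⟨hT q P⁻¹ * H.1 * P⁻¹, skew_map_mem hK N M P⁻¹ hPinv h' H.1 H.2⟩, ?_, ?_⟩
  · intro H
    apply Subtype.ext
    show hT q P⁻¹ * (hT q P * H.1 * P) * P⁻¹ = H.1
    have e : hT q P⁻¹ * (hT q P * H.1 * P) * P⁻¹ = (hT q P⁻¹ * hT q P) * H.1 * (P * P⁻¹) := by
      simp only [Matrix.mul_assoc]
    rw [e, ← hT_mul hK, Matrix.mul_nonsing_inv P hP, hT_one hK, Matrix.one_mul, Matrix.mul_one]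
  · intro H
    apply Subtype.ext
    show hT q P * (hT q P⁻¹ * H.1 * P⁻¹) * P = H.1
    have e : hT q P * (hT q P⁻¹ * H.1 * P⁻¹) * P = (hT q P * hT q P⁻¹) * H.1 * (P⁻¹ * P) := by
      simp only [Matrix.mul_assoc]
    rw [e, ← hT_mul hK, Matrix.nonsing_inv_mul P hP, hT_one hK, Matrix.one_mul, Matrix.mul_one]

end Cfsg.Agent.Helper10.UCSKEWCONJ
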